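import Mathlib

/-!
# S4648, piece KU-K1: structure of a non-commutative local symmetric algebra with small centre
-/

set_option autoImplicit false

namespace Cfsg.Agent.Lib.Helper66.Kuls

universe u v

open Module

section Local

variable {F : Type u} {A : Type v} [Field F] [Ring A] [Algebra F A]

/-- a nilpotent element of a nontrivial ring has no left inverse -/
theorem not_left_inv_of_nilpotent [Nontrivial A] {x u : A} (hx : IsNilpotent x)
    (hu : u * x = 1) : False := by
  obtain ⟨k, hk⟩ := hx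
  induction k with
  | zero => rw [pow_zero] at hk; exact one_ne_zero hk
  | succ k ih =>
    apply ih
    calc x ^ k = u * x * x ^ k := by rw [hu, one_mul]
      _ = u * x ^ (k + 1) := by rw [pow_succ', mul_assoc]
      _ = 0 := by rw [hk, mul_zero]

/-- in a local algebra, left multiples of nilpotent elements are nilpotent -/
theorem nilpotent_mul_left [Nontrivial A]
    (hloc : ∀ x : A, ∃ c : F, IsNilpotent (x - algebraMap F A c)) {x : A} (hx : IsNilpotent x)
    (y : A) : IsNilpotent (y * x) := by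
  obtain ⟨c, hc⟩ := hloc (y * x)
  by_cases hc0 : c = 0
  · rw [hc0, map_zero, sub_zero] at hc
    exact hc
  · exfalso
    have hu : IsUnit (algebraMap F A c) := (IsUnit.mk0 c hc0).map (algebraMap F A)
    have hcomm : Commute (y * x - algebraMap F A c) (algebraMap F A c) :=
      (Algebra.commutes c _).symm
    have h2 : IsUnit (algebraMap F A c + (y * x - algebraMap F A c)) :=
      hc.isUnit_add_left_of_commute hu hcomm
    rw [add_sub_cancel] at h2
    obtain ⟨w, hw⟩ := h2.exists_left_inv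
    exact not_left_inv_of_nilpotent hx (u := w * y) (by rw [mul_assoc]; exact hw)

/-- in a local algebra, nilpotent elements lie in the Jacobson radical -/
theorem mem_jacobson_of_nilpotent [Nontrivial A]
    (hloc : ∀ x : A, ∃ c : F, IsNilpotent (x - algebraMap F A c)) {x : A} (hx : IsNilpotent x) :
    x ∈ Ring.jacobson A := by
  rw [← Ideal.jacobson_bot, Ideal.mem_jacobson_iff]
  intro y
  have h1 : IsUnit (y * x + 1) := (nilpotent_mul_left hloc hx y).isUnit_add_one
  obtain ⟨z, hz⟩ := h1.exists_left_inv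
  refine ⟨z, ?_⟩
  rw [Ideal.mem_bot, mul_assoc, ← mul_add_one, hz, sub_self]

/-- the Jacobson radical of a finite-dimensional algebra is nilpotent -/
theorem jacobson_pow_eq_bot [FiniteDimensional F A] : ∃ m : ℕ, (Ring.jacobson A) ^ m = ⊥ := by
  haveI : IsArtinianRing A := IsArtinianRing.of_finite F A
  have h := IsArtinianRing.isNilpotent_jacobson_bot (R := A)
  rw [Ideal.jacobson_bot] at h
  exact h

/-- elements of the Jacobson radical are nilpotent -/
theorem nilpotent_of_mem_jacobson [FiniteDimensional F A] {x : A} (hx : x ∈ Ring.jacobson A) :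
    IsNilpotent x := by
  obtain ⟨m, hm⟩ := jacobson_pow_eq_bot (F := F) (A := A)
  refine ⟨m, ?_⟩
  have := Ideal.pow_mem_pow hx m
  rw [hm, Ideal.mem_bot] at this
  exact this

/-- decomposition of a local algebra -/
theorem exists_sub_mem_jacobson [Nontrivial A]
    (hloc : ∀ x : A, ∃ c : F, IsNilpotent (x - algebraMap F A c)) (x : A) :
    ∃ c : F, x - algebraMap F A c ∈ Ring.jacobson A := by
  obtain ⟨c, hc⟩ := hloc x
  exact ⟨c, mem_jacobson_of_nilpotent hloc hc⟩

theorem one_not_mem_jacobson [Nontrivial A] : (1 : A) ∉ Ring.jacobson A := by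
  intro h
  have := Ring.jacobson_lt_top (R := A)
  exact this.ne ((Ideal.eq_top_iff_one _).mpr h)

end Local

section Form

variable {F : Type u} {A : Type v} [Field F] [Ring A] [Algebra F A]

/-- the form `(a, b) ↦ lam (a * b)` -/
noncomputable def form (lam : A →ₗ[F] F) : LinearMap.BilinForm F A :=
  (LinearMap.mul F A).compr₂ lam

theorem form_apply (lam : A →ₗ[F] F) (a b : A) : form lam a b = lam (a * b) := rfl

theorem form_nondegenerate (lam : A →ₗ[F] F) (hsymm : ∀ x y, lam (x * y) = lam (y * x))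
    (hnd : ∀ x, (∀ y, lam (x * y) = 0) → x = 0) : (form lam).Nondegenerate :=
  ⟨fun x hx => hnd x hx, fun y hy => hnd y (fun x => by rw [hsymm]; exact hy x)⟩

theorem mul_eq_zero_of_mem_orthogonal (lam : A →ₗ[F] F)
    (hsymm : ∀ x y, lam (x * y) = lam (y * x)) (hnd : ∀ x, (∀ y, lam (x * y) = 0) → x = 0)
    (V : Submodule F A) (hVr : ∀ v ∈ V, ∀ y, v * y ∈ V) {a : A}
    (ha : a ∈ (form lam).orthogonal V) {v : A} (hv : v ∈ V) : a * v = 0 := by
  apply hnd
  intro y
  rw [mul_assoc, hsymm]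
  exact ha (v * y) (hVr v hv y)

theorem mul_eq_zero_of_mem_orthogonal' (lam : A →ₗ[F] F)
    (hsymm : ∀ x y, lam (x * y) = lam (y * x)) (hnd : ∀ x, (∀ y, lam (x * y) = 0) → x = 0)
    (V : Submodule F A) (hVl : ∀ v ∈ V, ∀ y, y * v ∈ V) {a : A}
    (ha : a ∈ (form lam).orthogonal V) {v : A} (hv : v ∈ V) : v * a = 0 := by
  apply hnd
  intro y
  rw [hsymm, ← mul_assoc]
  exact ha (y * v) (hVl v hv y)

theorem mem_orthogonal_of_mul_eq_zero (lam : A →ₗ[F] F)
    (hsymm : ∀ x y, lam (x * y) = lam (y * x)) (V : Submodule F A) {a : A}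
    (h : ∀ v ∈ V, a * v = 0) : a ∈ (form lam).orthogonal V := by
  intro v hv
  show lam (v * a) = 0
  rw [hsymm, h v hv, map_zero]

theorem mem_orthogonal_of_mul_eq_zero' (lam : A →ₗ[F] F) (V : Submodule F A) {a : A}
    (h : ∀ v ∈ V, v * a = 0) : a ∈ (form lam).orthogonal V := by
  intro v hv
  show lam (v * a) = 0
  rw [h v hv, map_zero]

/-- the span of the commutators -/
def commSpan (F : Type u) (A : Type v) [Field F] [Ring A] [Algebra F A] : Submodule F A :=
  Submodule.span F {z | ∃ a b : A, z = a * b - b * a}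

theorem lam_commSpan (lam : A →ₗ[F] F) (hsymm : ∀ x y, lam (x * y) = lam (y * x)) {z : A}
    (hz : z ∈ commSpan F A) : lam z = 0 := by
  induction hz using Submodule.span_induction with
  | mem z hz =>
    obtain ⟨a, b, rfl⟩ := hz
    rw [map_sub, hsymm, sub_self]
  | zero => exact map_zero _
  | add x y _ _ hx hy => rw [map_add, hx, hy, add_zero]
  | smul c x _ hx => rw [map_smul, hx, smul_zero]

theorem orthogonal_commSpan (lam : A →ₗ[F] F) (hsymm : ∀ x y, lam (x * y) = lam (y * x))
    (hnd : ∀ x, (∀ y, lam (x * y) = 0) → x = 0) :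
    (form lam).orthogonal (commSpan F A) = Subalgebra.toSubmodule (Subalgebra.center F A) := by
  ext a
  rw [Subalgebra.mem_toSubmodule, Subalgebra.mem_center_iff]
  constructor
  · intro ha b
    have : a * b - b * a = 0 := by
      apply hnd
      intro y
      have h1 : lam ((b * y - y * b) * a) = 0 :=
        ha (b * y - y * b) (Submodule.subset_span ⟨b, y, rfl⟩)
      rw [sub_mul, map_sub] at h1 ⊢
      have e1 : lam (a * b * y) = lam (b * y * a) := by rw [mul_assoc, hsymm]
      have e2 : lam (b * a * y) = lam (y * b * a) := by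
        rw [mul_assoc b a y, hsymm b (a * y), mul_assoc a y b, hsymm a (y * b)]
      rw [e1, e2]
      exact h1
    exact (sub_eq_zero.mp this).symm
  · intro ha k hk
    show lam (k * a) = 0
    induction hk using Submodule.span_induction with
    | mem z hz =>
      obtain ⟨b, c, rfl⟩ := hz
      rw [sub_mul, map_sub, mul_assoc b c a, mul_assoc c b a, hsymm c (b * a), ha c,
        ← mul_assoc, sub_self]
    | zero => rw [zero_mul, map_zero]
    | add x y _ _ hx hy => rw [add_mul, map_add, hx, hy, add_zero]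
    | smul c x _ hx => rw [smul_mul_assoc, map_smul, hx, smul_zero]

end Form

section LinAlg

variable {F : Type u} {V : Type v} [Field F] [AddCommGroup V] [Module F V] [FiniteDimensional F V]

theorem finrank_lt_sup_span {W : Submodule F V} {x : V} (hx : x ∉ W) :
    finrank F W < finrank F (W ⊔ Submodule.span F {x} : Submodule F V) := by
  apply Submodule.finrank_lt_finrank_of_lt
  refine lt_of_le_of_ne le_sup_left (fun h => hx ?_)
  rw [h]
  exact Submodule.mem_sup_right (Submodule.mem_span_singleton_self x)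

theorem exists_span_one {W U : Submodule F V} (hWU : W ≤ U)
    (h : finrank F U ≤ finrank F W + 1) : ∃ x ∈ U, U ≤ W ⊔ Submodule.span F {x} := by
  by_cases hUW : U ≤ W
  · exact ⟨0, zero_mem _, hUW.trans le_sup_left⟩
  · obtain ⟨x, hxU, hxW⟩ := SetLike.not_le_iff_exists.mp hUW
    refine ⟨x, hxU, ?_⟩
    have hle : W ⊔ Submodule.span F {x} ≤ U :=
      sup_le hWU ((Submodule.span_singleton_le_iff_mem x U).mpr hxU)
    have := finrank_lt_sup_span hxW
    exact (Submodule.eq_of_le_of_finrank_le hle (by omega)).ge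

theorem exists_span_two {W U : Submodule F V} (hWU : W ≤ U)
    (h : finrank F U ≤ finrank F W + 2) :
    ∃ x ∈ U, ∃ y ∈ U, U ≤ W ⊔ Submodule.span F {x} ⊔ Submodule.span F {y} := by
  by_cases hUW : U ≤ W
  · exact ⟨0, zero_mem _, 0, zero_mem _, hUW.trans (le_sup_left.trans le_sup_left)⟩
  · obtain ⟨x, hxU, hxW⟩ := SetLike.not_le_iff_exists.mp hUW
    have hle : W ⊔ Submodule.span F {x} ≤ U :=
      sup_le hWU ((Submodule.span_singleton_le_iff_mem x U).mpr hxU)
    have := finrank_lt_sup_span hxW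
    obtain ⟨y, hyU, hy⟩ := exists_span_one hle (by omega)
    exact ⟨x, hxU, y, hyU, hy⟩

end LinAlg

section Powers

variable {A : Type v} [Ring A] (J : Ideal A)

theorem mul_mem_pow_succ {k : ℕ} {a b : A} (ha : a ∈ J ^ k) (hb : b ∈ J) :
    a * b ∈ J ^ (k + 1) := by
  rw [Submodule.pow_succ]
  exact Ideal.mul_mem_mul ha hb

theorem mul_mem_pow_succ' [J.IsTwoSided] {k : ℕ} {a b : A} (ha : a ∈ J) (hb : b ∈ J ^ k) :
    a * b ∈ J ^ (k + 1) := by
  rw [Ideal.IsTwoSided.pow_succ]
  exact Ideal.mul_mem_mul ha hb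

theorem mul_mem_sq [J.IsTwoSided] {a b : A} (ha : a ∈ J) (hb : b ∈ J) : a * b ∈ J ^ 2 :=
  mul_mem_pow_succ' J (k := 1) ha (by rw [Submodule.pow_one]; exact hb)

theorem sq_le : J ^ 2 ≤ J := Ideal.pow_le_self (by norm_num)

theorem pow_induction {k : ℕ} {C : A → Prop} {r : A} (hr : r ∈ J ^ (k + 1))
    (hm : ∀ m ∈ J ^ k, ∀ n ∈ J, C (m * n)) (ha : ∀ x y, C x → C y → C (x + y)) : C r := by
  rw [Submodule.pow_succ] at hr
  exact Submodule.mul_induction_on hr hm ha

theorem sq_induction {C : A → Prop} {r : A} (hr : r ∈ J ^ 2)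
    (hm : ∀ m ∈ J, ∀ n ∈ J, C (m * n)) (ha : ∀ x y, C x → C y → C (x + y)) : C r :=
  pow_induction J (k := 1) hr (fun m hm' n hn => hm m (by rwa [Submodule.pow_one] at hm') n hn) ha

end Powers

section Comm

variable {F : Type u} {A : Type v} [Field F] [Ring A] [Algebra F A]

theorem comm_of_comm_jacobson (J : Ideal A)
    (hdec : ∀ x : A, ∃ c : F, x - algebraMap F A c ∈ J)
    (h : ∀ a ∈ J, ∀ b ∈ J, a * b = b * a) (x y : A) : x * y = y * x := by
  obtain ⟨c, hc⟩ := hdec x
  obtain ⟨d, hd⟩ := hdec y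
  obtain ⟨a, ha, rfl⟩ : ∃ a ∈ J, x = algebraMap F A c + a :=
    ⟨x - algebraMap F A c, hc, by abel⟩
  obtain ⟨b, hb, rfl⟩ : ∃ b ∈ J, y = algebraMap F A d + b :=
    ⟨y - algebraMap F A d, hd, by abel⟩
  rw [add_mul, mul_add, mul_add, add_mul, mul_add, mul_add, h a ha b hb, Algebra.commutes c b,
    Algebra.commutes d a, Algebra.commutes c (algebraMap F A d)]
  abel

theorem comm_of_gen_one (J : Ideal A) [J.IsTwoSided] (hJ : ∃ m : ℕ, J ^ m = ⊥) (x : A)
    (h1 : ∀ a ∈ J, ∃ α : F, a - α • x ∈ J ^ 2) : ∀ a ∈ J, ∀ b ∈ J, a * b = b * a := by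
  have key : ∀ k : ℕ, ∀ a ∈ J, ∀ b ∈ J, a * b - b * a ∈ J ^ (k + 2) := by
    intro k
    induction k with
    | zero =>
      intro a ha b hb
      exact sub_mem (mul_mem_sq J ha hb) (mul_mem_sq J hb ha)
    | succ k ih =>
      have R1 : ∀ u ∈ J, ∀ b' ∈ J ^ 2, u * b' - b' * u ∈ J ^ (k + 2 + 1) := by
        intro u hu b' hb'
        refine sq_induction J (C := fun b' => u * b' - b' * u ∈ J ^ (k + 2 + 1)) hb' ?_ ?_
        · intro v hv w hw
          have e : u * (v * w) - v * w * u = (u * v - v * u) * w + v * (u * w - w * u) := by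
            noncomm_ring
          show u * (v * w) - v * w * u ∈ J ^ (k + 2 + 1)
          rw [e]
          exact add_mem (mul_mem_pow_succ J (ih u hu v hv) hw)
            (mul_mem_pow_succ' J hv (ih u hu w hw))
        · intro p q hp hq
          have e : u * (p + q) - (p + q) * u = (u * p - p * u) + (u * q - q * u) := by
            noncomm_ring
          show u * (p + q) - (p + q) * u ∈ J ^ (k + 2 + 1)
          rw [e]
          exact add_mem hp hq
      intro a ha b hb
      obtain ⟨α, hα⟩ := h1 a ha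
      obtain ⟨β, hβ⟩ := h1 b hb
      have hxJ : ∀ (γ : F) (c : A), c ∈ J → c - γ • x ∈ J ^ 2 → γ • x ∈ J := by
        intro γ c hc hc2
        have : γ • x = c - (c - γ • x) := by abel
        rw [this]
        exact sub_mem hc (sq_le J hc2)
      obtain ⟨a', ha', rfl⟩ : ∃ a' ∈ J ^ 2, a = α • x + a' := ⟨a - α • x, hα, by abel⟩
      obtain ⟨b', hb', rfl⟩ : ∃ b' ∈ J ^ 2, b = β • x + b' := ⟨b - β • x, hβ, by abel⟩
      have hαx : α • x ∈ J := hxJ α _ ha (by simpa using ha')
      have hβx : β • x ∈ J := hxJ β _ hb (by simpa using hb')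
      have e : (α • x + a') * (β • x + b') - (β • x + b') * (α • x + a') =
          ((α • x) * b' - b' * (α • x)) - ((β • x) * a' - a' * (β • x)) + (a' * b' - b' * a') := by
        have e0 : (α • x) * (β • x) = (β • x) * (α • x) := by
          rw [smul_mul_assoc, mul_smul_comm, smul_mul_assoc, mul_smul_comm, smul_comm]
        rw [add_mul, mul_add, mul_add, add_mul, mul_add, mul_add, e0]
        abel
      rw [e]
      exact add_mem (sub_mem (R1 _ hαx _ hb') (R1 _ hβx _ ha')) (R1 _ (sq_le J ha') _ hb')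
  intro a ha b hb
  obtain ⟨m, hm⟩ := hJ
  have h2 := key m a ha b hb
  have h3 : J ^ (m + 2) ≤ J ^ m := Ideal.pow_le_pow_right (by omega)
  have h4 := h3 h2
  rw [hm, Ideal.mem_bot] at h4
  exact sub_eq_zero.mp h4

end Comm

section Main

variable {F : Type u} {A : Type v} [Field F] [Ring A] [Algebra F A]

theorem comm_shift (c d : F) (p q : A) :
    (algebraMap F A c + p) * (algebraMap F A d + q) -
      (algebraMap F A d + q) * (algebraMap F A c + p) = p * q - q * p := by
  rw [add_mul, mul_add, mul_add, add_mul, mul_add, mul_add, Algebra.commutes c q,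
    Algebra.commutes d p, Algebra.commutes c (algebraMap F A d)]
  abel

theorem comm_pair (α β α' β' : F) (x y : A) :
    (α • x + β • y) * (α' • x + β' • y) - (α' • x + β' • y) * (α • x + β • y) =
      (α * β' - β * α') • (x * y - y * x) := by
  simp only [add_mul, mul_add, smul_mul_assoc, mul_smul_comm, smul_sub, sub_smul]
  module

/-- the powers of an ideal as subspaces -/
def Vp (F : Type u) {A : Type v} [Field F] [Ring A] [Algebra F A] (J : Ideal A) (k : ℕ) :
    Submodule F A := (J ^ k).restrictScalars F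

theorem mem_Vp (J : Ideal A) (k : ℕ) (a : A) : a ∈ Vp F J k ↔ a ∈ J ^ k := Iff.rfl

theorem mem_Vp_one (J : Ideal A) (a : A) : a ∈ Vp F J 1 ↔ a ∈ J := by
  rw [mem_Vp, Submodule.pow_one]

variable [FiniteDimensional F A]

theorem kuls_K1 (lam : A →ₗ[F] F) (hsymm : ∀ x y, lam (x * y) = lam (y * x))
    (hnd : ∀ x, (∀ y, lam (x * y) = 0) → x = 0)
    (hloc : ∀ x : A, ∃ c : F, IsNilpotent (x - algebraMap F A c))
    (hZ : Module.finrank F (Subalgebra.center F A) ≤ 4)
    (hnc : ¬ ∀ x y : A, x * y = y * x) :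
    ∃ (J : Ideal A) (_ : J.IsTwoSided) (x y : A), (∃ m : ℕ, J ^ m = ⊥) ∧ x ∈ J ∧ y ∈ J ∧
      (∀ a ∈ J, ∃ α β : F, a - (α • x + β • y) ∈ J ^ 2) ∧
      (∀ a ∈ J ^ 2, ∃ γ : F, a - γ • (x * y - y * x) ∈ J ^ 3) ∧ J ^ 3 ≠ ⊥ := by
  classical
  haveI : Nontrivial A := by
    by_contra h
    rw [not_nontrivial_iff_subsingleton] at h
    exact hnc (fun x y => Subsingleton.elim _ _)
  obtain ⟨J, hJdef⟩ : ∃ J : Ideal A, J = Ring.jacobson A := ⟨_, rfl⟩
  haveI hJ2 : J.IsTwoSided := by rw [hJdef]; infer_instance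
  have hdec : ∀ x : A, ∃ c : F, x - algebraMap F A c ∈ J := by
    rw [hJdef]; exact exists_sub_mem_jacobson hloc
  have hnil : ∃ m : ℕ, J ^ m = ⊥ := by rw [hJdef]; exact jacobson_pow_eq_bot (F := F)
  have h1J : (1 : A) ∉ J := by rw [hJdef]; exact one_not_mem_jacobson
  have hB := form_nondegenerate lam hsymm hnd
  have hJJ : ¬ ∀ a ∈ J, ∀ b ∈ J, a * b = b * a :=
    fun h => hnc (comm_of_comm_jacobson J hdec h)
  have hVr : ∀ k, ∀ v ∈ Vp F J k, ∀ y, v * y ∈ Vp F J k :=
    fun k v hv y => (J ^ k).mul_mem_right y hv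
  have hVl : ∀ k, ∀ v ∈ Vp F J k, ∀ y, y * v ∈ Vp F J k :=
    fun k v hv y => (J ^ k).mul_mem_left y hv
  -- an element killed by `J` on which `lam` vanishes is zero
  have hS2 : ∀ s : A, (∀ j ∈ J, s * j = 0) → lam s = 0 → s = 0 := by
    intro s hs hl
    apply hnd
    intro y
    obtain ⟨c, hc⟩ := hdec y
    have : s * y = c • s := by
      have hy : y = algebraMap F A c + (y - algebraMap F A c) := by abel
      rw [hy, mul_add, hs _ hc, add_zero, ← Algebra.commutes, Algebra.smul_def]
    rw [this, map_smul, hl, smul_zero]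
  have hO1 : ∀ a, a ∈ (form lam).orthogonal (Vp F J 1) → ∀ j ∈ J, a * j = 0 :=
    fun a ha j hj => mul_eq_zero_of_mem_orthogonal lam hsymm hnd (Vp F J 1) (hVr 1) ha
      ((mem_Vp_one J j).mpr hj)
  -- the cube of the radical is not zero
  have h3 : J ^ 3 ≠ ⊥ := by
    intro h3
    apply hJJ
    intro a ha b hb
    have hs : ∀ j ∈ J, (a * b - b * a) * j = 0 := by
      intro j hj
      have e1 : a * b * j ∈ J ^ 3 := mul_mem_pow_succ J (mul_mem_sq J ha hb) hj
      have e2 : b * a * j ∈ J ^ 3 := mul_mem_pow_succ J (mul_mem_sq J hb ha) hj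
      rw [h3, Ideal.mem_bot] at e1 e2
      rw [sub_mul, e1, e2, sub_zero]
    have hl : lam (a * b - b * a) = 0 := by rw [map_sub, hsymm, sub_self]
    exact sub_eq_zero.mp (hS2 _ hs hl)
  have h2 : J ^ 2 ≠ ⊥ := by
    intro h2
    apply h3
    have : J ^ 3 ≤ J ^ 2 := Ideal.pow_le_pow_right (by norm_num)
    rw [h2] at this
    exact le_bot_iff.mp this
  -- the annihilator of the square of the radical is central
  have hcen : (form lam).orthogonal (Vp F J 2) ≤
      Subalgebra.toSubmodule (Subalgebra.center F A) := by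
    intro a ha
    rw [Subalgebra.mem_toSubmodule, Subalgebra.mem_center_iff]
    have hab : ∀ b ∈ J, a * b = b * a := by
      intro b hb
      have h1 : a * b ∈ (form lam).orthogonal (Vp F J 1) := by
        apply mem_orthogonal_of_mul_eq_zero lam hsymm
        intro j hj
        rw [mul_assoc]
        exact mul_eq_zero_of_mem_orthogonal lam hsymm hnd (Vp F J 2) (hVr 2) ha
          (mul_mem_sq J hb ((mem_Vp_one J j).mp hj))
      have h2 : b * a ∈ (form lam).orthogonal (Vp F J 1) := by
        apply mem_orthogonal_of_mul_eq_zero' lam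
        intro j hj
        rw [← mul_assoc]
        exact mul_eq_zero_of_mem_orthogonal' lam hsymm hnd (Vp F J 2) (hVl 2) ha
          (mul_mem_sq J ((mem_Vp_one J j).mp hj) hb)
      have h3 := sub_mem h1 h2
      have hl : lam (a * b - b * a) = 0 := by rw [map_sub, hsymm, sub_self]
      exact sub_eq_zero.mp (hS2 _ (hO1 _ h3) hl)
    intro y
    obtain ⟨c, hc⟩ := hdec y
    have hy : y = algebraMap F A c + (y - algebraMap F A c) := by abel
    rw [hy, add_mul, mul_add, hab _ hc, Algebra.commutes]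
  -- dimensions
  have hZdim : finrank F (Subalgebra.center F A) =
      finrank F A - finrank F (commSpan F A) := by
    have := LinearMap.BilinForm.finrank_orthogonal hB (commSpan F A)
    rw [orthogonal_commSpan lam hsymm hnd, Subalgebra.finrank_toSubmodule] at this
    exact this
  have hV2perp := LinearMap.BilinForm.finrank_orthogonal hB (Vp F J 2)
  have hlt1 : finrank F ((form lam).orthogonal (Vp F J 2)) <
      finrank F (Subalgebra.center F A) := by
    have h1 : (1 : A) ∉ (form lam).orthogonal (Vp F J 2) := by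
      intro h1
      apply h2
      rw [eq_bot_iff]
      intro v hv
      have := mul_eq_zero_of_mem_orthogonal lam hsymm hnd (Vp F J 2) (hVr 2) h1 hv
      rw [one_mul] at this
      rw [this]
      exact zero_mem _
    have h1c : (1 : A) ∈ Subalgebra.toSubmodule (Subalgebra.center F A) :=
      one_mem (Subalgebra.center F A)
    have hle : (form lam).orthogonal (Vp F J 2) ⊔ Submodule.span F {(1 : A)} ≤
        Subalgebra.toSubmodule (Subalgebra.center F A) :=
      sup_le hcen ((Submodule.span_singleton_le_iff_mem _ _).mpr h1c)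
    have e1 := finrank_lt_sup_span h1
    have e2 := Submodule.finrank_mono hle
    rw [Subalgebra.finrank_toSubmodule] at e2
    exact lt_of_lt_of_le e1 e2
  have hj1 : finrank F (Vp F J 1) < finrank F A := by
    apply Submodule.finrank_lt
    intro htop
    apply h1J
    rw [← mem_Vp_one (F := F), htop]
    exact Submodule.mem_top
  have hj21 : Vp F J 2 ≤ Vp F J 1 := fun a ha => (mem_Vp_one J a).mpr (sq_le J ha)
  have hj32 : Vp F J 3 ≤ Vp F J 2 := fun a ha => Ideal.pow_le_pow_right (by norm_num) ha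
  have hd2 : ¬ finrank F (Vp F J 1) ≤ finrank F (Vp F J 2) + 1 := by
    intro hd
    obtain ⟨x, hx, hxs⟩ := exists_span_one hj21 hd
    apply hJJ
    apply comm_of_gen_one (F := F) J hnil x
    intro a ha
    obtain ⟨w, hw, z, hz, hwz⟩ := Submodule.mem_sup.mp (hxs ((mem_Vp_one J a).mpr ha))
    obtain ⟨α, rfl⟩ := Submodule.mem_span_singleton.mp hz
    refine ⟨α, ?_⟩
    rw [← hwz, add_sub_cancel_right]
    exact hw
  have hn3 : finrank F A ≤ finrank F (Vp F J 2) + 3 := by omega
  have hj1' : finrank F (Vp F J 1) = finrank F (Vp F J 2) + 2 := by omega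
  have hKc4 : finrank F A ≤ finrank F (commSpan F A) + 4 := by omega
  -- two generators modulo the square
  obtain ⟨x, hx, y, hy, hxy⟩ := exists_span_two hj21 (by omega)
  have hxJ : x ∈ J := (mem_Vp_one J x).mp hx
  have hyJ : y ∈ J := (mem_Vp_one J y).mp hy
  have hO2 : ∀ a ∈ J, ∃ α β : F, a - (α • x + β • y) ∈ J ^ 2 := by
    intro a ha
    obtain ⟨w, hw, z, hz, hwz⟩ := Submodule.mem_sup.mp (hxy ((mem_Vp_one J a).mpr ha))
    obtain ⟨β, rfl⟩ := Submodule.mem_span_singleton.mp hz
    obtain ⟨w2, hw2, z2, hz2, rfl⟩ := Submodule.mem_sup.mp hw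
    obtain ⟨α, rfl⟩ := Submodule.mem_span_singleton.mp hz2
    refine ⟨α, β, ?_⟩
    have : a - (α • x + β • y) = w2 := by rw [← hwz]; abel
    rw [this]
    exact hw2
  -- the socle element
  obtain ⟨s0, hs03, hs0J, hs0ne⟩ : ∃ s0 : A, s0 ∈ J ^ 3 ∧ (∀ j ∈ J, s0 * j = 0) ∧ s0 ≠ 0 := by
    have hm0 : J ^ (Nat.find hnil) = ⊥ := Nat.find_spec hnil
    have hm04 : 4 ≤ Nat.find hnil := by
      by_contra hlt
      push Not at hlt
      apply h3
      have : J ^ 3 ≤ J ^ (Nat.find hnil) := Ideal.pow_le_pow_right (by omega)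
      rw [hm0] at this
      exact le_bot_iff.mp this
    have hne : J ^ (Nat.find hnil - 1) ≠ ⊥ :=
      Nat.find_min hnil (by omega : Nat.find hnil - 1 < Nat.find hnil)
    obtain ⟨s0, hs0, hs0ne⟩ := Submodule.exists_mem_ne_zero_of_ne_bot hne
    refine ⟨s0, Ideal.pow_le_pow_right (by omega) hs0, ?_, hs0ne⟩
    intro j hj
    have := mul_mem_pow_succ J hs0 hj
    rw [show Nat.find hnil - 1 + 1 = Nat.find hnil by omega, hm0, Ideal.mem_bot] at this
    exact this
  have hlam0 : lam s0 ≠ 0 := fun h => hs0ne (hS2 s0 hs0J h)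
  -- the commutator space
  have hKcV2 : commSpan F A ≤ Vp F J 2 := by
    apply Submodule.span_le.mpr
    rintro z ⟨a, b, rfl⟩
    obtain ⟨c, hc⟩ := hdec a
    obtain ⟨d, hd⟩ := hdec b
    obtain ⟨a', ha', rfl⟩ : ∃ a' ∈ J, a = algebraMap F A c + a' :=
      ⟨a - algebraMap F A c, hc, by abel⟩
    obtain ⟨b', hb', rfl⟩ : ∃ b' ∈ J, b = algebraMap F A d + b' :=
      ⟨b - algebraMap F A d, hd, by abel⟩
    show _ ∈ J ^ 2
    rw [comm_shift]
    exact sub_mem (mul_mem_sq J ha' hb') (mul_mem_sq J hb' ha')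
  have hKcW : commSpan F A ≤ Vp F J 2 ⊓ LinearMap.ker lam :=
    le_inf hKcV2 (fun z hz => LinearMap.mem_ker.mpr (lam_commSpan lam hsymm hz))
  have hWlt : Vp F J 2 ⊓ LinearMap.ker lam < Vp F J 2 := by
    refine lt_of_le_of_ne inf_le_left (fun h => hlam0 ?_)
    have : s0 ∈ Vp F J 2 ⊓ LinearMap.ker lam := by
      rw [h]
      exact hj32 hs03
    exact LinearMap.mem_ker.mp this.2
  have hWeq : commSpan F A = Vp F J 2 ⊓ LinearMap.ker lam := by
    have := Submodule.finrank_lt_finrank_of_lt hWlt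
    exact Submodule.eq_of_le_of_finrank_le hKcW (by omega)
  have hKc3 : commSpan F A ≤ Submodule.span F {x * y - y * x} ⊔ Vp F J 3 := by
    apply Submodule.span_le.mpr
    rintro z ⟨a, b, rfl⟩
    obtain ⟨c, hc⟩ := hdec a
    obtain ⟨d, hd⟩ := hdec b
    obtain ⟨α, β, hαβ⟩ := hO2 _ hc
    obtain ⟨α', β', hαβ'⟩ := hO2 _ hd
    obtain ⟨a', ha', rfl⟩ : ∃ a' ∈ J ^ 2, a = algebraMap F A c + ((α • x + β • y) + a') :=
      ⟨a - algebraMap F A c - (α • x + β • y), hαβ, by abel⟩
    obtain ⟨b', hb', rfl⟩ : ∃ b' ∈ J ^ 2, b = algebraMap F A d + ((α' • x + β' • y) + b') :=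
      ⟨b - algebraMap F A d - (α' • x + β' • y), hαβ', by abel⟩
    have hu : α • x + β • y ∈ J :=
      add_mem (Submodule.smul_of_tower_mem J α hxJ) (Submodule.smul_of_tower_mem J β hyJ)
    have hu' : α' • x + β' • y ∈ J :=
      add_mem (Submodule.smul_of_tower_mem J α' hxJ) (Submodule.smul_of_tower_mem J β' hyJ)
    have e2 : ∀ u u' p q : A, (u + p) * (u' + q) - (u' + q) * (u + p) =
        (u * u' - u' * u) + ((u * q - q * u) + (p * u' - u' * p) + (p * q - q * p)) := by
      intro u u' p q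
      noncomm_ring
    show _ ∈ _
    rw [comm_shift, e2, comm_pair]
    refine Submodule.add_mem_sup (Submodule.smul_mem _ _ (Submodule.mem_span_singleton_self _)) ?_
    show _ ∈ J ^ 3
    exact add_mem (add_mem (sub_mem (mul_mem_pow_succ' J hu hb') (mul_mem_pow_succ J hb' hu))
      (sub_mem (mul_mem_pow_succ J ha' hu') (mul_mem_pow_succ' J hu' ha')))
      (sub_mem (mul_mem_pow_succ' J (sq_le J ha') hb') (mul_mem_pow_succ' J (sq_le J hb') ha'))
  have hO3 : ∀ a ∈ J ^ 2, ∃ γ : F, a - γ • (x * y - y * x) ∈ J ^ 3 := by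
    intro a ha
    have haW : a - (lam a / lam s0) • s0 ∈ Vp F J 2 ⊓ LinearMap.ker lam := by
      refine ⟨sub_mem ha (Submodule.smul_mem (Vp F J 2) _ (hj32 hs03)), ?_⟩
      rw [SetLike.mem_coe, LinearMap.mem_ker, map_sub, map_smul, smul_eq_mul,
        div_mul_cancel₀ _ hlam0, sub_self]
    rw [← hWeq] at haW
    obtain ⟨w, hw, z, hz, hwz⟩ := Submodule.mem_sup.mp (hKc3 haW)
    obtain ⟨γ, rfl⟩ := Submodule.mem_span_singleton.mp hw
    refine ⟨γ, ?_⟩
    have : a - γ • (x * y - y * x) = z + (lam a / lam s0) • s0 := by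
      rw [← sub_eq_iff_eq_add, sub_right_comm, ← hwz, add_sub_cancel_left]
    rw [this]
    exact add_mem hz (Submodule.smul_of_tower_mem (J ^ 3) _ hs03)
  exact ⟨J, hJ2, x, y, hnil, hxJ, hyJ, hO2, hO3, h3⟩

end Main

end Cfsg.Agent.Lib.Helper66.Kuls
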