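import Mathlib
import Cfsg.Prelude.Def_GeometricClasses
import Cfsg.Agent.Lib.Helper71.Asch0
import Cfsg.Agent.Lib.Helper71.Asch5

/-!
# S5630 piece SC: in the symplectic-type branch `L` is an `r`-group

If `L` is minimal non-scalar normalised by `H`, `⁅L, L⁆` is scalar and `x ^ r` is scalar for all
`x ∈ L`, then every element of `L` has `r`-power order.
-/

set_option autoImplicit false

namespace Cfsg.Agent.Lib.Helper66.ASSC

open Matrix Cfsg.Geo Cfsg.Agent.Lib.Helper71.Asch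
open scoped Kronecker

variable {n : ℕ} {F : Type*} [Field F] [Fintype F]

omit [Fintype F] in
theorem scalar_comm {g : GL (Fin n) F} (hg : g ∈ scalars (Fin n) F) (y : GL (Fin n) F) :
    g * y = y * g := by
  obtain ⟨c, hc⟩ := (mem_scalars_iff g).mp hg
  apply Units.ext
  rw [Units.val_mul, Units.val_mul, hc, Matrix.smul_mul, Matrix.mul_smul, Matrix.one_mul,
    Matrix.mul_one]

/-- `y ^ m * x = c ^ m * x * y ^ m` when `y * x = c * x * y` and `c` commutes with `y`. -/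
theorem pow_comm_aux {G : Type*} [Group G] {x y c : G} (hcy : c * y = y * c)
    (h : y * x = c * x * y) (m : ℕ) : y ^ m * x = c ^ m * x * y ^ m := by
  induction m with
  | zero => simp
  | succ m ih =>
    have hcym : c * y ^ m = y ^ m * c := (Commute.pow_right (show Commute c y from hcy) m).eq
    calc y ^ (m + 1) * x = y ^ m * (y * x) := by rw [pow_succ, mul_assoc]
      _ = y ^ m * (c * x * y) := by rw [h]
      _ = c * (y ^ m * x) * y := by
          rw [← mul_assoc, ← mul_assoc, ← hcym, mul_assoc c]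
      _ = c * (c ^ m * x * y ^ m) * y := by rw [ih]
      _ = c ^ (m + 1) * x * y ^ (m + 1) := by
          rw [pow_succ' c, pow_succ y]
          simp only [mul_assoc]

/-- `(x * y) ^ m = c ^ e * (x ^ m * y ^ m)` for some `e`, when `y * x = c * x * y` and `c` commutes
with `x` and `y`. -/
theorem mul_pow_aux {G : Type*} [Group G] {x y c : G} (hcx : c * x = x * c) (hcy : c * y = y * c)
    (h : y * x = c * x * y) (m : ℕ) : ∃ e : ℕ, (x * y) ^ m = c ^ e * (x ^ m * y ^ m) := by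
  induction m with
  | zero => exact ⟨0, by simp⟩
  | succ m ih =>
    obtain ⟨e, he⟩ := ih
    refine ⟨e + m, ?_⟩
    have hB := pow_comm_aux hcy h m
    have hcx' : x ^ m * c ^ m = c ^ m * x ^ m :=
      ((Commute.pow_pow (show Commute c x from hcx) m m).eq).symm
    calc (x * y) ^ (m + 1) = c ^ e * (x ^ m * y ^ m) * (x * y) := by rw [pow_succ, he]
      _ = c ^ e * (x ^ m * (y ^ m * x) * y) := by simp only [mul_assoc]
      _ = c ^ e * (x ^ m * (c ^ m * x * y ^ m) * y) := by rw [hB]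
      _ = c ^ e * ((x ^ m * c ^ m) * (x * (y ^ m * y))) := by simp only [mul_assoc]
      _ = c ^ e * ((c ^ m * x ^ m) * (x * (y ^ m * y))) := by rw [hcx']
      _ = c ^ (e + m) * (x ^ (m + 1) * y ^ (m + 1)) := by
          rw [pow_add, pow_succ x, pow_succ y]
          simp only [mul_assoc]

/-- SC -/
theorem SC (H L : Subgroup (GL (Fin n) F)) (h : SymT H L) (r : ℕ) (hr : r.Prime)
    (hx : ∀ x ∈ L, x ^ r ∈ scalars (Fin n) F) : ∀ x ∈ L, ∃ j : ℕ, x ^ (r ^ j) = 1 := by
  classical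
  -- closure under multiplication
  have hmul : ∀ x ∈ L, ∀ y ∈ L, (∃ i : ℕ, x ^ (r ^ i) = 1) → (∃ j : ℕ, y ^ (r ^ j) = 1) →
      ∃ k : ℕ, (x * y) ^ (r ^ k) = 1 := by
    intro x hxL y hyL ⟨i, hi⟩ ⟨j, hj⟩
    have hcs : y * x * y⁻¹ * x⁻¹ ∈ scalars (Fin n) F := by
      have h1 := Subgroup.commutator_mem_commutator hyL hxL
      rw [commutatorElement_def] at h1
      exact h.comm h1
    have hcx : (y * x * y⁻¹ * x⁻¹) * x = x * (y * x * y⁻¹ * x⁻¹) := scalar_comm hcs x
    have hcy : (y * x * y⁻¹ * x⁻¹) * y = y * (y * x * y⁻¹ * x⁻¹) := scalar_comm hcs y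
    have hyx : y * x = (y * x * y⁻¹ * x⁻¹) * x * y := by group
    -- `c ^ r = 1`
    have hcr : (y * x * y⁻¹ * x⁻¹) ^ r = 1 := by
      have h1 := pow_comm_aux hcy hyx r
      have h2 : y ^ r * x = x * y ^ r := scalar_comm (hx y hyL) x
      rw [h2, mul_assoc] at h1
      have h3 : (1 : GL (Fin n) F) * (x * y ^ r) = (y * x * y⁻¹ * x⁻¹) ^ r * (x * y ^ r) := by
        rw [one_mul]
        exact h1
      exact (mul_right_cancel h3).symm
    obtain ⟨e, he⟩ := mul_pow_aux hcx hcy hyx r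
    refine ⟨i + j + 2, ?_⟩
    have hxr := hx x hxL
    have hyr := hx y hyL
    have hce : (y * x * y⁻¹ * x⁻¹) ^ e ∈ scalars (Fin n) F := Subgroup.pow_mem _ hcs e
    have hc1 : Commute ((y * x * y⁻¹ * x⁻¹) ^ e) (x ^ r * y ^ r) := scalar_comm hce _
    have hc2 : Commute (x ^ r) (y ^ r) := scalar_comm hxr _
    have e1 : r ^ (i + j + 2) = r * r ^ (i + j + 1) := by ring
    rw [e1, pow_mul, he, hc1.mul_pow, hc2.mul_pow]
    have t1 : ((y * x * y⁻¹ * x⁻¹) ^ e) ^ r ^ (i + j + 1) = 1 := by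
      rw [← pow_mul]
      have e2 : e * r ^ (i + j + 1) = r * (e * r ^ (i + j)) := by ring
      rw [e2, pow_mul, hcr, one_pow]
    have t2 : (x ^ r) ^ r ^ (i + j + 1) = 1 := by
      rw [← pow_mul]
      have e2 : r * r ^ (i + j + 1) = r ^ i * r ^ (j + 2) := by ring
      rw [e2, pow_mul, hi, one_pow]
    have t3 : (y ^ r) ^ r ^ (i + j + 1) = 1 := by
      rw [← pow_mul]
      have e2 : r * r ^ (i + j + 1) = r ^ j * r ^ (i + 2) := by ring
      rw [e2, pow_mul, hj, one_pow]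
    rw [t1, t2, t3, one_mul, one_mul]
  -- the subgroup of `r`-elements of `L`
  let P : Subgroup (GL (Fin n) F) :=
    { carrier := {x | x ∈ L ∧ ∃ j : ℕ, x ^ (r ^ j) = 1}
      mul_mem' := fun {a b} ha hb => ⟨L.mul_mem ha.1 hb.1, hmul a ha.1 b hb.1 ha.2 hb.2⟩
      one_mem' := ⟨L.one_mem, 0, one_pow _⟩
      inv_mem' := fun {a} ha => by
        obtain ⟨j, hj⟩ := ha.2
        exact ⟨L.inv_mem ha.1, j, by rw [inv_pow, hj, inv_one]⟩ }
  have hPmem : ∀ x, x ∈ P ↔ x ∈ L ∧ ∃ j : ℕ, x ^ (r ^ j) = 1 := fun x => Iff.rfl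
  have hPL : P ≤ L := fun x hxP => ((hPmem x).mp hxP).1
  have hPn : Nrm H P := by
    intro g hg x hxP
    obtain ⟨hxL, j, hj⟩ := (hPmem x).mp hxP
    refine (hPmem _).mpr ⟨h.min.nrm g hg x hxL, j, ?_⟩
    rw [conj_pow, hj]
    group
  have hns : ¬ P ≤ scalars (Fin n) F := by
    intro hPZ
    obtain ⟨x, hxL, hxZ⟩ := SetLike.not_le_iff_exists.mp h.min.ns
    obtain ⟨b, s, hs, ho⟩ :=
      Nat.exists_eq_pow_mul_and_not_dvd (orderOf_pos x).ne' r hr.ne_one
    have hxs : x ^ s ∈ P := by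
      refine (hPmem _).mpr ⟨L.pow_mem hxL s, b, ?_⟩
      rw [← pow_mul, mul_comm, ← ho, pow_orderOf_eq_one]
    have hxsZ : x ^ s ∈ scalars (Fin n) F := hPZ hxs
    have hcop : Nat.gcd r s = 1 := (hr.coprime_iff_not_dvd.mpr hs)
    have hbez := Nat.gcd_eq_gcd_ab r s
    rw [hcop] at hbez
    apply hxZ
    have h1 : x = (x ^ r) ^ (Nat.gcdA r s) * (x ^ s) ^ (Nat.gcdB r s) := by
      rw [← _root_.zpow_natCast x r, ← _root_.zpow_natCast x s, ← _root_.zpow_mul,
        ← _root_.zpow_mul, ← _root_.zpow_add, ← hbez]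
      simp
    rw [h1]
    exact Subgroup.mul_mem _ (Subgroup.zpow_mem _ (hx x hxL) _) (Subgroup.zpow_mem _ hxsZ _)
  rcases h.min.min P hPL hPn with h1 | h1
  · exact absurd h1 hns
  · intro x hxL
    have hxP : x ∈ P := by
      rw [h1]
      exact hxL
    exact ((hPmem x).mp hxP).2

end Cfsg.Agent.Lib.Helper66.ASSC
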