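import Mathlib
import Cfsg.Agent.Lib.Helper78.JNDefs
import Cfsg.Agent.Lib.Helper94.JcTH

/-!
# S2944 project JN (helper78), piece THC (helper66)

The Thompson subgroup commutes with conjugation.
-/

set_option autoImplicit false

namespace Cfsg.Agent.Lib.Helper66.JN

open Cfsg.Agent.Lib.Helper78.JN Cfsg.Agent.Lib.Helper72.JL Cfsg.Agent.Lib.Helper72.SC
  Cfsg.Agent.Lib.Helper78.Jc
open scoped commutatorElement

universe u

theorem thc_map_map {G : Type*} [Group G] (H : Subgroup G) (g : G) :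
    (H.map (MulAut.conj g⁻¹).toMonoidHom).map (MulAut.conj g).toMonoidHom = H := by
  rw [Subgroup.map_map]
  have e : (MulAut.conj g).toMonoidHom.comp (MulAut.conj g⁻¹).toMonoidHom = MonoidHom.id G := by
    ext y
    show g * (g⁻¹ * y * g⁻¹⁻¹) * g⁻¹ = y
    group
  rw [e, Subgroup.map_id]

theorem thc_map_map' {G : Type*} [Group G] (H : Subgroup G) (g : G) :
    (H.map (MulAut.conj g).toMonoidHom).map (MulAut.conj g⁻¹).toMonoidHom = H := by
  have h := thc_map_map H g⁻¹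
  rwa [inv_inv] at h

theorem thc_comm_map {G : Type*} [Group G] (B : Subgroup G) (g : G)
    (hc : ∀ a ∈ B, ∀ b ∈ B, a * b = b * a) :
    ∀ a ∈ B.map (MulAut.conj g).toMonoidHom, ∀ b ∈ B.map (MulAut.conj g).toMonoidHom,
      a * b = b * a := by
  rintro _ ⟨x, hx, rfl⟩ _ ⟨y, hy, rfl⟩
  show g * x * g⁻¹ * (g * y * g⁻¹) = g * y * g⁻¹ * (g * x * g⁻¹)
  have e1 : g * x * g⁻¹ * (g * y * g⁻¹) = g * (x * y) * g⁻¹ := by group
  have e2 : g * y * g⁻¹ * (g * x * g⁻¹) = g * (y * x) * g⁻¹ := by group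
  rw [e1, e2, hc x hx y hy]

theorem thc_sq_map {G : Type*} [Group G] (B : Subgroup G) (g : G)
    (h2 : ∀ a ∈ B, a * a = 1) :
    ∀ a ∈ B.map (MulAut.conj g).toMonoidHom, a * a = 1 := by
  rintro _ ⟨x, hx, rfl⟩
  show g * x * g⁻¹ * (g * x * g⁻¹) = 1
  have e1 : g * x * g⁻¹ * (g * x * g⁻¹) = g * (x * x) * g⁻¹ := by group
  rw [e1, h2 x hx]
  group

/-- conjugation maps the largest elementary abelian subgroups of `S` to those of the
conjugate of `S` -/
theorem thc_maxEA_map {G : Type*} [Group G] (S A : Subgroup G) (hA : IsMaxEA S A) (g : G) :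
    IsMaxEA (S.map (MulAut.conj g).toMonoidHom) (A.map (MulAut.conj g).toMonoidHom) := by
  obtain ⟨hAS, hc, h2, hmax⟩ := hA
  refine ⟨Subgroup.map_mono hAS, thc_comm_map A g hc, thc_sq_map A g h2, ?_⟩
  intro B hBS hBc hB2
  rw [Subgroup.card_map_of_injective (MulAut.conj g).injective]
  have h1 : Nat.card (B.map (MulAut.conj g⁻¹).toMonoidHom) = Nat.card B :=
    Subgroup.card_map_of_injective (MulAut.conj g⁻¹).injective
  rw [← h1]
  apply hmax
  · have h3 := Subgroup.map_mono (f := (MulAut.conj g⁻¹).toMonoidHom) hBS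
    rwa [thc_map_map'] at h3
  · exact thc_comm_map B g⁻¹ hBc
  · exact thc_sq_map B g⁻¹ hB2

theorem thc : ThcStmt.{u} := by
  intro G _ _ S x
  apply le_antisymm
  · apply Cfsg.Agent.Lib.Helper94.Jc.th_le_of_forall
    intro A' hA'
    have h1 := thc_maxEA_map _ A' hA' x⁻¹
    rw [thc_map_map'] at h1
    have h2 := Cfsg.Agent.Lib.Helper94.Jc.th_le S _ h1
    have h3 := Subgroup.map_mono (f := (MulAut.conj x).toMonoidHom) h2
    rwa [thc_map_map] at h3
  · rw [Subgroup.map_le_iff_le_comap]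
    apply Cfsg.Agent.Lib.Helper94.Jc.th_le_of_forall
    intro A hA
    rw [← Subgroup.map_le_iff_le_comap]
    exact Cfsg.Agent.Lib.Helper94.Jc.th_le _ _ (thc_maxEA_map S A hA x)

end Cfsg.Agent.Lib.Helper66.JN
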