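import Cfsg.Agent.Lib.Helper47.QuadDefs

/-!
# Piece STD for S2674 (helper47): the frozen forms `quadFormPlus`, `quadFormMinus` are
quadratic forms with nondegenerate polar forms `plusB`, `minusB`.
-/

set_option autoImplicit false

namespace Cfsg.Agent.Lib.Helper66.QuadSTD

open Polynomial Module Cfsg.Agent.Lib.Helper47

/-- The polar form of `quadFormPlus`. -/
def plusB (m : ℕ) (F : Type*) [Field F] (x y : Fin m ⊕ Fin m → F) : F :=
  ∑ i : Fin m, (x (.inl i) * y (.inr i) + x (.inr i) * y (.inl i))

/-- The polar form of `quadFormMinus`. -/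
def minusB (m : ℕ) (F : Type*) [Field F] (a c : F) (x y : (Fin m ⊕ Fin m) ⊕ Fin 2 → F) : F :=
  (∑ i : Fin m, (x (.inl (.inl i)) * y (.inl (.inr i)) + x (.inl (.inr i)) * y (.inl (.inl i))))
    + (2 * x (.inr 0) * y (.inr 0) + a * (x (.inr 0) * y (.inr 1) + x (.inr 1) * y (.inr 0))
      + 2 * c * x (.inr 1) * y (.inr 1))

theorem quadFormPlus_isQuad {F : Type*} [Field F] (m : ℕ) :
    IsQuad (Cfsg.quadFormPlus m F) (plusB m F) where
  form :=
    { add_left := fun x y z => by
        unfold plusB
        rw [← Finset.sum_add_distrib]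
        apply Finset.sum_congr rfl
        intro i _
        simp only [Pi.add_apply]
        ring
      smul_left := fun c x y => by
        unfold plusB
        rw [Finset.mul_sum]
        apply Finset.sum_congr rfl
        intro i _
        simp only [Pi.smul_apply, smul_eq_mul]
        ring
      symm := fun x y => by
        simp only [RingHom.id_apply, one_mul]
        unfold plusB
        apply Finset.sum_congr rfl
        intro i _
        ring }
  smul c v := by
    unfold Cfsg.quadFormPlus
    rw [Finset.mul_sum]
    apply Finset.sum_congr rfl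
    intro i _
    simp only [Pi.smul_apply, smul_eq_mul]
    ring
  polar u v := by
    unfold Cfsg.quadFormPlus plusB
    rw [← Finset.sum_add_distrib, ← Finset.sum_add_distrib]
    apply Finset.sum_congr rfl
    intro i _
    simp only [Pi.add_apply]
    ring

theorem plusB_nondeg {F : Type*} [Field F] (m : ℕ) : Nondeg (plusB m F) := by
  classical
  intro x hx
  funext j
  rcases j with i | i
  · have h1 := hx (Pi.single (Sum.inr i) 1)
    simpa [plusB, Pi.single_apply] using h1
  · have h1 := hx (Pi.single (Sum.inl i) 1)
    simpa [plusB, Pi.single_apply] using h1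

theorem quadFormMinus_isQuad {F : Type*} [Field F] (m : ℕ) (a c : F) :
    IsQuad (Cfsg.quadFormMinus m F a c) (minusB m F a c) where
  form :=
    { add_left := fun x y z => by
        unfold minusB
        simp only [Pi.add_apply, add_mul, Finset.sum_add_distrib]
        ring
      smul_left := fun c' x y => by
        unfold minusB
        simp only [Pi.smul_apply, smul_eq_mul, mul_add, Finset.mul_sum]
        have e : ∀ i : Fin m, c' * x (Sum.inl (Sum.inl i)) * y (Sum.inl (Sum.inr i))
            + c' * x (Sum.inl (Sum.inr i)) * y (Sum.inl (Sum.inl i))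
            = c' * (x (Sum.inl (Sum.inl i)) * y (Sum.inl (Sum.inr i)))
              + c' * (x (Sum.inl (Sum.inr i)) * y (Sum.inl (Sum.inl i))) := fun i => by ring
        simp only [e]
        ring
      symm := fun x y => by
        simp only [RingHom.id_apply, one_mul]
        unfold minusB
        have e : ∀ i : Fin m, y (Sum.inl (Sum.inl i)) * x (Sum.inl (Sum.inr i))
            + y (Sum.inl (Sum.inr i)) * x (Sum.inl (Sum.inl i))
            = x (Sum.inl (Sum.inl i)) * y (Sum.inl (Sum.inr i))
              + x (Sum.inl (Sum.inr i)) * y (Sum.inl (Sum.inl i)) := fun i => by ring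
        simp only [e]
        ring }
  smul c' v := by
    unfold Cfsg.quadFormMinus
    simp only [Pi.smul_apply, smul_eq_mul, mul_add, Finset.mul_sum]
    have e : ∀ i : Fin m, c' * v (Sum.inl (Sum.inl i)) * (c' * v (Sum.inl (Sum.inr i)))
        = c' ^ 2 * (v (Sum.inl (Sum.inl i)) * v (Sum.inl (Sum.inr i))) := fun i => by ring
    simp only [e]
    ring
  polar u v := by
    unfold Cfsg.quadFormMinus minusB
    have e : ∀ i : Fin m, (u + v) (Sum.inl (Sum.inl i)) * (u + v) (Sum.inl (Sum.inr i))
        = u (Sum.inl (Sum.inl i)) * u (Sum.inl (Sum.inr i))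
          + v (Sum.inl (Sum.inl i)) * v (Sum.inl (Sum.inr i))
          + (u (Sum.inl (Sum.inl i)) * v (Sum.inl (Sum.inr i))
            + u (Sum.inl (Sum.inr i)) * v (Sum.inl (Sum.inl i))) := fun i => by
      simp only [Pi.add_apply]
      ring
    rw [Finset.sum_congr rfl (fun i _ => e i)]
    simp only [Finset.sum_add_distrib, Pi.add_apply]
    ring

theorem minusB_nondeg {F : Type*} [Field F] [Fintype F] (m : ℕ) (a c : F) (h : IsAniso a c) :
    Nondeg (minusB m F a c) := by
  classical
  intro x hx
  have h0 : 2 * x (Sum.inr 0) + a * x (Sum.inr 1) = 0 := by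
    have h1 := hx (Pi.single (Sum.inr 0) 1)
    simpa [minusB, Pi.single_apply] using h1
  have h1 : a * x (Sum.inr 0) + 2 * c * x (Sum.inr 1) = 0 := by
    have h1 := hx (Pi.single (Sum.inr 1) 1)
    simpa [minusB, Pi.single_apply] using h1
  have hN2 : 2 * (x (Sum.inr 0) ^ 2 + a * x (Sum.inr 0) * x (Sum.inr 1)
      + c * x (Sum.inr 1) ^ 2) = 0 := by
    linear_combination x (Sum.inr 0) * h0 + x (Sum.inr 1) * h1
  have hbin : x (Sum.inr 0) = 0 ∧ x (Sum.inr 1) = 0 := by
    by_cases h2 : (2 : F) = 0
    · by_cases ha : a = 0
      · exfalso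
        have hinj : Function.Injective (fun t : F => t ^ 2) := by
          intro s t hst
          have hst' : s ^ 2 = t ^ 2 := hst
          have : (s - t) ^ 2 = 0 := by
            linear_combination hst' - (s * t - t ^ 2) * h2
          exact sub_eq_zero.mp (pow_eq_zero_iff (two_ne_zero) |>.mp this)
        obtain ⟨d, hd⟩ := (Finite.injective_iff_surjective.mp hinj) c
        have hd' : d ^ 2 = c := hd
        have := h d 1 (by rw [ha]; linear_combination hd' + c * h2)
        exact one_ne_zero this.2
      · rw [h2, zero_mul, zero_add] at h0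
        rw [h2, zero_mul, zero_mul, add_zero] at h1
        exact ⟨(mul_eq_zero.mp h1).resolve_left ha, (mul_eq_zero.mp h0).resolve_left ha⟩
    · exact h _ _ ((mul_eq_zero.mp hN2).resolve_left h2)
  funext j
  rcases j with (i | i) | i
  · have h1 := hx (Pi.single (Sum.inl (Sum.inr i)) 1)
    simpa [minusB, Pi.single_apply] using h1
  · have h1 := hx (Pi.single (Sum.inl (Sum.inl i)) 1)
    simpa [minusB, Pi.single_apply] using h1
  · fin_cases i
    · exact hbin.1
    · exact hbin.2

end Cfsg.Agent.Lib.Helper66.QuadSTD
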