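import Mathlib
import Cfsg.Agent.Lib.Helper33.BFOne2
import Cfsg.Agent.Lib.Helper22.DOne2
import Cfsg.Agent.Lib.Helper22.TGDefs
import Cfsg.Agent.Lib.Helper22.IndCent2
import Cfsg.Agent.Lib.Helper57.DOCL1

/-!
# DG project (helper79), piece H2R: `h2_refined`

Restructured copy of the `H2` block of `Cfsg.Agent.Lib.Helper33.BF.hasFamily_of_defect_one`:
the columns `D_t`, `D_t'` of generalized decomposition numbers are equal if some `g` fixing the
maximal pair `(P, c)` conjugates `u ^ t'` to `u ^ t`, and orthogonal otherwise.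
-/

set_option autoImplicit false
set_option linter.style.haveILetI false
set_option maxHeartbeats 1600000

namespace Cfsg.Agent.Lib.Helper66.DG

open Cfsg Cfsg.Agent.Lib.Helper80.GenDec Cfsg.Agent.Lib.Helper80.Contrib
open Cfsg.Agent.Lib.Helper4 Cfsg.Agent.Lib.Helper21 Cfsg.Agent.Lib.Helper22
open Cfsg.Agent.Lib.Helper80.K2 Cfsg.Agent.Lib.Helper80.Major Cfsg.Agent.Lib.Helper81
open Cfsg.Agent.Lib.Helper33 Cfsg.Agent.Lib.Helper33.BF
open scoped ComplexConjugate

section Loc

variable {G : Type*} [Group G] [Fintype G] {p : ℕ} [Fact p.Prime] {M : Ideal AlgInt}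

open scoped Classical in
/-- PIECE H2R -/
theorem h2_refined [Fintype (IrrCharacter G)] (hM : IsPModular p M)
    (β : Set (IrrCharacter G)) (P : Subgroup G)
    (c : Set (IrrCharacter (Subgroup.centralizer (P : Set G))))
    (hmax : IsMaximalBrauerPair p M β P c) (hPcard : Nat.card P = p)
    (u : G) (huP : u ∈ P) (hu1 : u ≠ 1)
    (ξ₀ : IrrCharacter (Subgroup.centralizer (P : Set G)))
    (Dv : ZMod p → IrrCharacter G → ℂ)
    (hKD : ∀ (t : ZMod p) (θ : IrrCharacter G), θ ∈ β →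
      ∀ s : Subgroup.centralizer (P : Set G), ¬ p ∣ orderOf s →
        blockPart c (fun x : Subgroup.centralizer (P : Set G) => θ.1 (u ^ t.val * (x : G))) s =
          Dv t θ * ξ₀.1 s)
    (hDsupp : ∀ t θ, θ ∉ β → Dv t θ = 0)
    (t t' : ZMod p) (ht : t ≠ 0) (ht' : t' ≠ 0) :
    ((∃ g : G, g * u ^ t'.val * g⁻¹ = u ^ t.val ∧
        conjPair g (⟨P, c⟩ : BrauerPairIdx G) = ⟨P, c⟩) → Dv t = Dv t') ∧
    ((¬ ∃ g : G, g * u ^ t'.val * g⁻¹ = u ^ t.val ∧
        conjPair g (⟨P, c⟩ : BrauerPairIdx G) = ⟨P, c⟩) →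
      ∑ θ : IrrCharacter G, Dv t θ * conj (Dv t' θ) = 0) := by
  have hp : p.Prime := Fact.out
  haveI : NeZero p := ⟨hp.ne_zero⟩
  have hPp : IsPGroup p P := hmax.1.1.1
  have hpair : IsBrauerPairOf p M β P c := hmax.1
  have hou : orderOf u = p := by
    have h1 : orderOf u ∣ p := by
      have h2 := Subgroup.orderOf_dvd_natCard P huP
      rwa [hPcard] at h2
    rcases (Nat.dvd_prime hp).mp h1 with h | h
    · exact absurd (orderOf_eq_one_iff.mp h) hu1
    · exact h
  have hPu : P = Subgroup.zpowers u := by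
    symm
    apply Subgroup.eq_of_le_of_card_ge (Subgroup.zpowers_le.mpr huP)
    rw [Nat.card_zpowers, hou, hPcard]
  have hgen : ∀ t : ZMod p, t ≠ 0 → Subgroup.zpowers (u ^ t.val) = P := by
    intro t ht
    apply Subgroup.eq_of_le_of_card_ge (Subgroup.zpowers_le.mpr (Subgroup.pow_mem _ huP _))
    have htv : t.val ≠ 0 := fun h => ht ((ZMod.val_eq_zero t).mp h)
    have hcop : (orderOf u).Coprime t.val := by
      rw [hou]
      refine (Nat.Prime.coprime_iff_not_dvd hp).mpr fun h => htv ?_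
      exact Nat.eq_zero_of_dvd_of_lt h (ZMod.val_lt t)
    rw [Nat.card_zpowers, hcop.orderOf_pow, hou, hPcard]
  letI : Fintype (Subgroup.centralizer (P : Set G)) := Fintype.ofFinite _
  haveI := irr_finite (G := Subgroup.centralizer (P : Set G))
  letI := Fintype.ofFinite (IrrCharacter (Subgroup.centralizer (P : Set G)))
  have hind : IsInducedBlock M (Subgroup.centralizer (P : Set G)) c β :=
    (isBrauerPairOf_iff_isInducedBlock hM P hPp c β).mp hpair
  have hc : IsPBlock M c := hind.1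
  have huH : u ∈ Subgroup.centralizer (P : Set G) := by
    rw [Subgroup.mem_centralizer_iff]
    intro g hg
    rw [hPu] at hg
    obtain ⟨i, rfl⟩ := Subgroup.mem_zpowers_iff.mp hg
    exact ((Commute.refl u).zpow_left i).eq
  obtain ⟨z, hzdef⟩ : ∃ z : Subgroup.centralizer (P : Set G), (z : G) = u := ⟨⟨u, huH⟩, rfl⟩
  have hz : z ∈ Subgroup.center (Subgroup.centralizer (P : Set G)) := by
    rw [Subgroup.mem_center_iff]
    intro g
    apply Subtype.ext
    rw [Subgroup.coe_mul, Subgroup.coe_mul, hzdef]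
    exact (Subgroup.mem_centralizer_iff.mp g.2 u huP).symm
  have hn : orderOf (z : G) = p := by rw [hzdef]; exact hou
  have hCH : Subgroup.centralizer ({(z : G)} : Set G) ≤ Subgroup.centralizer (P : Set G) := by
    rw [hzdef, hPu]
    exact (Klein.centralizer_singleton_eq u).le
  have hN0 : ξ₀.1 1 ≠ 0 := irr_one_ne_zero ξ₀
  have h1reg : ¬ p ∣ orderOf (1 : Subgroup.centralizer (P : Set G)) := by
    rw [orderOf_one]; exact hp.not_dvd_one
  have hpow : ∀ t : ZMod p, t ≠ 0 → (∃ k : ℕ, orderOf (u ^ t.val) = p ^ k) ∧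
      u ^ t.val ∈ Subgroup.centralizer (P : Set G) ∧
      (∀ h ∈ Subgroup.centralizer (P : Set G), h * u ^ t.val = u ^ t.val * h) ∧
      Subgroup.centralizer ({u ^ t.val} : Set G) ≤ Subgroup.centralizer (P : Set G) ∧
      u ^ t.val ≠ 1 := by
    intro t ht
    obtain ⟨-, hne1, hut, hcentt, hCHt⟩ := pow_val_hyps _ z hz hn hCH t ht
    rw [Subgroup.coe_pow, hzdef] at hut hcentt hCHt
    refine ⟨hut, Subgroup.pow_mem _ huH _, hcentt, hCHt, ?_⟩
    intro h1
    apply hne1
    apply Subtype.ext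
    rw [Subgroup.coe_pow, hzdef, h1]
    rfl
  have hfinal : ∀ (t t' : ZMod p), (∑ θ : IrrCharacter G, (if θ ∈ β then
      conj (Dv t θ * ξ₀.1 1) * (Dv t' θ * ξ₀.1 1) else 0) = 0) →
      ∑ θ : IrrCharacter G, Dv t θ * conj (Dv t' θ) = 0 := by
    intro t t' h
    have h2 : ∑ θ : IrrCharacter G, conj (Dv t θ) * Dv t' θ = 0 := by
      have hN : conj (ξ₀.1 1) * ξ₀.1 1 ≠ 0 := mul_ne_zero ((map_ne_zero _).mpr hN0) hN0
      apply mul_right_cancel₀ hN
      rw [zero_mul, ← h, Finset.sum_mul]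
      refine Finset.sum_congr rfl fun θ _ => ?_
      by_cases hθ : θ ∈ β
      · rw [if_pos hθ, map_mul]; ring
      · rw [if_neg hθ, hDsupp t θ hθ, map_zero, zero_mul, zero_mul]
    have h3 := congrArg conj h2
    rw [map_sum, map_zero] at h3
    rw [← h3]
    refine Finset.sum_congr rfl fun θ _ => ?_
    rw [map_mul, Complex.conj_conj]
  obtain ⟨hut, hxH, hcentt, hCHt, -⟩ := hpow t ht
  obtain ⟨hut', hxH', hcentt', hCHt', -⟩ := hpow t' ht'
  refine ⟨?_, ?_⟩
  · rintro ⟨g, hg, hcp⟩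
    funext θ
    by_cases hθ : θ ∈ β
    · have h4 : blockPart c (fun x : Subgroup.centralizer (P : Set G) =>
            θ.1 (u ^ t.val * (x : G))) 1 =
          blockPart c (fun x : Subgroup.centralizer (P : Set G) =>
            θ.1 (u ^ t'.val * (x : G))) 1 := by
        have h3 := Cfsg.Agent.Lib.BF.blockPart_conjPair g ⟨P, c⟩ ⟨P, c⟩ hcp θ.1
          (isClassFunction_irr θ) (u ^ t'.val) 1 1 (by simp)
        rw [hg] at h3
        exact h3
      rw [hKD t θ hθ 1 h1reg, hKD t' θ hθ 1 h1reg] at h4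
      exact mul_right_cancel₀ hN0 h4
    · rw [hDsupp t θ hθ, hDsupp t' θ hθ]
  · intro hno
    by_cases hconj : ∃ g : G, g * u ^ t'.val * g⁻¹ = u ^ t.val
    · obtain ⟨g, hg⟩ := hconj
      have hmap : P.map (MulAut.conj g).toMonoidHom = P := by
        rw [← hgen t' ht', Klein.zpowers_conj, hg, hgen t' ht', hgen t ht]
      obtain ⟨c'', hc''⟩ := Klein.exists_snd (conjPair g ⟨P, c⟩) P hmap
      have hpair'' : IsBrauerPairOf p M β P c'' := by
        have h1 := brauerPairOf_conj β P c hpair g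
        have h2 : IsBrauerPairOf p M β (conjPair g ⟨P, c⟩).1 (conjPair g ⟨P, c⟩).2 := h1
        rw [← hc''] at h2
        exact h2
      have hc''b : IsPBlock M c'' := hpair''.1.2
      have htr : ∀ θ : IrrCharacter G,
          blockPart c'' (fun x : Subgroup.centralizer (P : Set G) => θ.1 (u ^ t.val * (x : G))) 1 =
          blockPart c (fun x : Subgroup.centralizer (P : Set G) => θ.1 (u ^ t'.val * (x : G))) 1 := by
        intro θ
        have h3 := Cfsg.Agent.Lib.BF.blockPart_conjPair g ⟨P, c⟩ ⟨P, c''⟩ hc''.symm θ.1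
          (isClassFunction_irr θ) (u ^ t'.val) 1 1 (by simp)
        rw [hg] at h3
        exact h3
      have hcc : c'' ≠ c := by
        intro hcc
        apply hno
        refine ⟨g, hg, ?_⟩
        rw [← hc'', hcc]
      have h5 := Cfsg.Agent.Lib.BF.cross_orth hM (Subgroup.centralizer (P : Set G)) (u ^ t.val)
        (u ^ t.val) hut hxH hcentt hCHt hut hcentt c c'' hc''b β hind
        (Or.inr ⟨rfl, fun h => hcc h.symm⟩) 1 1 h1reg h1reg
      apply hfinal
      refine Eq.trans (Finset.sum_congr rfl fun θ _ => ?_) h5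
      by_cases hθ : θ ∈ β
      · rw [if_pos hθ, if_pos hθ, htr θ, hKD t θ hθ 1 h1reg, hKD t' θ hθ 1 h1reg]
      · rw [if_neg hθ, if_neg hθ]
    · push Not at hconj
      have h5 := Cfsg.Agent.Lib.BF.cross_orth hM (Subgroup.centralizer (P : Set G)) (u ^ t.val)
        (u ^ t'.val) hut hxH hcentt hCHt hut' hcentt' c c hc β hind (Or.inl hconj) 1 1
        h1reg h1reg
      apply hfinal
      refine Eq.trans (Finset.sum_congr rfl fun θ _ => ?_) h5
      by_cases hθ : θ ∈ β
      · rw [if_pos hθ, if_pos hθ, hKD t θ hθ 1 h1reg, hKD t' θ hθ 1 h1reg]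
      · rw [if_neg hθ, if_neg hθ]

end Loc

end Cfsg.Agent.Lib.Helper66.DG
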