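import Mathlib
import Cfsg.Agent.Lib.Helper52.LPDefs
import Cfsg.Agent.Lib.Helper51.Spinor

/-!
# LP-1b: class-preserving similarities (parity bookkeeping)

Piece LP-1b of the Lang–Steinberg project of helper52 (S2736 / S2737): given the parity theorem
for Lagrangians (`hpar`) and the identification of maximal totally singular subspaces with
Lagrangians (`hmax`), the similarities preserving the two classes of maximal totally singular
subspaces are closed under products and inverses, two class-swapping similarities multiply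
to a class-preserving one, and a reflection swaps the classes.
-/

set_option autoImplicit false

namespace Cfsg.Agent.Lib.Helper66.LP1b

open Module QuadraticMap Matrix
open Cfsg Cfsg.Agent.Lib.Helper51 Cfsg.Agent.Lib.Helper52 Cfsg.Agent.Lib.Helper54
open Cfsg.Agent.Lib.Helper52.LP

variable {ι : Type} [Fintype ι] [DecidableEq ι] {F : Type*} [Field F]

local notation "mt(" g ")" => ((g : Matrix.GeneralLinearGroup ι F) : Matrix ι ι F)

/-- Unfolding of `PreservesSingularClasses` through Lagrangians. -/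
theorem pres_iff {m : ℕ} (Q : QuadraticForm F (ι → F))
    (hmax : ∀ U : Submodule F (ι → F), IsMaxTotallySingular ⇑Q U ↔ IsLag m Q U)
    (M : Matrix ι ι F) :
    PreservesSingularClasses ⇑Q M ↔
      ∀ U : Submodule F (ι → F), IsLag m Q U →
        Even (m - finrank F ↥(U ⊓ imageSubmodule M U)) := by
  constructor
  · intro h U hU
    have h1 := h U ((hmax U).mpr hU)
    unfold SameParityClass at h1
    rw [hU.1] at h1
    exact h1
  · intro h U hU
    have hL := (hmax U).mp hU
    have h1 := h U hL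
    unfold SameParityClass
    rw [hL.1]
    exact h1

theorem dist_image (g : GL ι F) (U W : Submodule F (ι → F)) :
    finrank F ↥(imageSubmodule mt(g) U ⊓ imageSubmodule mt(g) W) = finrank F ↥(U ⊓ W) := by
  rw [← imageSubmodule_inf, finrank_imageSubmodule]

/-- The parity of the distance `d(U, gU)` does not depend on the Lagrangian `U`. -/
theorem key {m : ℕ} (Q : QuadraticForm F (ι → F))
    (hpar : ∀ U W X : Submodule F (ι → F), IsLag m Q U → IsLag m Q W → IsLag m Q X →
      Even ((m - finrank F ↥(U ⊓ W)) + (m - finrank F ↥(W ⊓ X)) + (m - finrank F ↥(U ⊓ X))))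
    (g : GL ι F) (hg : g ∈ Cfsg.Geo.quadSimilarityGroup (F := F) ⇑Q)
    (U U' : Submodule F (ι → F)) (hU : IsLag m Q U) (hU' : IsLag m Q U') :
    Even (m - finrank F ↥(U' ⊓ imageSubmodule mt(g) U')) ↔
      Even (m - finrank F ↥(U ⊓ imageSubmodule mt(g) U)) := by
  have hgU := IsLag.image hg hU
  have hgU' := IsLag.image hg hU'
  have h1 := hpar U' U (imageSubmodule mt(g) U) hU' hU hgU
  have h2 := hpar U' (imageSubmodule mt(g) U) (imageSubmodule mt(g) U') hU' hgU hgU'
  have h3 : finrank F ↥(imageSubmodule mt(g) U ⊓ imageSubmodule mt(g) U')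
      = finrank F ↥(U' ⊓ U) := by
    rw [dist_image, inf_comm]
  rw [h3] at h2
  simp only [Nat.even_iff] at h1 h2 ⊢
  omega

theorem pres_of_lag {m : ℕ} (Q : QuadraticForm F (ι → F))
    (hmax : ∀ U : Submodule F (ι → F), IsMaxTotallySingular ⇑Q U ↔ IsLag m Q U)
    (hpar : ∀ U W X : Submodule F (ι → F), IsLag m Q U → IsLag m Q W → IsLag m Q X →
      Even ((m - finrank F ↥(U ⊓ W)) + (m - finrank F ↥(W ⊓ X)) + (m - finrank F ↥(U ⊓ X))))
    (g : GL ι F) (hg : g ∈ Cfsg.Geo.quadSimilarityGroup (F := F) ⇑Q)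
    (U : Submodule F (ι → F)) (hU : IsLag m Q U)
    (h : Even (m - finrank F ↥(U ⊓ imageSubmodule mt(g) U))) :
    PreservesSingularClasses ⇑Q mt(g) := by
  rw [pres_iff Q hmax]
  intro U' hU'
  exact (key Q hpar g hg U U' hU hU').mpr h

theorem not_pres_of_lag {m : ℕ} (Q : QuadraticForm F (ι → F))
    (hmax : ∀ U : Submodule F (ι → F), IsMaxTotallySingular ⇑Q U ↔ IsLag m Q U)
    (g : GL ι F)
    (U : Submodule F (ι → F)) (hU : IsLag m Q U)
    (h : ¬ Even (m - finrank F ↥(U ⊓ imageSubmodule mt(g) U))) :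
    ¬ PreservesSingularClasses ⇑Q mt(g) := by
  intro hP
  exact h ((pres_iff Q hmax _).mp hP U hU)

theorem pres_mul {m : ℕ} (Q : QuadraticForm F (ι → F))
    (hmax : ∀ U : Submodule F (ι → F), IsMaxTotallySingular ⇑Q U ↔ IsLag m Q U)
    (hpar : ∀ U W X : Submodule F (ι → F), IsLag m Q U → IsLag m Q W → IsLag m Q X →
      Even ((m - finrank F ↥(U ⊓ W)) + (m - finrank F ↥(W ⊓ X)) + (m - finrank F ↥(U ⊓ X))))
    (g h : GL ι F) (hg : g ∈ Cfsg.Geo.quadSimilarityGroup (F := F) ⇑Q)
    (hh : h ∈ Cfsg.Geo.quadSimilarityGroup (F := F) ⇑Q)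
    (Pg : PreservesSingularClasses ⇑Q mt(g)) (Ph : PreservesSingularClasses ⇑Q mt(h)) :
    PreservesSingularClasses ⇑Q mt(g * h) := by
  rw [pres_iff Q hmax] at Pg Ph ⊢
  intro U hU
  have hhU := IsLag.image hh hU
  have hghU := IsLag.image hg hhU
  have h1 := hpar U (imageSubmodule mt(h) U)
    (imageSubmodule mt(g) (imageSubmodule mt(h) U)) hU hhU hghU
  have h2 := Ph U hU
  have h3 := Pg _ hhU
  have e : imageSubmodule mt(g * h) U = imageSubmodule mt(g) (imageSubmodule mt(h) U) := by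
    rw [Units.val_mul, imageSubmodule_mul]
  rw [e]
  simp only [Nat.even_iff] at h1 h2 h3 ⊢
  omega

theorem pres_inv {m : ℕ} (Q : QuadraticForm F (ι → F))
    (hmax : ∀ U : Submodule F (ι → F), IsMaxTotallySingular ⇑Q U ↔ IsLag m Q U)
    (g : GL ι F) (hg : g ∈ Cfsg.Geo.quadSimilarityGroup (F := F) ⇑Q)
    (Pg : PreservesSingularClasses ⇑Q mt(g)) :
    PreservesSingularClasses ⇑Q mt(g⁻¹) := by
  rw [pres_iff Q hmax] at Pg ⊢
  intro U hU
  have hg' : g⁻¹ ∈ Cfsg.Geo.quadSimilarityGroup (F := F) ⇑Q := Subgroup.inv_mem _ hg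
  have hU' := IsLag.image hg' hU
  have h1 := Pg _ hU'
  have e : imageSubmodule mt(g) (imageSubmodule mt(g⁻¹) U) = U := by
    rw [← imageSubmodule_mul, Units.mul_inv, imageSubmodule_one]
  rw [e, inf_comm] at h1
  exact h1

theorem pres_of_not_not {m : ℕ} (Q : QuadraticForm F (ι → F))
    (hmax : ∀ U : Submodule F (ι → F), IsMaxTotallySingular ⇑Q U ↔ IsLag m Q U)
    (hpar : ∀ U W X : Submodule F (ι → F), IsLag m Q U → IsLag m Q W → IsLag m Q X →
      Even ((m - finrank F ↥(U ⊓ W)) + (m - finrank F ↥(W ⊓ X)) + (m - finrank F ↥(U ⊓ X))))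
    (g h : GL ι F) (hg : g ∈ Cfsg.Geo.quadSimilarityGroup (F := F) ⇑Q)
    (hh : h ∈ Cfsg.Geo.quadSimilarityGroup (F := F) ⇑Q)
    (Pg : ¬ PreservesSingularClasses ⇑Q mt(g)) (Ph : ¬ PreservesSingularClasses ⇑Q mt(h)) :
    PreservesSingularClasses ⇑Q mt(g * h) := by
  rw [pres_iff Q hmax] at Pg Ph ⊢
  obtain ⟨U1, hU1'⟩ := not_forall.mp Pg
  obtain ⟨hU1, h1⟩ := Classical.not_imp.mp hU1'
  obtain ⟨U2, hU2'⟩ := not_forall.mp Ph
  obtain ⟨hU2, h2⟩ := Classical.not_imp.mp hU2'
  intro U hU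
  have hhU := IsLag.image hh hU
  have hghU := IsLag.image hg hhU
  have h3 := hpar U (imageSubmodule mt(h) U)
    (imageSubmodule mt(g) (imageSubmodule mt(h) U)) hU hhU hghU
  have h4 : ¬ Even (m - finrank F ↥(U ⊓ imageSubmodule mt(h) U)) :=
    fun hE => h2 ((key Q hpar h hh U U2 hU hU2).mpr hE)
  have h5 : ¬ Even (m - finrank F ↥(imageSubmodule mt(h) U ⊓
      imageSubmodule mt(g) (imageSubmodule mt(h) U))) :=
    fun hE => h1 ((key Q hpar g hg _ U1 hhU hU1).mpr hE)
  have e : imageSubmodule mt(g * h) U = imageSubmodule mt(g) (imageSubmodule mt(h) U) := by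
    rw [Units.val_mul, imageSubmodule_mul]
  rw [e]
  simp only [Nat.even_iff] at h3 h4 h5 ⊢
  omega

theorem refl_not_pres {m : ℕ} (Q : QuadraticForm F (ι → F))
    (hmax : ∀ U : Submodule F (ι → F), IsMaxTotallySingular ⇑Q U ↔ IsLag m Q U)
    (hnd : (polarBilin Q).Nondegenerate) (hcard : Fintype.card ι = 2 * m)
    (hex : ∃ U : Submodule F (ι → F), IsLag m Q U)
    (v : ι → F) (hv : Q v ≠ 0) :
    ¬ PreservesSingularClasses ⇑Q (reflectionMatrix ⇑Q v) := by
  obtain ⟨U, hU⟩ := hex
  intro hP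
  have hE := (pres_iff Q hmax _).mp hP U hU
  have hts : Geo.IsTotallySingularQuad ⇑Q U := hU.2
  have hle : U ≤ LinearMap.BilinForm.orthogonal (polarBilin Q) U := by
    intro x hx
    rw [LinearMap.BilinForm.mem_orthogonal_iff]
    intro y hy
    show polarBilin Q y x = 0
    rw [polarBilin_apply_apply]
    exact ts_polar Q hts hy hx
  have hV : finrank F (ι → F) = 2 * m := by
    rw [Module.finrank_fintype_fun_eq_card, hcard]
  have hperp : LinearMap.BilinForm.orthogonal (polarBilin Q) U = U := by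
    symm
    apply Submodule.eq_of_le_of_finrank_eq hle
    rw [LinearMap.BilinForm.finrank_orthogonal hnd, hV, hU.1]
    omega
  obtain ⟨u, hu, hvu⟩ : ∃ u ∈ U, polar ⇑Q v u ≠ 0 := by
    by_contra hcon
    have hcon' : ∀ y ∈ U, polar ⇑Q v y = 0 := by
      intro y hy
      by_contra hne
      exact hcon ⟨y, hy, hne⟩
    have hvU : v ∈ LinearMap.BilinForm.orthogonal (polarBilin Q) U := by
      rw [LinearMap.BilinForm.mem_orthogonal_iff]
      intro y hy
      show polarBilin Q y v = 0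
      rw [polarBilin_apply_apply, polar_comm]
      exact hcon' y hy
    rw [hperp] at hvU
    exact hv (hU.2 v hvU)
  set ψ : (ι → F) →ₗ[F] F := polarBilin Q v with hψ
  have hψa : ∀ x, ψ x = polar ⇑Q v x := fun x => by rw [hψ, polarBilin_apply_apply]
  have hψu : ψ u ≠ 0 := by rw [hψa]; exact hvu
  have hrange : LinearMap.range ψ = ⊤ := by
    apply LinearMap.range_eq_top.mpr
    intro c
    refine ⟨(c * (ψ u)⁻¹) • u, ?_⟩
    rw [map_smul, smul_eq_mul, mul_assoc, inv_mul_cancel₀ hψu, mul_one]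
  have hK : finrank F ↥(LinearMap.ker ψ) + 1 = 2 * m := by
    have := LinearMap.finrank_range_add_finrank_ker ψ
    rw [hrange, finrank_top, Module.finrank_self, hV] at this
    omega
  have hsup : U ⊔ LinearMap.ker ψ = ⊤ := by
    rw [eq_top_iff]
    intro x _
    rw [Submodule.mem_sup]
    refine ⟨(ψ x * (ψ u)⁻¹) • u, U.smul_mem _ hu, x - (ψ x * (ψ u)⁻¹) • u, ?_, by abel⟩
    rw [LinearMap.mem_ker, map_sub, map_smul, smul_eq_mul, mul_assoc, inv_mul_cancel₀ hψu,
      mul_one, sub_self]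
  have hdim := Submodule.finrank_sup_add_finrank_inf_eq U (LinearMap.ker ψ)
  rw [hsup, finrank_top, hV, hU.1] at hdim
  have hinf : U ⊓ imageSubmodule (reflectionMatrix ⇑Q v) U = U ⊓ LinearMap.ker ψ := by
    ext y
    simp only [Submodule.mem_inf, mem_imageSubmodule, LinearMap.mem_ker]
    constructor
    · rintro ⟨hy, x, hx, hxy⟩
      rw [reflectionMatrix_mulVec] at hxy
      by_cases hc : (Q v)⁻¹ * polar ⇑Q v x = 0
      · rw [hc, zero_smul, sub_zero] at hxy
        subst hxy
        refine ⟨hy, ?_⟩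
        rw [hψa]
        rcases mul_eq_zero.mp hc with h | h
        · exact absurd (inv_eq_zero.mp h) hv
        · exact h
      · exfalso
        apply hv
        apply hU.2
        have hveq : v = ((Q v)⁻¹ * polar ⇑Q v x)⁻¹ • (x - y) := by
          rw [← hxy, sub_sub_cancel, smul_smul, inv_mul_cancel₀ hc, one_smul]
        rw [hveq]
        exact U.smul_mem _ (U.sub_mem hx hy)
    · rintro ⟨hy, hy0⟩
      refine ⟨hy, y, hy, ?_⟩
      rw [reflectionMatrix_mulVec]
      rw [hψa] at hy0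
      rw [hy0, mul_zero, zero_smul, sub_zero]
  rw [hinf] at hE
  rw [Nat.even_iff] at hE
  omega

end Cfsg.Agent.Lib.Helper66.LP1b
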