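import Mathlib
import Cfsg.Agent.Lib.Helper53.MinusDefs
import Cfsg.Agent.Lib.Helper53.OddFC
import Cfsg.Agent.Lib.Helper54.OrthInnMinus

/-!
# Piece MF-NORM for S2716 (helper53): in odd characteristic `Inndiag(PΩ⁻)` is normal in the
automorphism group of `PΩ⁻`.
-/

set_option autoImplicit false
set_option linter.unusedSectionVars false
set_option linter.unusedVariables false

namespace Cfsg.Agent.Lib.Helper66.MFNORM

open Module QuadraticMap Matrix
open Cfsg Cfsg.Agent.Lib.Helper51 Cfsg.Agent.Lib.Helper51.GammaO Cfsg.Agent.Lib.Helper52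
  Cfsg.Agent.Lib.Helper52.OA Cfsg.Agent.Lib.Helper51.OutSpin Cfsg.Agent.Lib.Helper53.OddF
  Cfsg.Agent.Lib.Helper53.MinusF Cfsg.Agent.Lib.Helper54

section Generic

variable {ι : Type} [Fintype ι] [DecidableEq ι] {F : Type*} [Field F] [Fintype F]
variable (Q : QuadraticForm F (ι → F))

/-- the matrix of the conjugate `γ (g,1) γ⁻¹` -/
theorem conj_left (γ : ↥(GO ⇑Q)) (g g' : ↥(Geo.quadSimilarityGroup (F := F) ⇑Q))
    (hg' : simG Q g' = γ * simG Q g * γ⁻¹) :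
    (g' : Matrix.GeneralLinearGroup ι F) =
      γ.1.left * glMap γ.1.right (g : Matrix.GeneralLinearGroup ι F) * γ.1.left⁻¹ := by
  have h1 : (simG Q g').1.left = (γ.1 * (simG Q g).1 * γ.1⁻¹).left := by
    rw [hg']
    rfl
  rw [simG_left] at h1
  rw [h1, SemidirectProduct.mul_left, SemidirectProduct.mul_left, SemidirectProduct.mul_right,
    SemidirectProduct.inv_left, simG_left, simG_right, mul_one, ← MulAut.mul_apply, ← map_mul,
    mul_inv_cancel, map_one, MulAut.one_apply]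

/-- the multiplier of the conjugate `γ (g,1) γ⁻¹` -/
theorem conj_mul (hv : ∃ v, Q v ≠ 0) (γ : ↥(GO ⇑Q))
    (g g' : ↥(Geo.quadSimilarityGroup (F := F) ⇑Q))
    (hg' : simG Q g' = γ * simG Q g * γ⁻¹) (v : ι → F) :
    Q (((g' : Matrix.GeneralLinearGroup ι F) : Matrix ι ι F) *ᵥ v) =
      γ.1.right ((simMul Q hv g : Fˣ) : F) * Q v := by
  obtain ⟨c, hc⟩ := (mem_GO _ γ.1).mp γ.2
  have h1 : ((g' : Matrix.GeneralLinearGroup ι F) : Matrix ι ι F) *ᵥ v =
      sact (simG Q g').1 v := rfl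
  have h2 : (simG Q g').1 = γ.1 * (simG Q g).1 * γ.1⁻¹ := by
    rw [hg']
    rfl
  have h3 : ∀ u : ι → F, sact (simG Q g).1 u =
      ((g : Matrix.GeneralLinearGroup ι F) : Matrix ι ι F) *ᵥ u := fun u => rfl
  rw [h1, h2, sact_mul, sact_mul, hc, h3, simMul_spec Q hv g, map_mul]
  have h4 := hc (sact γ.1⁻¹ v)
  rw [sact_sact_inv] at h4
  rw [h4]
  ring

/-- the conjugate `γ (g,1) γ⁻¹` induces the conjugate automorphism -/
theorem conj_iota (γ : ↥(GO ⇑Q)) (g g' : ↥(Geo.quadSimilarityGroup (F := F) ⇑Q))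
    (hg' : simG Q g' = γ * simG Q g * γ⁻¹) :
    iotaO Q g' = Theta ⇑Q γ * iotaO Q g * (Theta ⇑Q γ)⁻¹ := by
  rw [iotaO_apply, hg', map_mul, map_mul, map_inv, iotaO_apply]

/-- the sign of the conjugate `γ (g,1) γ⁻¹` -/
theorem conj_sgn (hv : ∃ v, Q v ≠ 0) (n : ℕ) (γ : ↥(GO ⇑Q))
    (g g' : ↥(Geo.quadSimilarityGroup (F := F) ⇑Q))
    (hg' : simG Q g' = γ * simG Q g * γ⁻¹) (hg : simSgn Q hv n g = 1) :
    simSgn Q hv n g' = 1 := by
  rw [simSgn_eq_one_iff] at hg ⊢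
  have hmul := simMul_eq Q hv g' _ (conj_mul Q hv γ g g' hg')
  rw [hmul, conj_left Q γ g g' hg', Units.val_mul, Units.val_mul,
    Matrix.det_mul, Matrix.det_mul, glMap_coe]
  have hdet : (((g : Matrix.GeneralLinearGroup ι F) : Matrix ι ι F).map
        (γ.1.right : F ≃+* F)).det =
      γ.1.right (((g : Matrix.GeneralLinearGroup ι F) : Matrix ι ι F).det) := by
    have h5 := RingHom.map_det ((γ.1.right : F ≃+* F) : F →+* F)
      ((g : Matrix.GeneralLinearGroup ι F) : Matrix ι ι F)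
    rw [RingHom.mapMatrix_apply] at h5
    exact h5.symm
  have hinv : (γ.1.left : Matrix ι ι F).det *
      ((γ.1.left⁻¹ : Matrix.GeneralLinearGroup ι F) : Matrix ι ι F).det = 1 := by
    rw [← Matrix.det_mul, ← Units.val_mul, mul_inv_cancel, Units.val_one, Matrix.det_one]
  rw [hdet, hg, map_pow]
  linear_combination (γ.1.right ((simMul Q hv g : Fˣ) : F)) ^ n * hinv

end Generic

/-- `MF-NORM` for forms given as functions -/
theorem inndiag_minus_conj_aux {F : Type*} [Field F] [Fintype F] (h2 : (2 : F) ≠ 0) {m : ℕ}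
    (hm : 3 ≤ m) (a b : F)
    (hab : ∀ z₁ z₂ : F, z₁ ^ 2 + a * z₁ * z₂ + b * z₂ ^ 2 = 0 → z₁ = 0 ∧ z₂ = 0)
    (Q' : ((Fin m ⊕ Fin m) ⊕ Fin 2 → F) → F) (hQ' : ⇑(QMinus m F a b) = Q')
    (α β : MulAut (Cfsg.POmega F Q'))
    (hβ : β ∈ inndiagOfMinus m a b Q') :
    α * β * α⁻¹ ∈ inndiagOfMinus m a b Q' := by
  subst hQ'
  obtain ⟨Q₁, hQ₁, hQ, hn, h8⟩ := Cfsg.Agent.Lib.Helper51.OAF.minus_data hm a b hab
  have hQeq : Q₁ = QMinus m F a b :=
    DFunLike.coe_injective (hQ₁.trans (coe_QMinus m F a b).symm)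
  subst hQeq
  have hF : ringChar F ≠ 2 := by
    intro h
    apply h2
    have h3 := CharP.cast_eq_zero F (ringChar F)
    rw [h] at h3
    exact_mod_cast h3
  unfold inndiagOfMinus at hβ ⊢
  rw [inndiagMinus_eq hF a b hab] at hβ ⊢
  obtain ⟨g, hg, rfl⟩ := hβ
  obtain ⟨γ, rfl⟩ := Theta_surjective (QMinus m F a b) hQ hn h8 α
  have hr : (γ * simG (QMinus m F a b) g * γ⁻¹).1.right = 1 := by
    show (γ.1 * (simG (QMinus m F a b) g).1 * γ.1⁻¹).right = 1
    rw [SemidirectProduct.mul_right, SemidirectProduct.mul_right, simG_right,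
      SemidirectProduct.inv_right, mul_one, mul_inv_cancel]
  obtain ⟨g', hg'⟩ := exists_simG_eq (QMinus m F a b) _ hr
  refine ⟨g', ?_, ?_⟩
  · rw [SetLike.mem_coe, MonoidHom.mem_ker] at hg ⊢
    exact conj_sgn (QMinus m F a b) (hv_minus a b) (m + 1) γ g g' hg' hg
  · rw [← iotaO_eq_simAut, ← iotaO_eq_simAut]
    exact conj_iota (QMinus m F a b) γ g g' hg'

theorem inndiag_minus_conj {F : Type*} [Field F] [Fintype F] (h2 : (2 : F) ≠ 0) {m : ℕ}
    (hm : 3 ≤ m) (a b : F)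
    (hab : ∀ z₁ z₂ : F, z₁ ^ 2 + a * z₁ * z₂ + b * z₂ ^ 2 = 0 → z₁ = 0 ∧ z₂ = 0)
    (α β : MulAut (Cfsg.POmega F (Cfsg.quadFormMinus m F a b)))
    (hβ : β ∈ Cfsg.inndiagPOmegaMinus m F a b) :
    α * β * α⁻¹ ∈ Cfsg.inndiagPOmegaMinus m F a b :=
  inndiag_minus_conj_aux h2 hm a b hab _ (coe_QMinus m F a b) α β hβ

end Cfsg.Agent.Lib.Helper66.MFNORM
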