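import Mathlib
import Cfsg.Prelude.Def_KGroupFacts

/-!
Project PN4 (helper52, for S2715), piece FIN (helper66): a subgroup `I` of `Aut T` containing
`Inn T`, of order at most `|R| * |Inn T|` for a normal subgroup `R` of `Out G` all of whose
elements have representatives transported into `I` along `Ψ : T ≃* G`, is normal.
Pure group theory: only Mathlib and the Prelude definitions of `Inn` and `Out` are used.
-/

set_option autoImplicit false

namespace Cfsg.Agent.Lib.Helper52.PN4

open Cfsg

private theorem pn4fin_inn_map_congr {G H : Type*} [Group G] [Group H] (ψ : G ≃* H) :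
    (Cfsg.Inn G).map (MulAut.congr ψ).toMonoidHom = Cfsg.Inn H := by
  ext β
  constructor
  · rintro ⟨α, ⟨g, rfl⟩, rfl⟩
    refine ⟨ψ g, ?_⟩
    ext h
    simp [MulAut.congr]
  · rintro ⟨h, rfl⟩
    refine ⟨MulAut.conj (ψ.symm h), ⟨_, rfl⟩, ?_⟩
    ext x
    simp [MulAut.congr]

-- PIECE FIN
theorem normal_of_transport {T G : Type*} [Group T] [Group G] [Finite T] (Ψ : T ≃* G)
    (I : Subgroup (MulAut T)) (R : Subgroup (Cfsg.Out G)) [R.Normal]
    (hInn : Cfsg.Inn T ≤ I)
    (hcard : Nat.card ↥I ≤ Nat.card ↥R * Nat.card ↥(Cfsg.Inn T))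
    (hR : ∀ r ∈ R, ∃ α : MulAut G, (QuotientGroup.mk α : Cfsg.Out G) = r ∧
      (MulAut.congr Ψ).symm α ∈ I) :
    I.Normal := by
  classical
  have : Finite (MulAut T) :=
    Finite.of_injective (fun e : MulAut T => (e : T → T)) DFunLike.coe_injective
  let θ : MulAut T →* Cfsg.Out G :=
    (QuotientGroup.mk' (Cfsg.Inn G)).comp (MulAut.congr Ψ).toMonoidHom
  have hθ : ∀ β, θ β = (QuotientGroup.mk (MulAut.congr Ψ β) : Cfsg.Out G) := fun β => rfl
  have hsurj : Function.Surjective θ := by
    intro r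
    obtain ⟨α, rfl⟩ := QuotientGroup.mk_surjective r
    exact ⟨(MulAut.congr Ψ).symm α, by rw [hθ, MulEquiv.apply_symm_apply]⟩
  have hker : θ.ker = Cfsg.Inn T := by
    ext δ
    rw [MonoidHom.mem_ker, hθ, QuotientGroup.eq_one_iff, ← pn4fin_inn_map_congr Ψ]
    constructor
    · rintro ⟨ε, hε, he⟩
      have h1 : ε = δ := (MulAut.congr Ψ).injective he
      rw [← h1]; exact hε
    · intro h
      exact ⟨δ, h, rfl⟩
  have hKI : R.comap θ ≤ I := by
    intro β hβ
    obtain ⟨α, hα, hαI⟩ := hR (θ β) hβ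
    have h1 : θ ((MulAut.congr Ψ).symm α) = θ β := by
      rw [hθ, MulEquiv.apply_symm_apply, hα]
    have h2 : β * ((MulAut.congr Ψ).symm α)⁻¹ ∈ θ.ker := by
      rw [MonoidHom.mem_ker, map_mul, map_inv, h1, mul_inv_cancel]
    rw [hker] at h2
    have h3 := I.mul_mem (hInn h2) hαI
    simpa using h3
  have hcardK : Nat.card ↥(R.comap θ) = Nat.card ↥R * Nat.card ↥(Cfsg.Inn T) := by
    have : Finite (Cfsg.Out G) := Finite.of_surjective θ hsurj
    have h1 := Subgroup.card_mul_index (R.comap θ)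
    have h2 := Subgroup.card_mul_index R
    have h3 : (R.comap θ).index = R.index := Subgroup.index_comap_of_surjective R hsurj
    have h4 : Nat.card (MulAut T) = Nat.card (Cfsg.Out G) * Nat.card ↥(Cfsg.Inn T) := by
      rw [← hker, Subgroup.card_eq_card_quotient_mul_card_subgroup θ.ker]
      congr 1
      exact Nat.card_congr (QuotientGroup.quotientKerEquivOfSurjective θ hsurj).toEquiv
    have h5 : R.index ≠ 0 := Subgroup.index_ne_zero_of_finite
    rw [h3, h4, ← h2] at h1
    have h6 : Nat.card ↥(R.comap θ) * R.index =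
        (Nat.card ↥R * Nat.card ↥(Cfsg.Inn T)) * R.index := by
      rw [h1]; ring
    exact Nat.eq_of_mul_eq_mul_right (Nat.pos_of_ne_zero h5) h6
  have hKeq : R.comap θ = I := by
    apply Subgroup.eq_of_le_of_card_ge hKI
    rw [hcardK]; exact hcard
  rw [← hKeq]
  infer_instance

end Cfsg.Agent.Lib.Helper52.PN4
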