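import Mathlib

/-!
# S0997 piece BW-G2 (helper66, for helper5): `invert_count`

`P` a Sylow subgroup of odd prime order `p` with `C(P) = P`, `1 ≠ x ∈ P`, `w` an involution:
the number of pairs `(u, v)` of conjugates of `w` with `u * v = x` is `0` or `p`.
-/

set_option autoImplicit false

namespace Cfsg.Agent.Lib.Helper5.BW

theorem bwg2_conj_inv {G : Type*} [Group G] {u x : G} (h : u * x * u⁻¹ = x⁻¹) :
    u⁻¹ * x * u = x⁻¹ := by
  have h' : x = (u * x * u⁻¹)⁻¹ := by rw [h, inv_inv]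
  calc u⁻¹ * x * u = u⁻¹ * (u * x * u⁻¹)⁻¹ * u := by rw [← h']
    _ = x⁻¹ := by group

/-- BW-G2 -/
theorem invert_count {G : Type*} [Group G] [Finite G] (p : ℕ) [Fact p.Prime] (hp2 : p ≠ 2)
    (P : Sylow p G) (hP : Nat.card P = p)
    (hCP : Subgroup.centralizer ((P : Subgroup G) : Set G) = (P : Subgroup G))
    (x : G) (hx : x ∈ (P : Subgroup G)) (hx1 : x ≠ 1) (w : G) (hw : orderOf w = 2) :
    Nat.card {q : G × G // IsConj w q.1 ∧ IsConj w q.2 ∧ q.1 * q.2 = x} = 0 ∨
      Nat.card {q : G × G // IsConj w q.1 ∧ IsConj w q.2 ∧ q.1 * q.2 = x} = p := by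
  have hp : p.Prime := Fact.out
  have hP' : Nat.card ↥(P : Subgroup G) = p := hP
  by_cases hne : Nonempty {q : G × G // IsConj w q.1 ∧ IsConj w q.2 ∧ q.1 * q.2 = x}
  swap
  · left
    have : IsEmpty {q : G × G // IsConj w q.1 ∧ IsConj w q.2 ∧ q.1 * q.2 = x} :=
      not_nonempty_iff.1 hne
    exact Nat.card_of_isEmpty
  right
  obtain ⟨⟨⟨u0, v0⟩, h01, h02, h03⟩⟩ := hne
  dsimp only at h01 h02 h03
  have hww : w * w = 1 := by
    have h := pow_orderOf_eq_one w
    rw [hw, pow_two] at h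
    exact h
  have hinvol : ∀ u : G, IsConj w u → u * u = 1 := by
    intro u hu
    obtain ⟨c, hc⟩ := isConj_iff.1 hu
    rw [← hc]
    calc c * w * c⁻¹ * (c * w * c⁻¹) = c * (w * w) * c⁻¹ := by group
      _ = 1 := by rw [hww]; group
  have hinv_eq : ∀ u : G, u * u = 1 → u⁻¹ = u := fun u h => inv_eq_of_mul_eq_one_left h
  -- `P` is generated by `x`
  have hPx : ∀ y ∈ (P : Subgroup G), ∃ k : ℤ, x ^ k = y := by
    have hord : orderOf x = p := by
      have h1 : orderOf x ∣ p := by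
        rw [← hP']
        exact Subgroup.orderOf_dvd_natCard (P : Subgroup G) hx
      rcases (Nat.dvd_prime hp).1 h1 with h | h
      · exact absurd (orderOf_eq_one_iff.1 h) hx1
      · exact h
    have hz : Subgroup.zpowers x = (P : Subgroup G) := by
      apply Subgroup.eq_of_le_of_card_ge
      · rw [Subgroup.zpowers_le]; exact hx
      · rw [Nat.card_zpowers, hord]; exact le_of_eq hP'
    intro y hy
    rw [← hz] at hy
    exact Subgroup.mem_zpowers_iff.1 hy
  -- the first component of a pair inverts `x`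
  have hinvert : ∀ u v : G, IsConj w u → IsConj w v → u * v = x → u * x * u⁻¹ = x⁻¹ := by
    intro u v hu hv huv
    have huu := hinvol u hu
    have hvv := hinvol v hv
    rw [hinv_eq u huu, ← huv, mul_inv_rev, hinv_eq u huu, hinv_eq v hvv]
    calc u * (u * v) * u = (u * u) * v * u := by group
      _ = v * u := by rw [huu, one_mul]
  have hu0inv : u0 * x * u0⁻¹ = x⁻¹ := hinvert u0 v0 h01 h02 h03
  have hu0u0 : u0 * u0 = 1 := hinvol u0 h01
  have hu0i : u0⁻¹ = u0 := hinv_eq u0 hu0u0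
  have hinvP : ∀ y ∈ (P : Subgroup G), u0 * y * u0⁻¹ = y⁻¹ := by
    intro y hy
    obtain ⟨k, rfl⟩ := hPx y hy
    rw [← conj_zpow, hu0inv, inv_zpow]
  obtain ⟨k, hk⟩ : ∃ k, p = 2 * k + 1 := by
    rcases Nat.Prime.eq_two_or_odd' hp with h | h
    · exact absurd h hp2
    · exact h
  have hpowP : ∀ y ∈ (P : Subgroup G), y ^ p = 1 := by
    intro y hy
    have h := pow_card_eq_one' (G := ↥(P : Subgroup G)) (x := ⟨y, hy⟩)
    rw [hP'] at h
    simpa using congrArg Subtype.val h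
  -- every element of the coset `u0 P` is conjugate to `w`
  have hconjP : ∀ y ∈ (P : Subgroup G), IsConj w (u0 * y) := by
    intro y hy
    refine h01.trans ?_
    rw [isConj_iff]
    refine ⟨y ^ k, ?_⟩
    have hz : y ^ k ∈ (P : Subgroup G) := Subgroup.pow_mem _ hy k
    have h1 := hinvP (y ^ k) hz
    rw [hu0i] at h1
    have h2 : y * (y ^ k * y ^ k) = 1 := by
      rw [← pow_add, ← pow_succ']
      have h := hpowP y hy
      rw [hk] at h
      have e : k + k + 1 = 2 * k + 1 := by omega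
      rw [e]
      exact h
    have h3 : (y ^ k * y ^ k)⁻¹ = y := inv_eq_of_mul_eq_one_left h2
    have h4 : y ^ k * u0 = u0 * (y ^ k)⁻¹ := by
      calc y ^ k * u0 = (u0 * u0) * y ^ k * u0 := by rw [hu0u0, one_mul]
        _ = u0 * (u0 * y ^ k * u0) := by group
        _ = u0 * (y ^ k)⁻¹ := by rw [h1]
    calc y ^ k * u0 * (y ^ k)⁻¹ = u0 * (y ^ k)⁻¹ * (y ^ k)⁻¹ := by rw [h4]
      _ = u0 * (y ^ k * y ^ k)⁻¹ := by rw [mul_inv_rev, mul_assoc]
      _ = u0 * y := by rw [h3]
  have hprod : ∀ y ∈ (P : Subgroup G), (u0 * y) * (u0 * (y * x)) = x := by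
    intro y hy
    have h1 := hinvP y hy
    rw [hu0i] at h1
    calc u0 * y * (u0 * (y * x)) = (u0 * y * u0) * (y * x) := by group
      _ = y⁻¹ * (y * x) := by rw [h1]
      _ = x := by group
  -- the bijection `P ≃ pairs`
  let φ : ↥(P : Subgroup G) → {q : G × G // IsConj w q.1 ∧ IsConj w q.2 ∧ q.1 * q.2 = x} :=
    fun y => ⟨(u0 * y.1, u0 * (y.1 * x)), hconjP y.1 y.2,
      hconjP (y.1 * x) (Subgroup.mul_mem _ y.2 hx), hprod y.1 y.2⟩
  have hφinj : Function.Injective φ := by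
    intro y y' h
    have h1 : u0 * y.1 = u0 * y'.1 := congrArg (fun q => q.1.1) h
    exact Subtype.ext (mul_left_cancel h1)
  have hφsurj : Function.Surjective φ := by
    rintro ⟨⟨u, v⟩, hu, hv, huv⟩
    dsimp only at hu hv huv
    have huinv : u * x * u⁻¹ = x⁻¹ := hinvert u v hu hv huv
    have huu := hinvol u hu
    have hg : (u0⁻¹ * u) * x = x * (u0⁻¹ * u) := by
      have h1 := bwg2_conj_inv hu0inv
      have h2 : u * x = x⁻¹ * u := by
        calc u * x = u * x * u⁻¹ * u := by group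
          _ = x⁻¹ * u := by rw [huinv]
      have h3 : u0⁻¹ * x⁻¹ = x * u0⁻¹ := by
        calc u0⁻¹ * x⁻¹ = (u0⁻¹ * x * u0)⁻¹ * u0⁻¹ := by group
          _ = x * u0⁻¹ := by rw [h1, inv_inv]
      calc u0⁻¹ * u * x = u0⁻¹ * (u * x) := by group
        _ = u0⁻¹ * (x⁻¹ * u) := by rw [h2]
        _ = u0⁻¹ * x⁻¹ * u := by group
        _ = x * u0⁻¹ * u := by rw [h3]
        _ = x * (u0⁻¹ * u) := by group
    have hgP : u0⁻¹ * u ∈ (P : Subgroup G) := by
      rw [← hCP, Subgroup.mem_centralizer_iff]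
      intro y hy
      obtain ⟨n, rfl⟩ := hPx y hy
      have hc : Commute (u0⁻¹ * u) x := hg
      exact (hc.zpow_right n).symm.eq
    refine ⟨⟨u0⁻¹ * u, hgP⟩, ?_⟩
    apply Subtype.ext
    show (u0 * (u0⁻¹ * u), u0 * (u0⁻¹ * u * x)) = (u, v)
    have e1 : u0 * (u0⁻¹ * u) = u := by group
    have e2 : u0 * (u0⁻¹ * u * x) = v := by
      calc u0 * (u0⁻¹ * u * x) = u * x := by group
        _ = u * (u * v) := by rw [huv]
        _ = (u * u) * v := by group
        _ = v := by rw [huu, one_mul]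
    rw [e1, e2]
  have hcard := Nat.card_congr (Equiv.ofBijective φ ⟨hφinj, hφsurj⟩)
  rw [← hcard]
  exact hP'

end Cfsg.Agent.Lib.Helper5.BW
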