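import Mathlib

/-!
# Baer's trick for groups of odd order and class at most two (helper66)

For a finite group `H` of class `≤ 2` in which every commutator `c` satisfies `c ^ (2 * m) = c`
(e.g. `|H|` odd and `m = (|H| + 1) / 2`), the operation `x ∘ y = x * y * ⁅y, x⁆ ^ m` makes `H`
an abelian group `Baer H m hc hm` with the same automorphisms.

* `Class2 H` : all commutators are central.
* `Baer H m hc hm`, its `CommGroup` instance, `Baer.map`.
* `baer_fixed` : Thompson's `P × Q` lemma for odd `p`, abstract form: a `p`-group `P` normalising a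
  `p'`-group `Q`, both acting on a `p`-group `H` of class `≤ 2`, `p` odd; if every fixed point of `P`
  is fixed by `Q` then `Q` acts trivially.
* `conjAut G : normalizer G →* MulAut G`.
-/

namespace Cfsg.Agent.Lib.Helper66

open scoped commutatorElement

/-- All commutators of `H` are central. -/
def Class2 (H : Type*) [Group H] : Prop := ∀ x y : H, ⁅x, y⁆ ∈ Subgroup.center H

section

variable {H : Type*} [Group H]

theorem Class2.comm (hc : Class2 H) (x y g : H) : g * ⁅x, y⁆ = ⁅x, y⁆ * g :=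
  Subgroup.mem_center_iff.mp (hc x y) g

theorem Class2.comm_pow (hc : Class2 H) (x y g : H) (m : ℕ) : g * ⁅x, y⁆ ^ m = ⁅x, y⁆ ^ m * g :=
  Subgroup.mem_center_iff.mp (Subgroup.pow_mem _ (hc x y) m) g

theorem Class2.comm_mul_left (hc : Class2 H) (x y z : H) : ⁅x * y, z⁆ = ⁅x, z⁆ * ⁅y, z⁆ := by
  have h1 : ⁅x * y, z⁆ = x * ⁅y, z⁆ * z * x⁻¹ * z⁻¹ := by
    rw [commutatorElement_def, commutatorElement_def]; group
  rw [h1, hc.comm y z x, hc.comm y z ⁅x, z⁆, commutatorElement_def x z]
  group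

theorem Class2.comm_mul_right (hc : Class2 H) (x y z : H) : ⁅x, y * z⁆ = ⁅x, y⁆ * ⁅x, z⁆ := by
  have h1 : ⁅x, y * z⁆ = x * y * x⁻¹ * ⁅x, z⁆ * y⁻¹ := by
    rw [commutatorElement_def, commutatorElement_def]; group
  rw [h1, mul_assoc (x * y * x⁻¹) ⁅x, z⁆ y⁻¹, ← hc.comm x z y⁻¹, commutatorElement_def x y]
  group

theorem Class2.comm_central_left (hc : Class2 H) (x y : H) {u : H} (hu : u ∈ Subgroup.center H) :
    ⁅x * u, y⁆ = ⁅x, y⁆ := by
  rw [hc.comm_mul_left]
  have : ⁅u, y⁆ = 1 := by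
    rw [commutatorElement_eq_one_iff_commute]
    exact ((Subgroup.mem_center_iff.mp hu) y).symm
  rw [this, mul_one]

theorem Class2.comm_central_right (hc : Class2 H) (x y : H) {u : H} (hu : u ∈ Subgroup.center H) :
    ⁅x, y * u⁆ = ⁅x, y⁆ := by
  rw [hc.comm_mul_right]
  have : ⁅x, u⁆ = 1 := by
    rw [commutatorElement_eq_one_iff_commute]
    exact ((Subgroup.mem_center_iff.mp hu) x)
  rw [this, mul_one]

theorem Class2.mul_pow (hc : Class2 H) (x y z w : H) (m : ℕ) :
    (⁅x, y⁆ * ⁅z, w⁆) ^ m = ⁅x, y⁆ ^ m * ⁅z, w⁆ ^ m :=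
  Commute.mul_pow (hc.comm z w ⁅x, y⁆) m

/-- Baer's abelian group attached to a group of class `≤ 2` with a "half" exponent `m`. -/
structure Baer (H : Type*) [Group H] (m : ℕ) (hc : Class2 H)
    (hm : ∀ x y : H, ⁅x, y⁆ ^ (2 * m) = ⁅x, y⁆) where
  /-- the underlying element -/
  val : H

namespace Baer

variable {m : ℕ} {hc : Class2 H} {hm : ∀ x y : H, ⁅x, y⁆ ^ (2 * m) = ⁅x, y⁆}

theorem ext' {a b : Baer H m hc hm} (h : a.val = b.val) : a = b := by
  cases a; cases b; cases h; rfl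

instance : Mul (Baer H m hc hm) := ⟨fun a b => ⟨a.val * b.val * ⁅b.val, a.val⁆ ^ m⟩⟩
instance : One (Baer H m hc hm) := ⟨⟨1⟩⟩
instance : Inv (Baer H m hc hm) := ⟨fun a => ⟨a.val⁻¹⟩⟩

theorem mul_val (a b : Baer H m hc hm) : (a * b).val = a.val * b.val * ⁅b.val, a.val⁆ ^ m := rfl
theorem one_val : (1 : Baer H m hc hm).val = 1 := rfl
theorem inv_val (a : Baer H m hc hm) : (a⁻¹).val = a.val⁻¹ := rfl

instance : CommGroup (Baer H m hc hm) where
  mul_assoc a b c := by
    apply ext'
    obtain ⟨a⟩ := a; obtain ⟨b⟩ := b; obtain ⟨c⟩ := c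
    simp only [mul_val]
    have hu : ⁅b, a⁆ ^ m ∈ Subgroup.center H := Subgroup.pow_mem _ (hc b a) m
    have hv : ⁅c, b⁆ ^ m ∈ Subgroup.center H := Subgroup.pow_mem _ (hc c b) m
    rw [hc.comm_central_right c (a * b) hu, hc.comm_central_left (b * c) a hv,
      hc.comm_mul_right, hc.comm_mul_left, hc.mul_pow, hc.mul_pow]
    -- a * b * u * c * (w * v) = a * (b * c * v) * (u * w)
    rw [mul_assoc (a * b) (⁅b, a⁆ ^ m) c, ← hc.comm_pow b a c m]
    rw [hc.comm_pow c a (⁅b, a⁆ ^ m) m]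
    simp only [mul_assoc]
    congr 3
    rw [← hc.comm_pow b a (⁅c, a⁆ ^ m * ⁅c, b⁆ ^ m) m, hc.comm_pow c b (⁅c, a⁆ ^ m) m, mul_assoc]
  one_mul a := by
    apply ext'
    simp [mul_val, one_val]
  mul_one a := by
    apply ext'
    simp [mul_val, one_val]
  inv_mul_cancel a := by
    apply ext'
    simp [mul_val, one_val, inv_val, commutatorElement_def]
  mul_comm a b := by
    apply ext'
    obtain ⟨a⟩ := a; obtain ⟨b⟩ := b
    simp only [mul_val]
    have h1 : a * b = ⁅a, b⁆ * (b * a) := by rw [commutatorElement_def]; group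
    have h2 : ⁅b, a⁆ ^ m = (⁅a, b⁆ ^ m)⁻¹ := by
      rw [← commutatorElement_inv a b, inv_pow]
    have h3 : ⁅a, b⁆ = ⁅a, b⁆ ^ m * ⁅a, b⁆ ^ m := by
      rw [← pow_add, ← two_mul, hm]
    have h4 : ⁅a, b⁆ * (⁅a, b⁆ ^ m)⁻¹ = ⁅a, b⁆ ^ m := by
      rw [mul_inv_eq_iff_eq_mul]; exact h3
    calc a * b * ⁅b, a⁆ ^ m = ⁅a, b⁆ * (b * a) * (⁅a, b⁆ ^ m)⁻¹ := by rw [← h1, h2]
      _ = b * a * (⁅a, b⁆ * (⁅a, b⁆ ^ m)⁻¹) := by rw [← hc.comm a b (b * a), mul_assoc]
      _ = b * a * ⁅a, b⁆ ^ m := by rw [h4]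

/-- An automorphism of `H` is an automorphism of Baer's group. -/
def map (φ : H ≃* H) : Baer H m hc hm →* Baer H m hc hm where
  toFun a := ⟨φ a.val⟩
  map_one' := ext' (map_one φ)
  map_mul' a b := by
    apply ext'
    simp only [mul_val, map_mul, map_pow, map_commutatorElement]

theorem map_val (φ : H ≃* H) (a : Baer H m hc hm) : (map φ a).val = φ a.val := rfl

/-- The underlying bijection. -/
def equiv : Baer H m hc hm ≃ H where
  toFun a := a.val
  invFun x := ⟨x⟩
  left_inv _ := rfl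
  right_inv _ := rfl

end Baer

/-- Thompson's `P × Q` lemma for odd `p`, abstract form. -/
theorem baer_fixed {H Γ : Type*} [Group H] [Finite H] [Group Γ] {p : ℕ} [Fact p.Prime]
    (hp2 : p ≠ 2) (hH : IsPGroup p H) (hc : Class2 H) (ρ : Γ →* MulAut H) (P Q : Subgroup Γ)
    [Finite Q] (hP : IsPGroup p P) (hQ : (Nat.card Q).Coprime p)
    (hPQ : P ≤ Subgroup.normalizer (Q : Set Γ))
    (hfix : ∀ x : H, (∀ a ∈ P, ρ a x = x) → ∀ q ∈ Q, ρ q x = x) :
    ∀ q ∈ Q, ∀ x : H, ρ q x = x := by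
  classical
  have hp : p.Prime := Fact.out
  by_contra hcon
  push Not at hcon
  obtain ⟨q0, hq0, x0, hx0⟩ := hcon
  obtain ⟨k, hk⟩ := IsPGroup.iff_card.mp hH
  have hodd : Odd (Nat.card H) := by
    rw [hk]
    exact Odd.pow (hp.odd_of_ne_two hp2)
  obtain ⟨m0, hm0⟩ := hodd
  have hm : ∀ x y : H, ⁅x, y⁆ ^ (2 * (m0 + 1)) = ⁅x, y⁆ := by
    intro x y
    have : 2 * (m0 + 1) = Nat.card H + 1 := by omega
    rw [this, pow_succ, pow_card_eq_one', one_mul]
  let L := Baer H (m0 + 1) hc hm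
  have : Finite L := Finite.of_equiv H (Baer.equiv (hc := hc) (hm := hm)).symm
  have hcardL : Nat.card L = p ^ k := by
    rw [← hk]; exact Nat.card_congr Baer.equiv
  have hL : IsPGroup p L := IsPGroup.of_card hcardL
  let _ : Fintype Q := Fintype.ofFinite Q
  let N : L →* L := ∏ q : Q, Baer.map (ρ (q : Γ))
  have hN : ∀ g : L, N g = ∏ q : Q, Baer.map (ρ (q : Γ)) g := fun g =>
    MonoidHom.finsetProd_apply _ _ _
  -- equivariance under `P`
  have hNP : ∀ a ∈ P, ∀ g : L, N (Baer.map (ρ a) g) = Baer.map (ρ a) (N g) := by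
    intro a ha g
    rw [hN, hN, map_prod]
    let e : Q ≃ Q :=
      { toFun := fun q => ⟨a * q * a⁻¹, (Subgroup.mem_normalizer_iff.mp (hPQ ha) q).mp q.2⟩
        invFun := fun q => ⟨a⁻¹ * q * a, by
          have := (Subgroup.mem_normalizer_iff.mp (hPQ ha) (a⁻¹ * q * a)).mpr
          apply this
          simp [mul_assoc]⟩
        left_inv := fun q => by apply Subtype.ext; simp [mul_assoc]
        right_inv := fun q => by apply Subtype.ext; simp [mul_assoc] }
    refine (Fintype.prod_equiv e _ _ ?_).symm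
    intro q
    apply Baer.ext'
    simp only [Baer.map_val]
    change ρ a (ρ q g.val) = ρ (a * q * a⁻¹) (ρ a g.val)
    rw [← MulAut.mul_apply, ← MulAut.mul_apply, ← map_mul, ← map_mul]
    congr 2
    group
  -- translation invariance under `Q`
  have hNQ : ∀ q ∈ Q, ∀ g : L, N (Baer.map (ρ q) g) = N g := by
    intro q hq g
    rw [hN, hN]
    refine Fintype.prod_equiv (Equiv.mulRight (⟨q, hq⟩ : Q)) _ _ ?_
    intro q'
    apply Baer.ext'
    simp only [Baer.map_val]
    change ρ q' (ρ q g.val) = ρ (q' * q) g.val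
    rw [← MulAut.mul_apply, ← map_mul]
  -- a nontrivial element of the kernel
  let g0 : L := ⟨x0⟩
  have hker : (g0⁻¹ * Baer.map (ρ q0) g0) ∈ N.ker := by
    rw [MonoidHom.mem_ker, map_mul, map_inv, hNQ q0 hq0, inv_mul_cancel]
  have hne : N.ker ≠ ⊥ := by
    intro hbot
    rw [hbot, Subgroup.mem_bot, inv_mul_eq_one] at hker
    apply hx0
    have := congrArg Baer.val hker
    exact this.symm
  have hpK : p ∣ Nat.card N.ker := by
    rcases (hL.to_subgroup N.ker).card_eq_or_dvd with h | h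
    · exact absurd (Subgroup.card_eq_one.mp h) hne
    · exact h
  -- the action of `P` on the kernel
  let act : MulAction P N.ker :=
    { smul := fun a g => ⟨Baer.map (ρ (a : Γ)) g.1, by
        rw [MonoidHom.mem_ker, hNP a a.2, MonoidHom.mem_ker.mp g.2, map_one]⟩
      one_smul := fun g => by
        apply Subtype.ext
        apply Baer.ext'
        change ρ ((1 : P) : Γ) g.1.val = g.1.val
        simp
      mul_smul := fun a b g => by
        apply Subtype.ext
        apply Baer.ext'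
        change ρ ((a * b : P) : Γ) g.1.val = ρ (a : Γ) (ρ (b : Γ) g.1.val)
        simp }
  have key := hP.card_modEq_card_fixedPoints N.ker
  have hpF : p ∣ Nat.card (MulAction.fixedPoints P N.ker) :=
    (Nat.modEq_zero_iff_dvd.mp (key.symm.trans (Nat.modEq_zero_iff_dvd.mpr hpK)))
  have h1F : (1 : N.ker) ∈ MulAction.fixedPoints P N.ker := by
    intro a
    apply Subtype.ext
    apply Baer.ext'
    change ρ (a : Γ) (1 : H) = 1
    simp
  have : Finite (MulAction.fixedPoints P N.ker) := Subtype.finite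
  have hlt : 1 < Nat.card (MulAction.fixedPoints P N.ker) := by
    have hpos : 0 < Nat.card (MulAction.fixedPoints P N.ker) :=
      Nat.card_pos_iff.mpr ⟨⟨⟨1, h1F⟩⟩, inferInstance⟩
    exact lt_of_lt_of_le hp.one_lt (Nat.le_of_dvd hpos hpF)
  have : Nontrivial (MulAction.fixedPoints P N.ker) := Finite.one_lt_card_iff_nontrivial.mp hlt
  obtain ⟨w, hw⟩ := exists_ne (⟨1, h1F⟩ : MulAction.fixedPoints P N.ker)
  have hw1 : (w : N.ker) ≠ 1 := fun h => hw (Subtype.ext h)
  have hwP : ∀ a ∈ P, ρ a (w.1.1.val) = w.1.1.val := by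
    intro a ha
    have := w.2 ⟨a, ha⟩
    exact congrArg (fun z : N.ker => z.1.val) this
  have hwQ := hfix _ hwP
  have hNw : N w.1.1 = w.1.1 ^ Nat.card Q := by
    rw [hN]
    have : ∀ q : Q, Baer.map (ρ (q : Γ)) w.1.1 = w.1.1 := by
      intro q
      apply Baer.ext'
      exact hwQ q q.2
    rw [Finset.prod_congr rfl (fun q _ => this q), Finset.prod_const, Finset.card_univ,
      Nat.card_eq_fintype_card]
  have hpow : w.1.1 ^ Nat.card Q = 1 := by
    rw [← hNw]; exact MonoidHom.mem_ker.mp w.1.2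
  have ho1 : orderOf w.1.1 ∣ Nat.card Q := orderOf_dvd_of_pow_eq_one hpow
  have ho2 : orderOf w.1.1 ∣ p ^ k := by
    rw [← hcardL]; exact orderOf_dvd_natCard _
  have ho : orderOf w.1.1 = 1 := Nat.eq_one_of_dvd_coprimes (hQ.pow_right k) ho1 ho2
  exact hw1 (Subtype.ext (orderOf_eq_one_iff.mp ho))


/-- Conjugation action of the normaliser of `G` on `G`, as a homomorphism to `MulAut G`. -/
def conjAut {X : Type*} [Group X] (G : Subgroup X) :
    ↥(Subgroup.normalizer (G : Set X)) →* MulAut ↥G where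
  toFun n :=
    { toFun := fun g => ⟨(n : X) * g * (n : X)⁻¹, (Subgroup.mem_normalizer_iff.mp n.2 g).mp g.2⟩
      invFun := fun g => ⟨(n : X)⁻¹ * g * (n : X),
        (Subgroup.mem_normalizer_iff''.mp n.2 g).mp g.2⟩
      left_inv := fun g => by apply Subtype.ext; simp [mul_assoc]
      right_inv := fun g => by apply Subtype.ext; simp [mul_assoc]
      map_mul' := fun g₁ g₂ => by apply Subtype.ext; simp [mul_assoc] }
  map_one' := by
    apply MulEquiv.ext
    intro g
    apply Subtype.ext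
    simp
  map_mul' n₁ n₂ := by
    apply MulEquiv.ext
    intro g
    apply Subtype.ext
    simp [mul_assoc]

theorem conjAut_apply {X : Type*} [Group X] (G : Subgroup X)
    (n : ↥(Subgroup.normalizer (G : Set X))) (g : ↥G) :
    ((conjAut G n g : ↥G) : X) = (n : X) * g * (n : X)⁻¹ := rfl

/-- Thompson's `P × Q` lemma for odd `p` when `G` has class at most two. -/
theorem pq_odd_class2 {X : Type*} [Group X] [Finite X] {p : ℕ} [Fact p.Prime] (hp : p ≠ 2)
    (P Q G : Subgroup X) (hP : IsPGroup p P) (hQ : (Nat.card Q).Coprime p)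
    (hPQ : P ≤ Subgroup.normalizer (Q : Set X)) (hG : IsPGroup p G)
    (hPG : P ≤ Subgroup.normalizer (G : Set X)) (hQG : Q ≤ Subgroup.normalizer (G : Set X))
    (hcl : ⁅G, G⁆ ≤ Subgroup.centralizer (G : Set X))
    (hC : G ⊓ Subgroup.centralizer (P : Set X) ≤ Subgroup.centralizer (Q : Set X)) :
    Q ≤ Subgroup.centralizer (G : Set X) := by
  have hc : Class2 ↥G := by
    intro x y
    rw [Subgroup.mem_center_iff]
    intro g
    apply Subtype.ext
    have h1 : ⁅(x : X), (y : X)⁆ ∈ Subgroup.centralizer (G : Set X) :=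
      hcl (Subgroup.commutator_mem_commutator x.2 y.2)
    have h2 := Subgroup.mem_centralizer_iff.mp h1 g g.2
    simpa [commutatorElement_def] using h2
  set N := Subgroup.normalizer (G : Set X) with hN
  have hQcard : Nat.card (Q.subgroupOf N) = Nat.card Q :=
    Nat.card_congr (Subgroup.subgroupOfEquivOfLe hQG).toEquiv
  have key := baer_fixed hp hG hc (conjAut G) (P.subgroupOf N) (Q.subgroupOf N)
    hP.comap_subtype (by rw [hQcard]; exact hQ)
    (by
      intro a ha
      rw [Subgroup.mem_normalizer_iff]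
      intro q
      rw [Subgroup.mem_subgroupOf, Subgroup.mem_subgroupOf]
      exact Subgroup.mem_normalizer_iff.mp (hPQ (Subgroup.mem_subgroupOf.mp ha)) q)
    (by
      intro x hx q hq
      have hxP : (x : X) ∈ Subgroup.centralizer (P : Set X) := by
        rw [Subgroup.mem_centralizer_iff]
        intro a ha
        have := congrArg Subtype.val (hx ⟨a, hPG ha⟩ (Subgroup.mem_subgroupOf.mpr ha))
        rw [conjAut_apply] at this
        exact (mul_inv_eq_iff_eq_mul.mp this)
      have hxQ := hC ⟨x.2, hxP⟩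
      apply Subtype.ext
      rw [conjAut_apply]
      have := Subgroup.mem_centralizer_iff.mp hxQ q (Subgroup.mem_subgroupOf.mp hq)
      exact mul_inv_eq_iff_eq_mul.mpr this)
  intro q hq
  rw [Subgroup.mem_centralizer_iff]
  intro g hg
  have := congrArg Subtype.val (key ⟨q, hQG hq⟩ (Subgroup.mem_subgroupOf.mpr hq) ⟨g, hg⟩)
  rw [conjAut_apply] at this
  exact (mul_inv_eq_iff_eq_mul.mp this).symm

end

end Cfsg.Agent.Lib.Helper66
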