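import Cfsg.Agent.Lib.Helper66.Baer

/-!
# Power identities in groups of class at most two (helper66)

* `Class2.comm_pow_left`, `Class2.comm_inv_left` : `⁅x ^ n, y⁆ = ⁅x, y⁆ ^ n`, `⁅x⁻¹, y⁆ = ⁅x, y⁆⁻¹`.
* `Class2.mul_pow_formula` : `(x * y) ^ n = x ^ n * y ^ n * ⁅y, x⁆ ^ (∑ i ∈ range n, i)`.
* `Class2.mul_pow_eq_one` : for odd `p`, if `x ^ p = 1`, `y ^ p = 1`, `⁅y, x⁆ ^ p = 1` then
  `(x * y) ^ p = 1`.
* `le_normalizer_comm'` : `A ≤ N(H)`, `A ≤ N(K)` imply `A ≤ N(⁅H, K⁆)`.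
-/

namespace Cfsg.Agent.Lib.Helper66

open scoped commutatorElement

section

variable {H : Type*} [Group H]

theorem Class2.comm_pow_left (hc : Class2 H) (x y : H) (n : ℕ) : ⁅x ^ n, y⁆ = ⁅x, y⁆ ^ n := by
  induction n with
  | zero => simp
  | succ n ih => rw [pow_succ, hc.comm_mul_left, ih, pow_succ]

theorem Class2.comm_inv_left (hc : Class2 H) (x y : H) : ⁅x⁻¹, y⁆ = ⁅x, y⁆⁻¹ := by
  have h := hc.comm_mul_left x⁻¹ x y
  rw [inv_mul_cancel, commutatorElement_one_left] at h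
  exact eq_inv_of_mul_eq_one_left h.symm

theorem Class2.mul_pow_formula (hc : Class2 H) (x y : H) (n : ℕ) :
    (x * y) ^ n = x ^ n * y ^ n * ⁅y, x⁆ ^ (∑ i ∈ Finset.range n, i) := by
  induction n with
  | zero => simp
  | succ n ih =>
    have h1 : y ^ n * x = ⁅y, x⁆ ^ n * x * y ^ n := by
      rw [← hc.comm_pow_left, commutatorElement_def]; group
    calc (x * y) ^ (n + 1) = x ^ n * y ^ n * ⁅y, x⁆ ^ (∑ i ∈ Finset.range n, i) * (x * y) := by
          rw [pow_succ, ih]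
      _ = x ^ n * (y ^ n * x) * y * ⁅y, x⁆ ^ (∑ i ∈ Finset.range n, i) := by
          rw [mul_assoc (x ^ n * y ^ n), ← hc.comm_pow y x (x * y)]
          simp only [mul_assoc]
      _ = x ^ n * (⁅y, x⁆ ^ n * x * y ^ n) * y * ⁅y, x⁆ ^ (∑ i ∈ Finset.range n, i) := by rw [h1]
      _ = x ^ n * (x * y ^ n * ⁅y, x⁆ ^ n) * y * ⁅y, x⁆ ^ (∑ i ∈ Finset.range n, i) := by
          rw [mul_assoc (⁅y, x⁆ ^ n) x (y ^ n), ← hc.comm_pow y x (x * y ^ n) n]
      _ = x ^ n * x * (y ^ n * y) * (⁅y, x⁆ ^ n * ⁅y, x⁆ ^ (∑ i ∈ Finset.range n, i)) := by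
          simp only [mul_assoc]
          rw [← mul_assoc (⁅y, x⁆ ^ n) y, ← hc.comm_pow y x y n, mul_assoc]
      _ = x ^ (n + 1) * y ^ (n + 1) * ⁅y, x⁆ ^ (∑ i ∈ Finset.range (n + 1), i) := by
          rw [← pow_add, Finset.sum_range_succ, pow_succ, pow_succ, add_comm]

theorem Class2.mul_pow_eq_one (hc : Class2 H) {p : ℕ} (hp : Odd p) {x y : H} (hx : x ^ p = 1)
    (hy : y ^ p = 1) (hxy : ⁅y, x⁆ ^ p = 1) : (x * y) ^ p = 1 := by
  rw [hc.mul_pow_formula, hx, hy, one_mul, one_mul]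
  have h1 := Finset.sum_range_id_mul_two p
  have h2 : p ∣ ∑ i ∈ Finset.range p, i := by
    have h3 : p ∣ (∑ i ∈ Finset.range p, i) * 2 := by rw [h1]; exact dvd_mul_right _ _
    exact (Nat.Coprime.dvd_of_dvd_mul_right (Nat.Coprime.symm (Nat.coprime_two_left.mpr hp)) h3)
  obtain ⟨c, hc'⟩ := h2
  rw [hc', pow_mul, hxy, one_pow]

end

/-- A subgroup normalising `H` and `K` normalises `⁅H, K⁆`. -/
theorem le_normalizer_comm' {X : Type*} [Group X] {A H K : Subgroup X}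
    (hH : A ≤ Subgroup.normalizer (H : Set X)) (hK : A ≤ Subgroup.normalizer (K : Set X)) :
    A ≤ Subgroup.normalizer ((⁅H, K⁆ : Subgroup X) : Set X) := by
  intro a ha
  rw [Subgroup.mem_normalizer_iff]
  have key : ∀ b : X, b ∈ Subgroup.normalizer (H : Set X) → b ∈ Subgroup.normalizer (K : Set X) →
      ∀ g ∈ ⁅H, K⁆, b * g * b⁻¹ ∈ ⁅H, K⁆ := by
    intro b hbH hbK g hg
    have hle : ⁅H, K⁆ ≤ (⁅H, K⁆ : Subgroup X).comap (MulAut.conj b).toMonoidHom := by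
      rw [Subgroup.commutator_le]
      intro g₁ h₁ g₂ h₂
      rw [Subgroup.mem_comap, map_commutatorElement]
      exact Subgroup.commutator_mem_commutator ((Subgroup.mem_normalizer_iff.mp hbH g₁).mp h₁)
        ((Subgroup.mem_normalizer_iff.mp hbK g₂).mp h₂)
    exact hle hg
  intro g
  constructor
  · exact key a (hH ha) (hK ha) g
  · intro hg
    have := key a⁻¹ (Subgroup.inv_mem _ (hH ha)) (Subgroup.inv_mem _ (hK ha)) _ hg
    simpa [mul_assoc] using this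

end Cfsg.Agent.Lib.Helper66
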