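import Mathlib
import Cfsg.Agent.Lib.Helper70.D11Defs
import Cfsg.Agent.S0675

/-!
# S0679 piece TWO: transitivity, double transitivity, involutions

For a subgroup `G` of `Perm (Fin 11)` containing the cycle `c0`: `G` is transitive; if `G` is not
solvable it is doubly transitive (Burnside, landed S0675); a doubly transitive group contains an
involution.
-/

set_option autoImplicit false

namespace Cfsg.Agent.Lib.Helper66.D11

open Equiv Cfsg.Agent.Lib.Helper70.D11
open Fin.NatCast Fin.CommRing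

theorem c0_pow_apply (k : ℕ) (x : Fin 11) : (c0 ^ k) x = x + (k : Fin 11) := by
  induction k generalizing x with
  | zero => simp
  | succ k ih =>
    rw [pow_succ, Perm.mul_apply, ih]
    have h1 : c0 x = x + 1 := rfl
    rw [h1]
    push_cast
    ring

theorem pretrans_of_c0 (G : Subgroup P11) (hc : c0 ∈ G) : MulAction.IsPretransitive G (Fin 11) := by
  refine ⟨fun x y => ?_⟩
  refine ⟨⟨c0 ^ ((y - x : Fin 11) : ℕ), G.pow_mem hc _⟩, ?_⟩
  change (c0 ^ ((y - x : Fin 11) : ℕ)) x = y
  rw [c0_pow_apply, Fin.cast_val_eq_self]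
  ring

theorem two_trans (G : Subgroup P11) (hc : c0 ∈ G) (hns : ¬ Group.IsSolvable G) :
    MulAction.IsMultiplyPretransitive G (Fin 11) 2 := by
  have := pretrans_of_c0 G hc
  have hp : (Fintype.card (Fin 11)).Prime := by
    rw [Fintype.card_fin]
    norm_num
  rcases Cfsg.Agent.S0675.result hp G with h | h
  · exact absurd h hns
  · exact h

theorem pow_fix_of_fix (g : P11) (x : Fin 11) (h : g x = x) (k : ℕ) : (g ^ k) x = x := by
  induction k with
  | zero => simp
  | succ k ih => rw [pow_succ, Perm.mul_apply, h, ih]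

theorem exists_invol (G : Subgroup P11) (h2 : MulAction.IsMultiplyPretransitive G (Fin 11) 2) :
    ∃ t ∈ G, t ≠ 1 ∧ t * t = 1 := by
  classical
  have hinj1 : Function.Injective (![0, 1] : Fin 2 → Fin 11) := by decide
  have hinj2 : Function.Injective (![1, 0] : Fin 2 → Fin 11) := by decide
  obtain ⟨g, hg⟩ := MulAction.exists_smul_eq G (⟨![0, 1], hinj1⟩ : Fin 2 ↪ Fin 11)
    (⟨![1, 0], hinj2⟩ : Fin 2 ↪ Fin 11)
  have h0 : g.1 0 = 1 := by
    have h := congrArg (fun f : Fin 2 ↪ Fin 11 => f 0) hg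
    have h' : g • (0 : Fin 11) = 1 := by simpa using h
    exact h'
  have h1 : g.1 1 = 0 := by
    have h := congrArg (fun f : Fin 2 ↪ Fin 11 => f 1) hg
    have h' : g • (1 : Fin 11) = 0 := by simpa using h
    exact h'
  have hn : 0 < orderOf g.1 := orderOf_pos g.1
  have hsq : (g.1 ^ 2) 0 = 0 := by
    rw [pow_two, Perm.mul_apply, h0, h1]
  have heven : Even (orderOf g.1) := by
    by_contra hodd
    rw [Nat.not_even_iff_odd] at hodd
    obtain ⟨m, hm⟩ := hodd
    have h3 : g.1 ^ (2 * (m + 1)) = g.1 := by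
      have : 2 * (m + 1) = orderOf g.1 + 1 := by omega
      rw [this, pow_succ, pow_orderOf_eq_one, one_mul]
    have h4 : (g.1 ^ (2 * (m + 1))) 0 = 0 := by
      rw [pow_mul]
      exact pow_fix_of_fix _ 0 hsq _
    rw [h3, h0] at h4
    exact absurd h4 (by decide)
  obtain ⟨m, hm⟩ := heven
  have hmpos : 0 < m := by omega
  refine ⟨g.1 ^ m, G.pow_mem g.2 m, ?_, ?_⟩
  · exact pow_ne_one_of_lt_orderOf (by omega) (by omega)
  · rw [← pow_add, ← hm, pow_orderOf_eq_one]

end Cfsg.Agent.Lib.Helper66.D11
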