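import Mathlib
import Cfsg.Agent.Lib.Helper66.Broline
import Cfsg.Agent.Lib.Helper83.Linear

set_option autoImplicit false

namespace Cfsg.Agent.Lib.Helper66

open Cfsg Cfsg.Agent.Lib

/-- The preimage of the Fitting subgroup of `G ⧸ N`. -/
noncomputable def fitNext {G : Type*} [Group G] (N : Subgroup G) [N.Normal] : Subgroup G :=
  (fittingSubgroup (G ⧸ N)).comap (QuotientGroup.mk' N)

instance fitNext_normal {G : Type*} [Group G] (N : Subgroup G) [N.Normal] :
    (fitNext N).Normal :=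
  (Helper30.fitting_normal).comap _

theorem mem_fitNext {G : Type*} [Group G] (N : Subgroup G) [N.Normal] (g : G) :
    g ∈ fitNext N ↔ (g : G ⧸ N) ∈ fittingSubgroup (G ⧸ N) := Iff.rfl

theorem le_fitNext {G : Type*} [Group G] (N : Subgroup G) [N.Normal] : N ≤ fitNext N := by
  intro k hk
  rw [mem_fitNext, (QuotientGroup.eq_one_iff k).mpr hk]
  exact Subgroup.one_mem _

theorem fitNext_quot_nilpotent {G : Type*} [Group G] [Finite G] (N : Subgroup G) [N.Normal]
    (h : (N.subgroupOf (fitNext N)).Normal) :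
    Group.IsNilpotent (↥(fitNext N) ⧸ N.subgroupOf (fitNext N)) := by
  obtain ⟨φ, hφ⟩ : ∃ φ : ↥(fitNext N) →* ↥(fittingSubgroup (G ⧸ N)),
      ∀ x : ↥(fitNext N), ((φ x : ↥(fittingSubgroup (G ⧸ N))) : G ⧸ N) = ((x : G) : G ⧸ N) :=
    ⟨(QuotientGroup.mk' N).subgroupComap (fittingSubgroup (G ⧸ N)), fun x => rfl⟩
  have hsurj : Function.Surjective φ := by
    rintro ⟨y, hy⟩
    obtain ⟨g, rfl⟩ := QuotientGroup.mk_surjective y
    exact ⟨⟨g, (mem_fitNext N g).mpr hy⟩, Subtype.ext (hφ _)⟩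
  have hker : N.subgroupOf (fitNext N) = φ.ker := by
    ext x
    rw [Subgroup.mem_subgroupOf, MonoidHom.mem_ker]
    constructor
    · intro hx
      apply Subtype.ext
      rw [hφ x]
      exact (QuotientGroup.eq_one_iff (x : G)).mpr hx
    · intro hx
      have := congrArg Subtype.val hx
      rw [hφ x] at this
      exact (QuotientGroup.eq_one_iff (x : G)).mp this
  haveI : Group.IsNilpotent (fittingSubgroup (G ⧸ N)) := Helper30.fitting_nilpotent
  exact Group.nilpotent_of_mulEquiv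
    ((QuotientGroup.quotientMulEquivOfEq hker).trans
      (QuotientGroup.quotientKerEquivOfSurjective φ hsurj)).symm

/-- One step of Garrison's argument. -/
theorem garrison_step {G : Type*} [Group G] [Finite G] [Group.IsSolvable G] (N : Subgroup G)
    [N.Normal] (ψ : IrrCharacter G) (hψ : ∀ g ∈ fitNext N, ψ.1 g = ψ.1 1)
    (htop : fitNext N ≠ ⊤) :
    ∃ ψ' : IrrCharacter G, charDegree ψ.1 < charDegree ψ'.1 ∧ ∀ g ∈ N, ψ'.1 g = ψ'.1 1 := by
  obtain ⟨φ, rfl⟩ := Helper83.exists_inflate_eq (N := N) ψ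
    (fun g hg => hψ g (le_fitNext N hg))
  have hFK : fittingSubgroup (G ⧸ N) ≤ Helper83.irrKer φ := by
    intro y hy
    obtain ⟨g, rfl⟩ := QuotientGroup.mk_surjective y
    have h1 := hψ g ((mem_fitNext N g).mpr hy)
    rw [Helper83.inflate_apply, Helper83.inflate_apply, QuotientGroup.mk_one] at h1
    exact (Helper83.mem_irrKer φ _).mpr h1
  have hcase : ¬ Helper83.irrKer φ ≤ fittingSubgroup (G ⧸ N) ∨
      (Helper83.irrKer φ = fittingSubgroup (G ⧸ N) ∧
        Group.IsSolvable ((G ⧸ N) ⧸ Helper83.irrKer φ) ∧ Helper83.irrKer φ ≠ ⊤) := by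
    by_cases hle : Helper83.irrKer φ ≤ fittingSubgroup (G ⧸ N)
    · right
      have heq : Helper83.irrKer φ = fittingSubgroup (G ⧸ N) := le_antisymm hle hFK
      refine ⟨heq, inferInstance, ?_⟩
      intro h
      apply htop
      rw [eq_top_iff]
      intro g _
      rw [mem_fitNext, ← heq, h]
      exact Subgroup.mem_top _
    · exact Or.inl hle
  obtain ⟨φ', hdeg, -⟩ := broline φ (Helper83.irrKer φ) (Helper83.mem_irrKer φ) hcase
  refine ⟨Helper83.inflate N φ', ?_, fun g hg => Helper83.inflate_ker N φ' g hg⟩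
  rw [Helper83.charDegree_inflate, Helper83.charDegree_inflate]
  exact hdeg

/-- The upper Fitting series. -/
noncomputable def fitSeries (G : Type*) [Group G] : ℕ → {N : Subgroup G // N.Normal}
  | 0 => ⟨⊥, inferInstance⟩
  | (i + 1) => haveI := (fitSeries G i).2; ⟨fitNext (fitSeries G i).1, inferInstance⟩

theorem fitSeries_zero (G : Type*) [Group G] : (fitSeries G 0).1 = ⊥ := rfl

theorem fitSeries_le_succ (G : Type*) [Group G] (i : ℕ) :
    (fitSeries G i).1 ≤ (fitSeries G (i + 1)).1 := by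
  haveI := (fitSeries G i).2
  exact le_fitNext (fitSeries G i).1

theorem fitSeries_mono (G : Type*) [Group G] : Monotone (fun i => (fitSeries G i).1) :=
  monotone_nat_of_le_succ (fitSeries_le_succ G)

theorem fitSeries_quot_nilpotent (G : Type*) [Group G] [Finite G] (i : ℕ)
    (h : ((fitSeries G i).1.subgroupOf (fitSeries G (i + 1)).1).Normal) :
    Group.IsNilpotent (↥(fitSeries G (i + 1)).1 ⧸
      (fitSeries G i).1.subgroupOf (fitSeries G (i + 1)).1) := by
  haveI := (fitSeries G i).2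
  exact fitNext_quot_nilpotent (fitSeries G i).1 h

theorem garrison_chain {G : Type*} [Group G] [Finite G] [Group.IsSolvable G] (m : ℕ)
    (hm : (fitSeries G m).1 ≠ ⊤) (k : ℕ) (hk : k ≤ m) :
    ∃ ψ : IrrCharacter G, (∀ g ∈ (fitSeries G (m - k)).1, ψ.1 g = ψ.1 1) ∧
      ∃ S : Finset ℕ, S.card = k + 1 ∧ (∀ d ∈ S, ∃ χ : IrrCharacter G, charDegree χ.1 = d) ∧
        ∀ d ∈ S, d ≤ charDegree ψ.1 := by
  induction k with
  | zero =>
    refine ⟨Helper83.trivIrr G, fun g _ => rfl, {charDegree (Helper83.trivIrr G).1}, by simp,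
      ?_, ?_⟩
    · intro d hd
      rw [Finset.mem_singleton] at hd
      exact ⟨Helper83.trivIrr G, hd.symm⟩
    · intro d hd
      rw [Finset.mem_singleton] at hd
      exact hd.le
  | succ k ih =>
    obtain ⟨ψ, hψ, S, hS, hSd, hSle⟩ := ih (by omega)
    have hj : m - k = (m - (k + 1)) + 1 := by omega
    rw [hj] at hψ
    haveI := (fitSeries G (m - (k + 1))).2
    have htop : fitNext (fitSeries G (m - (k + 1))).1 ≠ ⊤ := by
      intro h
      apply hm
      rw [eq_top_iff, ← h]
      exact fitSeries_mono G (show m - (k + 1) + 1 ≤ m by omega)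
    obtain ⟨ψ', hdeg, hψ'⟩ := garrison_step (fitSeries G (m - (k + 1))).1 ψ hψ htop
    refine ⟨ψ', hψ', insert (charDegree ψ'.1) S, ?_, ?_, ?_⟩
    · rw [Finset.card_insert_of_notMem, hS]
      intro hmem
      exact absurd (hSle _ hmem) (not_le.mpr hdeg)
    · intro d hd
      rcases Finset.mem_insert.mp hd with rfl | hd
      · exact ⟨ψ', rfl⟩
      · exact hSd d hd
    · intro d hd
      rcases Finset.mem_insert.mp hd with rfl | hd
      · exact le_rfl
      · exact (hSle d hd).trans hdeg.le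

theorem garrison_top {G : Type*} [Group G] [Finite G] [Group.IsSolvable G] (n : ℕ)
    (hcd : Nat.card {d : ℕ // ∃ χ : IrrCharacter G, charDegree (χ : G → ℂ) = d} = n) :
    (fitSeries G n).1 = ⊤ := by
  by_contra hne
  obtain ⟨ψ, -, S, hS, hSd, -⟩ := garrison_chain n hne n le_rfl
  have hfin : (Set.range (fun χ : IrrCharacter G => charDegree (χ : G → ℂ))).Finite :=
    Set.finite_range _
  have hsub : (↑S : Set ℕ) ⊆ Set.range (fun χ : IrrCharacter G => charDegree (χ : G → ℂ)) := by
    intro d hd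
    obtain ⟨χ, hχ⟩ := hSd d hd
    exact ⟨χ, hχ⟩
  have h1 := Set.ncard_le_ncard hsub hfin
  rw [Set.ncard_coe_finset, hS] at h1
  have h2 : (Set.range (fun χ : IrrCharacter G => charDegree (χ : G → ℂ))).ncard = n := by
    rw [← hcd, ← Nat.card_coe_set_eq]
    rfl
  omega

/-- **Garrison's theorem**. -/
theorem garrison {G : Type*} [Group G] [Finite G] (hsolv : Group.IsSolvable G) (n : ℕ)
    (hcd : Nat.card {d : ℕ // ∃ χ : IrrCharacter G, charDegree (χ : G → ℂ) = d} = n) :
    ∃ N : Fin (n + 1) → Subgroup G, N 0 = ⊥ ∧ N (Fin.last n) = ⊤ ∧ Monotone N ∧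
      (∀ i, (N i).Normal) ∧ ∀ i : Fin n,
        ∀ h : (N i.castSucc).subgroupOf (N i.succ) |>.Normal,
          Group.IsNilpotent (↥(N i.succ) ⧸ (N i.castSucc).subgroupOf (N i.succ)) := by
  refine ⟨fun i => (fitSeries G i.val).1, rfl, garrison_top n hcd, ?_, fun i => (fitSeries G i.val).2,
    ?_⟩
  · intro i j hij
    exact fitSeries_mono G hij
  · intro i h
    exact fitSeries_quot_nilpotent G i.val h

end Cfsg.Agent.Lib.Helper66
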