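import Mathlib
import Cfsg.Agent.Lib.Helper96.SpDefs
import Cfsg.Agent.Lib.Helper43.OqSDMULT
import Cfsg.Agent.Lib.Helper82.QuadSELFDUAL
import Cfsg.Agent.Lib.Helper98.O72Defs

/-! Piece HY-CHARPOLY for S5992: the characteristic polynomial of a fixed-point-free
isometry of prime order `r` is a dual-closed product of cyclotomic factors. -/

namespace Cfsg.Agent.Lib.Helper66.Hy

open Module Polynomial Cfsg.Agent.Lib.Helper96.Sp Cfsg.Agent.Lib.Helper47

universe u

variable {F : Type u} [Field F] [Fintype F] {V : Type u} [AddCommGroup V] [Module F V]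
  [FiniteDimensional F V] {B : LinearMap.BilinForm F V}

theorem charpoly_fpf (p : ℕ) [Fact p.Prime] [CharP F p] (hS : B.IsSymm) (h2 : (2 : F) ≠ 0)
    (hN : ND B ⊤) (g : Module.End F V) (hg : Isom B g) (r : ℕ) (hr : r.Prime) (hr2 : r ≠ 2)
    (hrp : r ≠ p) (hgr : g ^ r = 1) (hfix : ∀ v, g v = v → v = 0) (hpos : 0 < finrank F V) :
    ∃ s : Multiset F[X], (∀ f ∈ s, IsCycFactor r f) ∧ s.map (dualP (RingHom.id F)) = s ∧
      s ≠ 0 ∧ g.charpoly = s.prod := by
  classical
  let b := Module.finBasis F V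
  obtain ⟨M, hMdef⟩ : ∃ M : Matrix (Fin (finrank F V)) (Fin (finrank F V)) F,
      M = LinearMap.toMatrix b b g := ⟨_, rfl⟩
  have hMch : M.charpoly = g.charpoly := by
    rw [hMdef]; exact LinearMap.charpoly_toMatrix g b
  have hM : M ^ r = 1 := by
    have h1 : LinearMap.toMatrixAlgEquiv b (g ^ r) = (LinearMap.toMatrixAlgEquiv b g) ^ r :=
      map_pow _ _ _
    rw [hgr, map_one] at h1
    rw [hMdef]
    exact h1.symm
  obtain ⟨c, s, hs, hch⟩ := charpoly_factors_of_pow_eq_one p hr hrp M hM
  have hc : c = 0 := by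
    by_contra hc0
    have hroot : g.charpoly.IsRoot 1 := by
      rw [← hMch, hch, Polynomial.IsRoot, Polynomial.eval_mul, Polynomial.eval_pow]
      simp [hc0]
    have hev := (Module.End.hasEigenvalue_iff_isRoot_charpoly g 1).2 hroot
    obtain ⟨v, hv⟩ := hev.exists_hasEigenvector
    have hgv : g v = v := by
      have := hv.apply_eq_smul
      rwa [one_smul] at this
    exact hv.2 (hfix v hgv)
  have hs0 : s ≠ 0 := by
    rintro rfl
    have hd : g.charpoly.natDegree = finrank F V := LinearMap.charpoly_natDegree g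
    rw [← hMch, hch, hc] at hd
    simp at hd
    omega
  have hdual : dualP (RingHom.id F) g.charpoly = g.charpoly := by
    refine Cfsg.Agent.Lib.Helper82.charpoly_selfdual (ε := 1) (B := fun x y => B x y) ?_ ?_ g ?_
    · refine ⟨?_, ?_, ?_⟩
      · intro x y z; simp
      · intro a x y; simp
      · intro x y
        simp only [RingHom.id_apply, one_mul]
        exact Cfsg.Agent.Lib.Helper98.O72.sym_swap hS h2 y x
    · intro x hx
      exact hN x Submodule.mem_top (fun y _ => hx y)
    · intro x y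
      exact hg x y
  have hMu : IsUnit M := by
    have hr1 : M * M ^ (r - 1) = 1 := by
      rw [← pow_succ', Nat.sub_add_cancel hr.one_le, hM]
    exact IsUnit.of_mul_eq_one _ hr1
  have hdet : IsUnit M.det := (Matrix.isUnit_iff_isUnit_det M).mp hMu
  have h1 : ((sT (RingHom.id F) M)⁻¹).charpoly = dualP (RingHom.id F) M.charpoly :=
    charpoly_sT_inv M hdet
  have h2' : (sT (RingHom.id F) M)⁻¹ = Matrix.transpose (M⁻¹) := by
    rw [Matrix.transpose_nonsing_inv]
    congr 1
  have hinv : (M⁻¹).charpoly = M.charpoly := by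
    rw [← Matrix.charpoly_transpose, ← h2', h1, hMch, hdual]
  have hsd := Cfsg.Agent.Lib.Helper43.Oq.selfdual_multiset r hr hr2 hrp M hM hinv c s hs hch
  refine ⟨s, hs, hsd, hs0, ?_⟩
  rw [← hMch, hch, hc, pow_zero, one_mul]

end Cfsg.Agent.Lib.Helper66.Hy
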