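import Mathlib
import Cfsg.Agent.Lib.Helper58.JEDefs

/-! Piece JE-HALF for S2948: an automorphism `κ` of order 3 without fixed points on an
elementary abelian 2-group `N`, inverted by an involution `β`: `|C_N(β)|² = |N|`. -/

set_option autoImplicit false

namespace Cfsg.Agent.Lib.Helper66.JE

open Cfsg.Agent.Lib.Helper58.JE Cfsg.Agent.Lib.Helper72.JL Cfsg.Agent.Lib.Helper72.SC
  Cfsg.Agent.Lib.Helper78.Jc

universe u

theorem half : HalfStmt.{u} := by
  intro U _ _ κ β N h2 hκ3 hβ2 hβκ hκN hβN hfpf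
  classical
  have hinv : ∀ u : U, u⁻¹ = u := fun u => inv_eq_of_mul_eq_one_right (h2 u)
  have hk3 : ∀ x, κ (κ (κ x)) = x := by
    intro x
    have := congrArg (fun f : MulAut U => f x) hκ3
    simpa [pow_succ, MulAut.mul_apply] using this
  have hb2 : ∀ x, β (β x) = x := by
    intro x
    have := congrArg (fun f : MulAut U => f x) hβ2
    simpa [MulAut.mul_apply] using this
  have hbk : ∀ x, β (κ x) = κ (κ (β x)) := by
    intro x
    have h1 : β * κ = κ⁻¹ * β := by rw [← hβκ]; group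
    have h3 : κ⁻¹ = κ * κ := by
      apply inv_eq_of_mul_eq_one_right
      rw [← hκ3]; simp [pow_succ, mul_assoc]
    rw [h3] at h1
    have := congrArg (fun f : MulAut U => f x) h1
    simpa [MulAut.mul_apply] using this
  have hsum : ∀ n ∈ N, n * κ n * κ (κ n) = 1 := by
    intro n hn
    apply hfpf _ (N.mul_mem (N.mul_mem hn (hκN n hn)) (hκN _ (hκN n hn)))
    rw [map_mul, map_mul, hk3, mul_comm (κ n * κ (κ n)) n, mul_assoc]
  let φ : {n : U // n ∈ N ∧ β n = n} × {n : U // n ∈ N ∧ β n = n} → ↥N :=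
    fun x => ⟨x.1.1 * κ x.2.1, N.mul_mem x.1.2.1 (hκN _ x.2.2.1)⟩
  have hinj : Function.Injective φ := by
    rintro ⟨⟨f₁, hf₁N, hf₁⟩, ⟨f₂, hf₂N, hf₂⟩⟩ ⟨⟨g₁, hg₁N, hg₁⟩, ⟨g₂, hg₂N, hg₂⟩⟩ h
    have h' : f₁ * κ f₂ = g₁ * κ g₂ := congrArg Subtype.val h
    have hc : κ (f₂ * g₂) = f₁ * g₁ := by
      rw [map_mul]
      have h4 : κ f₂ = f₁ * (g₁ * κ g₂) := by
        rw [← h', ← mul_assoc, h2, one_mul]
      rw [h4, mul_assoc, mul_assoc, h2, mul_one]
    have hcF : β (κ (f₂ * g₂)) = κ (f₂ * g₂) := by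
      rw [hc, map_mul, hf₁, hg₁]
    rw [hbk, map_mul, hf₂, hg₂] at hcF
    have hc1 : κ (f₂ * g₂) = f₂ * g₂ := κ.injective hcF
    have hc0 : f₂ * g₂ = 1 := hfpf _ (N.mul_mem hf₂N hg₂N) hc1
    have e2 : f₂ = g₂ := by
      have h5 := mul_eq_one_iff_eq_inv.mp hc0
      rw [hinv] at h5; exact h5
    have e1 : f₁ = g₁ := by
      rw [hc0, map_one] at hc
      have h5 := mul_eq_one_iff_eq_inv.mp hc.symm
      rw [hinv] at h5; exact h5
    subst e1 e2; rfl
  have hsurj : Function.Surjective φ := by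
    rintro ⟨w, hw⟩
    have hf₂N : w * β w ∈ N := N.mul_mem hw (hβN w hw)
    have hf₂ : β (w * β w) = w * β w := by rw [map_mul, hb2, mul_comm]
    have hf₁N : w * κ (w * β w) ∈ N := N.mul_mem hw (hκN _ hf₂N)
    have hf₁ : β (w * κ (w * β w)) = w * κ (w * β w) := by
      rw [map_mul, hbk, hf₂]
      have hs := hsum _ hf₂N
      have hkk : κ (κ (w * β w)) = (w * β w) * κ (w * β w) := by
        have h5 := mul_eq_one_iff_eq_inv.mp hs
        rw [hinv] at h5; exact h5.symm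
      rw [hkk, ← mul_assoc, ← mul_assoc, mul_comm (β w) w, mul_assoc w, h2, mul_one]
    refine ⟨(⟨⟨w * κ (w * β w), hf₁N, hf₁⟩, ⟨w * β w, hf₂N, hf₂⟩⟩ :
      {n : U // n ∈ N ∧ β n = n} × {n : U // n ∈ N ∧ β n = n}), ?_⟩
    apply Subtype.ext
    show w * κ (w * β w) * κ (w * β w) = w
    rw [mul_assoc, h2, mul_one]
  have hcard := Nat.card_eq_of_bijective φ ⟨hinj, hsurj⟩
  rw [Nat.card_prod] at hcard
  rw [pow_two]
  exact hcard

end Cfsg.Agent.Lib.Helper66.JE
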