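import Mathlib

namespace Cfsg.Agent.Lib.Helper66

/-! Pairs `a, 2 - a` of norm one in `GF(p^q)` (B&G Appendix C arithmetic). -/

section Cubic

open Polynomial

theorem norm_sub_gen_eq_eval {R S : Type*} [CommRing R] [Ring S] [Algebra R S]
    (pb : PowerBasis R S) (t : R) :
    Algebra.norm R (algebraMap R S t - pb.gen) = (minpoly R pb.gen).eval t := by
  classical
  rw [← charpoly_leftMulMatrix pb, Matrix.eval_charpoly,
    Algebra.norm_eq_matrix_det pb.basis]
  congr 1
  rw [map_sub]
  congr 1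
  exact AlgHom.commutes _ t

theorem exists_cubic_no_root (p : ℕ) [Fact p.Prime] :
    ∃ c : ZMod p, ∀ y : ZMod p, y ^ 3 - c * y ^ 2 + c ≠ 0 := by
  by_contra hcon
  push Not at hcon
  choose r hr using hcon
  have hinj : Function.Injective r := by
    intro c c' h
    have h1 := hr c
    have h2 := hr c'
    rw [h] at h1
    have hy : (r c') ^ 2 - 1 ≠ 0 := by
      intro h0
      have h3 : (r c') ^ 3 = 0 := by linear_combination h1 + c * h0
      have hy0 : r c' = 0 := by simpa using h3
      rw [hy0] at h0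
      simp at h0
    have h4 : (c - c') * ((r c') ^ 2 - 1) = 0 := by linear_combination h2 - h1
    rcases mul_eq_zero.mp h4 with h | h
    · exact sub_eq_zero.mp h
    · exact absurd h hy
  have hsurj := Finite.surjective_of_injective hinj
  obtain ⟨c, hc⟩ := hsurj 1
  have := hr c
  rw [hc] at this
  simp at this

theorem normPairs_three (p : ℕ) [Fact p.Prime] :
    ∃ a : GaloisField p 3, a ≠ 1 ∧ Algebra.norm (ZMod p) a = 1 ∧
      Algebra.norm (ZMod p) (2 - a) = 1 := by
  obtain ⟨c, hc⟩ := exists_cubic_no_root p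
  set g : (ZMod p)[X] := X ^ 3 - C c * X ^ 2 + C c with hg
  have hdeg : g.natDegree = 3 := by
    rw [hg]; compute_degree!
  have hmonic : g.Monic := by
    rw [hg]; monicity!
  have hirr : Irreducible g := by
    apply irreducible_of_degree_le_three_of_not_isRoot
    · rw [hdeg]; decide
    · intro x hx
      apply hc x
      simpa [hg, IsRoot] using hx
  have : Fact (Irreducible g) := ⟨hirr⟩
  let pb := AdjoinRoot.powerBasis hmonic.ne_zero
  have hmin : minpoly (ZMod p) pb.gen = g := AdjoinRoot.minpoly_powerBasis_gen_of_monic hmonic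
  have hgen : pb.gen = AdjoinRoot.root g := AdjoinRoot.powerBasis_gen _
  have : Module.Finite (ZMod p) (AdjoinRoot g) := pb.finite
  have : Finite (AdjoinRoot g) := Module.finite_of_finite (ZMod p)
  have hfr : Module.finrank (ZMod p) (AdjoinRoot g) = 3 := by
    rw [pb.finrank, AdjoinRoot.powerBasis_dim, hdeg]
  have hcard : Nat.card (AdjoinRoot g) = p ^ 3 := by
    have := Module.natCard_eq_pow_finrank (K := ZMod p) (V := AdjoinRoot g)
    rw [this, hfr, Nat.card_zmod]
  let e := GaloisField.algEquivGaloisField p 3 hcard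
  have hN1 : Algebra.norm (ZMod p) (1 + AdjoinRoot.root g) = 1 := by
    have h := norm_sub_gen_eq_eval pb (-1)
    rw [hmin, hgen] at h
    have h2 : (1 + AdjoinRoot.root g) = (-1) * (algebraMap (ZMod p) (AdjoinRoot g) (-1) - AdjoinRoot.root g) := by
      simp
      ring
    have h3 : Algebra.norm (ZMod p) (-1 : AdjoinRoot g) = -1 := by
      have := Algebra.norm_algebraMap (S := AdjoinRoot g) (-1 : ZMod p)
      rw [hfr] at this
      have h4 : ((-1 : ZMod p)) ^ 3 = -1 := by ring
      rw [h4] at this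
      simpa using this
    rw [h2, map_mul, h, h3, hg]
    simp
    ring
  have hN2 : Algebra.norm (ZMod p) (1 - AdjoinRoot.root g) = 1 := by
    have h := norm_sub_gen_eq_eval pb 1
    rw [hmin, hgen] at h
    rw [map_one] at h
    rw [h, hg]
    simp
  refine ⟨e (1 + AdjoinRoot.root g), ?_, ?_, ?_⟩
  · intro h
    have h1 : (1 + AdjoinRoot.root g) = 1 := by
      apply e.injective
      rw [h, map_one]
    have h2 : AdjoinRoot.root g = 0 := by simpa using h1
    have h5 : Polynomial.aeval (AdjoinRoot.root g) g = 0 := by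
      rw [AdjoinRoot.aeval_eq, AdjoinRoot.mk_self]
    rw [h2, ← Polynomial.coeff_zero_eq_aeval_zero'] at h5
    have h6 : g.coeff 0 = c := by rw [hg]; simp
    rw [h6] at h5
    have h7 : c = 0 := by
      apply (algebraMap (ZMod p) (AdjoinRoot g)).injective
      rw [h5, map_zero]
    apply hc 0
    rw [h7]
    simp
  · rw [← hN1]
    exact Algebra.norm_eq_of_algEquiv e _
  · rw [← hN2]
    have : (2 : GaloisField p 3) - e (1 + AdjoinRoot.root g) = e (1 - AdjoinRoot.root g) := by
      simp [map_add, map_sub]; ring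
    rw [this]
    exact Algebra.norm_eq_of_algEquiv e _


end Cubic

section JacobiPart

open Finset

theorem jacobi_norm_sq_le {F : Type*} [Field F] [Fintype F] (χ ψ : MulChar F ℂ)
    (h : ¬(χ = 1 ∧ ψ = 1)) : ‖jacobiSum χ ψ‖ ^ 2 ≤ (Fintype.card F : ℝ) := by
  have hcard : (1 : ℝ) ≤ (Fintype.card F : ℝ) := by
    exact_mod_cast Fintype.card_pos
  by_cases hχ : χ = 1
  · have hψ : ψ ≠ 1 := fun hψ => h ⟨hχ, hψ⟩
    rw [hχ, jacobiSum_one_nontrivial hψ]
    simpa using hcard
  by_cases hψ : ψ = 1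
  · rw [hψ, jacobiSum_comm, jacobiSum_one_nontrivial hχ]
    simpa using hcard
  by_cases hχψ : χ * ψ = 1
  · have hψ' : ψ = χ⁻¹ := eq_inv_of_mul_eq_one_right hχψ
    rw [hψ', jacobiSum_nontrivial_inv hχ]
    have h1 : χ (-1) ^ 2 = 1 := by
      rw [← map_pow]
      simp
    have h2 : ‖χ (-1)‖ ^ 2 = 1 := by
      rw [← norm_pow, h1, norm_one]
    rw [norm_neg, h2]
    exact hcard
  · have hchar : ringChar ℂ ≠ ringChar F := by
      rw [ringChar.eq_zero]
      exact (CharP.ringChar_ne_zero_of_finite F).symm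
    have key := jacobiSum_mul_jacobiSum_inv hchar hχ hψ hχψ
    have hχi : χ⁻¹ = χ.ringHomComp (starRingEnd ℂ) := (MulChar.star_eq_inv χ).symm
    have hψi : ψ⁻¹ = ψ.ringHomComp (starRingEnd ℂ) := (MulChar.star_eq_inv ψ).symm
    rw [hχi, hψi, jacobiSum_ringHomComp, Complex.mul_conj] at key
    have h3 : Complex.normSq (jacobiSum χ ψ) = (Fintype.card F : ℝ) := by
      exact_mod_cast key
    rw [← Complex.normSq_eq_norm_sq, h3]

section Lift

variable {p : ℕ} [Fact p.Prime] {F : Type*} [Field F] [Fintype F] [Algebra (ZMod p) F]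

/-- The lift of a character of the prime field through the norm. -/
noncomputable def normLift (χ : MulChar (ZMod p) ℂ) : MulChar F ℂ :=
  { toFun := fun x => χ (Algebra.norm (ZMod p) x)
    map_one' := by simp
    map_mul' := by intro x y; simp
    map_nonunit' := by
      intro x hx
      have hx0 : x = 0 := by simpa using hx
      subst hx0
      change χ (Algebra.norm (ZMod p) (0 : F)) = 0
      rw [Algebra.norm_zero]
      exact MulChar.map_zero χ }

theorem normLift_apply (χ : MulChar (ZMod p) ℂ) (x : F) :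
    (normLift χ : MulChar F ℂ) x = χ (Algebra.norm (ZMod p) x) := rfl

theorem normLift_eq_one_iff (χ : MulChar (ZMod p) ℂ) :
    (normLift χ : MulChar F ℂ) = 1 ↔ χ = 1 := by
  constructor
  · intro h
    ext k
    obtain ⟨x, hx⟩ := FiniteField.unitsMap_norm_surjective (ZMod p) F k
    have h1 := congrArg (fun φ : MulChar F ℂ => φ (x : F)) h
    simp only [normLift_apply] at h1
    have h2 : Algebra.norm (ZMod p) (x : F) = (k : ZMod p) := by
      rw [← hx]; rfl
    rw [h2] at h1
    rw [h1]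
    simp [MulChar.one_apply_coe]
  · rintro rfl
    ext x
    rw [normLift_apply, MulChar.one_apply_coe, MulChar.one_apply]
    exact (x.isUnit).map (Algebra.norm (ZMod p))

omit [Fintype F] in
theorem two_ne_zero_of_odd (hp : p ≠ 2) : (2 : F) ≠ 0 := by
  have h2 : (2 : ZMod p) ≠ 0 := by
    intro h
    have h' : ((2 : ℕ) : ZMod p) = 0 := by exact_mod_cast h
    rw [ZMod.natCast_eq_zero_iff] at h'
    have := Nat.le_of_dvd (by norm_num) h'
    have := (Fact.out : p.Prime).two_le
    omega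
  intro h
  apply h2
  apply (algebraMap (ZMod p) F).injective
  rw [map_ofNat, map_zero]
  exact h

open Classical in
theorem normPairs_sum :
    ∑ χ : DirichletCharacter ℂ p, ∑ ψ : DirichletCharacter ℂ p, ∑ a : F,
        χ (Algebra.norm (ZMod p) a) * ψ (Algebra.norm (ZMod p) (2 - a))
    = (p.totient : ℂ) ^ 2 * ((Finset.univ.filter (fun a : F =>
        Algebra.norm (ZMod p) a = 1 ∧ Algebra.norm (ZMod p) (2 - a) = 1)).card : ℂ) := by
  have h1 : ∀ a : F, ∑ χ : DirichletCharacter ℂ p, ∑ ψ : DirichletCharacter ℂ p,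
        χ (Algebra.norm (ZMod p) a) * ψ (Algebra.norm (ZMod p) (2 - a))
      = (p.totient : ℂ) ^ 2 * (if (Algebra.norm (ZMod p) a = 1 ∧
          Algebra.norm (ZMod p) (2 - a) = 1) then 1 else 0) := by
    intro a
    rw [← Finset.sum_mul_sum, DirichletCharacter.sum_characters_eq,
      DirichletCharacter.sum_characters_eq]
    by_cases ha : Algebra.norm (ZMod p) a = 1 <;>
      by_cases hb : Algebra.norm (ZMod p) (2 - a) = 1 <;> simp [ha, hb, sq]
  calc _ = ∑ a : F, ∑ χ : DirichletCharacter ℂ p, ∑ ψ : DirichletCharacter ℂ p,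
          χ (Algebra.norm (ZMod p) a) * ψ (Algebra.norm (ZMod p) (2 - a)) := by
        refine (Finset.sum_congr rfl fun χ _ => Finset.sum_comm).trans ?_
        rw [Finset.sum_comm]
    _ = _ := by
        simp_rw [h1]
        rw [← Finset.mul_sum, Finset.sum_boole]

theorem normPairs_T (hp : p ≠ 2) (χ ψ : DirichletCharacter ℂ p) :
    ∑ a : F, χ (Algebra.norm (ZMod p) a) * ψ (Algebra.norm (ZMod p) (2 - a))
    = (normLift χ : MulChar F ℂ) 2 * (normLift ψ : MulChar F ℂ) 2 *
        jacobiSum (normLift χ : MulChar F ℂ) (normLift ψ) := by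
  have h2 : (2 : F) ≠ 0 := two_ne_zero_of_odd hp
  rw [jacobiSum, Finset.mul_sum, ← Equiv.sum_comp (Equiv.mulLeft₀ (2 : F) h2)]
  refine Finset.sum_congr rfl (fun x _ => ?_)
  simp only [Equiv.mulLeft₀_apply]
  rw [← normLift_apply, ← normLift_apply, show (2 : F) - 2 * x = 2 * (1 - x) by ring,
    map_mul, map_mul]
  ring

open Classical in
theorem normPairs_bound (hp : p ≠ 2) :
    ((Fintype.card F : ℝ) - 2) - ((p.totient : ℝ) ^ 2 - 1) * Real.sqrt (Fintype.card F)
      ≤ (p.totient : ℝ) ^ 2 * ((Finset.univ.filter (fun a : F =>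
        Algebra.norm (ZMod p) a = 1 ∧ Algebra.norm (ZMod p) (2 - a) = 1)).card : ℝ) := by
  set E := (Finset.univ.filter (fun a : F =>
        Algebra.norm (ZMod p) a = 1 ∧ Algebra.norm (ZMod p) (2 - a) = 1)) with hE
  set T : DirichletCharacter ℂ p × DirichletCharacter ℂ p → ℂ := fun x =>
    ∑ a : F, x.1 (Algebra.norm (ZMod p) a) * x.2 (Algebra.norm (ZMod p) (2 - a)) with hT
  have h2 : (2 : F) ≠ 0 := two_ne_zero_of_odd hp
  have hpair : ∑ x : DirichletCharacter ℂ p × DirichletCharacter ℂ p, T x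
      = (p.totient : ℂ) ^ 2 * (E.card : ℂ) := by
    rw [Fintype.sum_prod_type]
    exact normPairs_sum
  rw [← Finset.add_sum_erase Finset.univ _ (Finset.mem_univ (1, 1))] at hpair
  have h11 : T (1, 1) = (Fintype.card F : ℂ) - 2 := by
    simp only [hT]
    rw [normPairs_T hp]
    have h1 : (normLift (1 : DirichletCharacter ℂ p) : MulChar F ℂ) = 1 :=
      (normLift_eq_one_iff 1).mpr rfl
    rw [h1, jacobiSum_one_one, MulChar.one_apply (isUnit_iff_ne_zero.mpr h2)]
    ring
  have hothers : ∀ x ∈ (Finset.univ.erase (1, 1) :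
      Finset (DirichletCharacter ℂ p × DirichletCharacter ℂ p)),
      ‖T x‖ ≤ Real.sqrt (Fintype.card F) := by
    rintro ⟨χ, ψ⟩ hx
    simp only [hT]
    rw [normPairs_T hp]
    have hne : ¬((normLift χ : MulChar F ℂ) = 1 ∧ (normLift ψ : MulChar F ℂ) = 1) := by
      rw [normLift_eq_one_iff, normLift_eq_one_iff]
      rintro ⟨rfl, rfl⟩
      simp at hx
    have hJ := jacobi_norm_sq_le _ _ hne
    have hJ' : ‖jacobiSum (normLift χ : MulChar F ℂ) (normLift ψ)‖
        ≤ Real.sqrt (Fintype.card F) := Real.le_sqrt_of_sq_le hJ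
    rw [norm_mul, norm_mul]
    have h1 : ‖(normLift χ : MulChar F ℂ) 2‖ ≤ 1 := DirichletCharacter.norm_le_one χ _
    have h3 : ‖(normLift ψ : MulChar F ℂ) 2‖ ≤ 1 := DirichletCharacter.norm_le_one ψ _
    calc _ ≤ 1 * 1 * ‖jacobiSum (normLift χ : MulChar F ℂ) (normLift ψ)‖ := by gcongr
      _ ≤ _ := by simpa using hJ'
  have hcardchar : Fintype.card (DirichletCharacter ℂ p) = p.totient := by
    rw [← Nat.card_eq_fintype_card]
    exact DirichletCharacter.card_eq_totient_of_hasEnoughRootsOfUnity ℂ p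
  have htpos : 0 < p.totient := Nat.totient_pos.mpr (Fact.out : p.Prime).pos
  have hcarderase : ((Finset.univ.erase (1, 1) :
      Finset (DirichletCharacter ℂ p × DirichletCharacter ℂ p)).card : ℝ)
      = (p.totient : ℝ) ^ 2 - 1 := by
    rw [Finset.card_erase_of_mem (Finset.mem_univ _), Finset.card_univ, Fintype.card_prod,
      hcardchar]
    have : 1 ≤ p.totient * p.totient := Nat.mul_pos htpos htpos
    push_cast [Nat.cast_sub this]
    ring
  have hnorm : ‖∑ x ∈ (Finset.univ.erase (1, 1) :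
      Finset (DirichletCharacter ℂ p × DirichletCharacter ℂ p)), T x‖
      ≤ ((p.totient : ℝ) ^ 2 - 1) * Real.sqrt (Fintype.card F) := by
    calc _ ≤ ∑ x ∈ (Finset.univ.erase (1, 1) :
        Finset (DirichletCharacter ℂ p × DirichletCharacter ℂ p)), ‖T x‖ := norm_sum_le _ _
      _ ≤ ∑ x ∈ (Finset.univ.erase (1, 1) :
        Finset (DirichletCharacter ℂ p × DirichletCharacter ℂ p)),
          Real.sqrt (Fintype.card F) := Finset.sum_le_sum hothers
      _ = _ := by rw [Finset.sum_const, nsmul_eq_mul, hcarderase]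
  have hsumeq : ∑ x ∈ (Finset.univ.erase (1, 1) :
      Finset (DirichletCharacter ℂ p × DirichletCharacter ℂ p)), T x
      = (((p.totient : ℝ) ^ 2 * (E.card : ℝ) - ((Fintype.card F : ℝ) - 2) : ℝ) : ℂ) := by
    push_cast
    rw [← hpair, h11]
    ring
  rw [hsumeq, Complex.norm_real, Real.norm_eq_abs] at hnorm
  have := neg_abs_le ((p.totient : ℝ) ^ 2 * (E.card : ℝ) - ((Fintype.card F : ℝ) - 2))
  linarith

end Lift

theorem normPairs_real_ineq (P r : ℝ) (hP : 3 ≤ P) (hr : P ^ 2 + 1 ≤ r) :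
    (P - 1) ^ 2 < r ^ 2 - 2 - ((P - 1) ^ 2 - 1) * r := by
  have h1 : 0 ≤ r - (P ^ 2 + 1) := by linarith
  have h2 : 0 ≤ r - P ^ 2 + 2 * P := by nlinarith
  have h3 := mul_nonneg h1 h2
  have h4 : 0 ≤ (P ^ 2 + 1) * (r - (P ^ 2 + 1)) := mul_nonneg (by positivity) h1
  have h5 : 0 < P ^ 3 := by positivity
  nlinarith

theorem normPairs_ge_five (p q : ℕ) [Fact p.Prime] [Fact q.Prime] (hp : p ≠ 2) (hq : 5 ≤ q) :
    2 ≤ Set.ncard {a : GaloisField p q | Algebra.norm (ZMod p) a = 1 ∧
      Algebra.norm (ZMod p) (2 - a) = 1} := by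
  classical
  have : Fintype (GaloisField p q) := Fintype.ofFinite _
  have hb := normPairs_bound (p := p) (F := GaloisField p q) hp
  have hcard : Fintype.card (GaloisField p q) = p ^ q := by
    rw [← Nat.card_eq_fintype_card]
    exact GaloisField.card p q (by omega)
  have hset : {a : GaloisField p q | Algebra.norm (ZMod p) a = 1 ∧
      Algebra.norm (ZMod p) (2 - a) = 1} = ↑(Finset.univ.filter (fun a : GaloisField p q =>
        Algebra.norm (ZMod p) a = 1 ∧ Algebra.norm (ZMod p) (2 - a) = 1)) := by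
    ext a; simp
  rw [hset, Set.ncard_coe_finset]
  by_contra hlt
  push Not at hlt
  have hle : ((Finset.univ.filter (fun a : GaloisField p q =>
        Algebra.norm (ZMod p) a = 1 ∧ Algebra.norm (ZMod p) (2 - a) = 1)).card : ℝ) ≤ 1 := by
    exact_mod_cast Nat.lt_succ_iff.mp hlt
  have hp2 := (Fact.out : p.Prime).two_le
  have hp3 : 3 ≤ p := by omega
  have htot : p.totient = p - 1 := Nat.totient_prime Fact.out
  have htotR : (p.totient : ℝ) = (p : ℝ) - 1 := by
    rw [htot]; push_cast [Nat.cast_sub (by omega : 1 ≤ p)]; ring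
  have hP : (3 : ℝ) ≤ (p : ℝ) := by exact_mod_cast hp3
  rw [hcard, htotR] at hb
  push_cast at hb
  set r := Real.sqrt ((p : ℝ) ^ q) with hr
  have hrsq : r ^ 2 = (p : ℝ) ^ q := Real.sq_sqrt (by positivity)
  have hpq : (p : ℝ) ^ 5 ≤ (p : ℝ) ^ q := pow_le_pow_right₀ (by linarith) hq
  have hr1 : (p : ℝ) ^ 2 + 1 ≤ r := by
    apply Real.le_sqrt_of_sq_le
    have h4 : 0 < (p : ℝ) ^ 4 := by positivity
    nlinarith
  have hineq := normPairs_real_ineq (p : ℝ) r hP hr1
  have hsq : 0 ≤ ((p : ℝ) - 1) ^ 2 := sq_nonneg _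
  nlinarith


end JacobiPart

theorem normPairs (p q : ℕ) [Fact p.Prime] [Fact q.Prime] (hp : p ≠ 2) (hq : q ≠ 2) :
    2 ≤ Set.ncard {a : GaloisField p q | Algebra.norm (ZMod p) a = 1 ∧
      Algebra.norm (ZMod p) (2 - a) = 1} := by
  have hq2 := (Fact.out : q.Prime).two_le
  by_cases h5 : 5 ≤ q
  · exact normPairs_ge_five p q hp h5
  · have hq3 : q = 3 := by
      have hq4 : q ≠ 4 := by
        rintro rfl
        exact absurd (Fact.out : (4 : ℕ).Prime) (by norm_num)
      omega
    subst hq3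
    obtain ⟨a, ha1, ha2, ha3⟩ := normPairs_three p
    have hfin : ({a : GaloisField p 3 | Algebra.norm (ZMod p) a = 1 ∧
      Algebra.norm (ZMod p) (2 - a) = 1}).Finite := Set.toFinite _
    have := (Set.one_lt_ncard_iff hfin).mpr ⟨a, 1, ⟨ha2, ha3⟩, ⟨by simp, by norm_num⟩, ha1⟩
    omega

end Cfsg.Agent.Lib.Helper66
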