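import Mathlib
import Cfsg.Agent.Lib.Helper23.CitMain

/-!
# S3421 piece OS-V: the even case

A finite group of order `q (q ^ 2 - 1)`, `q = |F|` a power of two, `q > 3`, in which every element
of even order is an involution, is isomorphic to `PSL(2, F)` (via `Helper23.cit_psl2_of_card`).
-/

set_option autoImplicit false

namespace Cfsg.Agent.Lib.Helper14.OS

theorem osv_invCentElem {G : Type*} [Group G]
    (hord : ∀ g : G, Even (orderOf g) → orderOf g = 2) :
    Cfsg.Agent.Lib.Helper23.InvCentElem G := by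
  intro t c ht ht2 hct
  have hot : orderOf t = 2 := orderOf_eq_prime ht2 ht
  by_contra hc2
  have hc1 : c ≠ 1 := by
    rintro rfl
    exact hc2 (one_pow 2)
  have hodd : ¬ Even (orderOf c) := by
    intro he
    have h := hord c he
    exact hc2 (by rw [← h]; exact pow_orderOf_eq_one c)
  have hcop : Nat.Coprime (orderOf t) (orderOf c) := by
    rw [hot]
    exact Nat.coprime_two_left.mpr (Nat.not_even_iff_odd.mp hodd)
  have hcomm : Commute t c := hct.symm
  have h := hcomm.orderOf_mul_eq_mul_orderOf_of_coprime hcop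
  have he : Even (orderOf (t * c)) := by
    rw [h, hot]
    exact even_two_mul _
  have h2' := hord _ he
  rw [h, hot] at h2'
  have h1 : orderOf c = 1 := by omega
  exact hc1 (orderOf_eq_one_iff.mp h1)

/-- If the Sylow `2`-subgroup `T` is the only one, conjugation of `t ∈ T` gives an injection of
`G` into `C(t) × T`. -/
theorem osv_card_le {G : Type*} [Group G] [Finite G] (T : Subgroup G) (hT : T.Normal)
    (t : G) (ht : t ∈ T) :
    Nat.card G ≤ Nat.card (Subgroup.centralizer ({t} : Set G)) * Nat.card T := by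
  classical
  -- representatives
  have hex : ∀ a : G, ∃ r : G, (∃ g : G, g * t * g⁻¹ = a) → r * t * r⁻¹ = a := by
    intro a
    by_cases h : ∃ g : G, g * t * g⁻¹ = a
    · obtain ⟨g, hg⟩ := h
      exact ⟨g, fun _ => hg⟩
    · exact ⟨1, fun h' => absurd h' h⟩
  choose r hr using hex
  have hrg : ∀ g : G, r (g * t * g⁻¹) * t * (r (g * t * g⁻¹))⁻¹ = g * t * g⁻¹ :=
    fun g => hr _ ⟨g, rfl⟩
  have hmemC : ∀ g : G, (r (g * t * g⁻¹))⁻¹ * g ∈ Subgroup.centralizer ({t} : Set G) := by
    intro g
    rw [Subgroup.mem_centralizer_iff]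
    intro x hx
    rw [Set.mem_singleton_iff] at hx
    subst hx
    have h := hrg g
    -- r t r⁻¹ = g t g⁻¹  ⟹  t (r⁻¹ g) = (r⁻¹ g) t
    have h1 : x * ((r (g * x * g⁻¹))⁻¹ * g) =
        (r (g * x * g⁻¹))⁻¹ * (r (g * x * g⁻¹) * x * (r (g * x * g⁻¹))⁻¹) * g := by group
    rw [h1, h]
    group
  have hmemT : ∀ g : G, g * t * g⁻¹ ∈ T := fun g => hT.conj_mem t ht g
  let φ : G → (Subgroup.centralizer ({t} : Set G)) × T :=
    fun g => (⟨(r (g * t * g⁻¹))⁻¹ * g, hmemC g⟩, ⟨g * t * g⁻¹, hmemT g⟩)
  have hφ : Function.Injective φ := by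
    intro g h hgh
    have h1 : g * t * g⁻¹ = h * t * h⁻¹ := congrArg (fun p => (p.2 : G)) hgh
    have h2 : (r (g * t * g⁻¹))⁻¹ * g = (r (h * t * h⁻¹))⁻¹ * h :=
      congrArg (fun p => (p.1 : G)) hgh
    rw [h1] at h2
    exact mul_left_cancel h2
  have h := Nat.card_le_card_of_injective φ hφ
  rw [Nat.card_prod] at h
  exact h

theorem even_case {G : Type*} [Group G] [Finite G] {F : Type*} [Field F] [Fintype F]
    (h2 : (2 : F) = 0) (hF : 3 < Fintype.card F)
    (hcard : Nat.card G = Fintype.card F * (Fintype.card F ^ 2 - 1))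
    (hord : ∀ g : G, Even (orderOf g) → orderOf g = 2) :
    Nonempty (G ≃* Matrix.ProjectiveSpecialLinearGroup (Fin 2) F) := by
  classical
  have hC := osv_invCentElem hord
  have : CharP F 2 := CharTwo.of_one_ne_zero_of_two_eq_zero one_ne_zero h2
  obtain ⟨n, -, hn⟩ := FiniteField.card F 2
  have hsq : 2 ∣ Fintype.card F ^ 2 := by
    rw [hn]
    exact dvd_pow (dvd_pow_self 2 n.ne_zero) two_ne_zero
  have hsq1 : 1 ≤ Fintype.card F ^ 2 := Nat.one_le_pow _ _ (by omega)
  have hodd : ¬ 2 ∣ Fintype.card F ^ 2 - 1 := by omega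
  have hne : Fintype.card F ^ 2 - 1 ≠ 0 := by
    intro h0
    exact hodd (h0 ▸ dvd_zero 2)
  obtain ⟨T⟩ : Nonempty (Sylow 2 G) := inferInstance
  have hfac : (Nat.card G).factorization 2 = n := by
    rw [hcard, Nat.factorization_mul (by omega) hne, Finsupp.add_apply,
      Nat.factorization_eq_zero_of_not_dvd hodd, hn, Nat.factorization_pow,
      Finsupp.smul_apply, Nat.prime_two.factorization_self]
    simp
  have hT : Nat.card (T : Subgroup G) = Fintype.card F := by
    rw [T.card_eq_multiplicity, hfac, hn]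
  have hn1 : 1 < Nat.card (Sylow 2 G) := by
    by_contra hle
    have hsub : Subsingleton (Sylow 2 G) := by
      have h1 : Nat.card (Sylow 2 G) ≤ 1 := by omega
      exact (Finite.card_le_one_iff_subsingleton).mp h1
    have hnorm : (T : Subgroup G).Normal := Sylow.normal_of_subsingleton T
    -- a nontrivial element of `T`
    obtain ⟨t, ht, ht1⟩ : ∃ t ∈ (T : Subgroup G), t ≠ 1 := by
      have : Nontrivial (T : Subgroup G) := Finite.one_lt_card_iff_nontrivial.mp (by omega)
      obtain ⟨⟨a, ha⟩, hne'⟩ := exists_ne (1 : (T : Subgroup G))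
      exact ⟨a, ha, fun h => hne' (Subtype.ext h)⟩
    -- `t` is an involution
    have ht2 : t ^ 2 = 1 := by
      obtain ⟨k, hk⟩ := (T.2.to_le le_rfl) ⟨t, ht⟩
      have hk' : t ^ 2 ^ k = 1 := by
        have := congrArg (Subtype.val) hk
        simpa using this
      have hdvd : orderOf t ∣ 2 ^ k := orderOf_dvd_of_pow_eq_one hk'
      obtain ⟨j, -, hj⟩ := (Nat.dvd_prime_pow Nat.prime_two).mp hdvd
      have hj0 : j ≠ 0 := by
        rintro rfl
        rw [pow_zero] at hj
        exact ht1 (orderOf_eq_one_iff.mp hj)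
      have hev : Even (orderOf t) := by
        rw [hj]
        exact (Nat.even_pow.mpr ⟨even_two, hj0⟩)
      have := hord t hev
      rw [← this]
      exact pow_orderOf_eq_one t
    -- the centralizer of `t` is a `2`-group, hence inside `T`
    have hCp : IsPGroup 2 (Subgroup.centralizer ({t} : Set G)) := by
      rintro ⟨c, hc⟩
      refine ⟨1, ?_⟩
      apply Subtype.ext
      rw [Subgroup.mem_centralizer_iff] at hc
      have h1 := hC t c ht1 ht2 (hc t rfl).symm
      simpa using h1
    obtain ⟨Q, hQ⟩ := hCp.exists_le_sylow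
    have hQT : Q = T := Subsingleton.elim Q T
    rw [hQT] at hQ
    have hCle : Nat.card (Subgroup.centralizer ({t} : Set G)) ≤ Nat.card (T : Subgroup G) :=
      Subgroup.card_le_of_le hQ
    have hle2 := osv_card_le (T : Subgroup G) hnorm t ht
    rw [hT] at hCle hle2
    rw [hcard] at hle2
    have h3 : Nat.card (Subgroup.centralizer ({t} : Set G)) * Fintype.card F ≤
        Fintype.card F * Fintype.card F := Nat.mul_le_mul_right _ hCle
    have h4 : Fintype.card F * (Fintype.card F ^ 2 - 1) ≤ Fintype.card F * Fintype.card F :=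
      hle2.trans h3
    have h5 : Fintype.card F ^ 2 - 1 ≤ Fintype.card F := Nat.le_of_mul_le_mul_left h4 (by omega)
    have h6 : Fintype.card F ^ 2 = Fintype.card F * Fintype.card F := pow_two _
    have h7 : 4 * Fintype.card F ≤ Fintype.card F * Fintype.card F :=
      Nat.mul_le_mul_right _ (by omega)
    omega
  exact Cfsg.Agent.Lib.Helper23.cit_psl2_of_card hC T (by omega) hn1 hT.symm

end Cfsg.Agent.Lib.Helper14.OS
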