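import Mathlib

/-!
# S5981 piece OQ-ARITHMINUS (helper66, for helper96)

Pure arithmetic: the primes dividing the index of the orthogonal-type subgroup of minus type.
-/

set_option autoImplicit false

namespace Cfsg.Agent.Lib.Helper66.Oq

/-- `∏_{i<n} (q^n - q^i) = (∏_{i<n} q^i) * ∏_{j<n} (q^(j+1) - 1)`. -/
theorem oqam_prod (q n : ℕ) :
    ∏ i ∈ Finset.range n, (q ^ n - q ^ i) =
      (∏ i ∈ Finset.range n, q ^ i) * ∏ j ∈ Finset.range n, (q ^ (j + 1) - 1) := by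
  rw [← Finset.prod_range_reflect (fun j => q ^ (j + 1) - 1) n, ← Finset.prod_mul_distrib]
  apply Finset.prod_congr rfl
  intro i hi
  have hi' : i < n := Finset.mem_range.1 hi
  have e1 : n - 1 - i + 1 = n - i := by omega
  show q ^ n - q ^ i = q ^ i * (q ^ (n - 1 - i + 1) - 1)
  rw [e1, Nat.mul_sub, mul_one, ← pow_add]
  congr 2
  omega

/-- Splitting `∏_{j<2m} (q^(j+1) - 1)` into the odd and the even exponents. -/
theorem oqam_pair (q m : ℕ) :
    ∏ j ∈ Finset.range (2 * m), (q ^ (j + 1) - 1) =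
      (∏ k ∈ Finset.range m, (q ^ (2 * k + 1) - 1)) *
        ∏ k ∈ Finset.range m, (q ^ (2 * (k + 1)) - 1) := by
  induction m with
  | zero => simp
  | succ m ih =>
    have e : 2 * (m + 1) = 2 * m + 1 + 1 := by ring
    rw [e]
    simp only [Finset.prod_range_succ]
    rw [ih, ← e]
    ring

theorem arith_minus (q r m R t O S : ℕ) (hq : 2 ≤ q) (hm : 1 ≤ m) (hr : r.Prime) (hrq : ¬ r ∣ q)
    (hO : O = 2 * q ^ (m * (m - 1)) * (q ^ m + 1) *
      ∏ i ∈ Finset.range (m - 1), (q ^ (2 * (i + 1)) - 1))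
    (hS : S * (q - 1) = ∏ i : Fin (2 * m), (q ^ (2 * m) - q ^ (i : ℕ)))
    (hidx : R * t * O = 2 * S) (hR : r ∣ R) :
    (∃ j, Odd j ∧ r ∣ q ^ j - 1) ∨ r ∣ q ^ m - 1 := by
  obtain ⟨m', rfl⟩ : ∃ m', m = m' + 1 := ⟨m - 1, by omega⟩
  simp only [Nat.add_sub_cancel] at hO
  have hx1 : 1 ≤ q ^ (m' + 1) := Nat.one_le_pow _ _ (by omega)
  have hsq : q ^ (2 * (m' + 1)) - 1 = (q ^ (m' + 1) - 1) * (q ^ (m' + 1) + 1) := by
    have h1 : q ^ (2 * (m' + 1)) = q ^ (m' + 1) * q ^ (m' + 1) := by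
      rw [← pow_add]
      congr 1
      ring
    rw [h1]
    obtain ⟨y, hy⟩ : ∃ y, q ^ (m' + 1) = y + 1 := ⟨q ^ (m' + 1) - 1, by omega⟩
    rw [hy]
    simp only [Nat.add_sub_cancel]
    apply Nat.sub_eq_of_eq_add
    ring
  have hprod : ∏ i : Fin (2 * (m' + 1)), (q ^ (2 * (m' + 1)) - q ^ (i : ℕ)) =
      (∏ i ∈ Finset.range (2 * (m' + 1)), q ^ i) *
        ((∏ k ∈ Finset.range (m' + 1), (q ^ (2 * k + 1) - 1)) *
          ((∏ i ∈ Finset.range m', (q ^ (2 * (i + 1)) - 1)) *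
            ((q ^ (m' + 1) - 1) * (q ^ (m' + 1) + 1)))) := by
    rw [Fin.prod_univ_eq_prod_range (fun i => q ^ (2 * (m' + 1)) - q ^ i) (2 * (m' + 1)),
      oqam_prod q (2 * (m' + 1)), oqam_pair q (m' + 1),
      Finset.prod_range_succ (fun k => q ^ (2 * (k + 1)) - 1) m', hsq]
  have hEpos : 0 < ∏ i ∈ Finset.range m', (q ^ (2 * (i + 1)) - 1) :=
    Finset.prod_pos (fun i _ => Nat.sub_pos_of_lt (Nat.one_lt_pow (by omega) (by omega)))
  have hPndvd : ¬ r ∣ ∏ i ∈ Finset.range (2 * (m' + 1)), q ^ i := by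
    intro h
    obtain ⟨i, _, hi⟩ := (Prime.dvd_finsetProd_iff hr.prime _).1 h
    exact hrq (hr.dvd_of_dvd_pow hi)
  generalize (∏ i ∈ Finset.range (2 * (m' + 1)), q ^ i) = P at hprod hPndvd
  generalize hE : (∏ i ∈ Finset.range m', (q ^ (2 * (i + 1)) - 1)) = E at hprod hEpos hO
  generalize hD : (∏ k ∈ Finset.range (m' + 1), (q ^ (2 * k + 1) - 1)) = D at hprod
  generalize q ^ (m' + 1) = x at hprod hO hx1 hsq
  have key : (2 * (x + 1) * E) * (R * t * q ^ ((m' + 1) * m') * (q - 1)) =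
      (2 * (x + 1) * E) * (P * D * (x - 1)) := by
    have h1 : R * t * O * (q - 1) = 2 * (S * (q - 1)) := by rw [hidx]; ring
    rw [hS, hprod, hO] at h1
    calc (2 * (x + 1) * E) * (R * t * q ^ ((m' + 1) * m') * (q - 1))
        = R * t * (2 * q ^ ((m' + 1) * m') * (x + 1) * E) * (q - 1) := by ring
      _ = 2 * (P * (D * (E * ((x - 1) * (x + 1))))) := h1
      _ = (2 * (x + 1) * E) * (P * D * (x - 1)) := by ring
  have hcpos : 0 < 2 * (x + 1) * E :=
    Nat.mul_pos (Nat.mul_pos (by norm_num) (Nat.succ_pos x)) hEpos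
  have key2 : R * t * q ^ ((m' + 1) * m') * (q - 1) = P * D * (x - 1) :=
    Nat.eq_of_mul_eq_mul_left hcpos key
  have hdvd : r ∣ P * D * (x - 1) := by
    rw [← key2]
    exact Dvd.dvd.mul_right (Dvd.dvd.mul_right (Dvd.dvd.mul_right hR t) _) _
  rcases (Nat.Prime.dvd_mul hr).1 hdvd with h | h
  · rcases (Nat.Prime.dvd_mul hr).1 h with h' | h'
    · exact absurd h' hPndvd
    · left
      rw [← hD] at h'
      obtain ⟨k, _, hk⟩ := (Prime.dvd_finsetProd_iff hr.prime _).1 h'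
      exact ⟨2 * k + 1, odd_two_mul_add_one k, hk⟩
  · right
    exact h

end Cfsg.Agent.Lib.Helper66.Oq
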