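import Cfsg.Agent.Lib.Helper22.PTDefs
import Cfsg.Agent.Lib.Helper68.BFPDEC
import Cfsg.Agent.Lib.Helper80.Twisted
import Cfsg.Agent.Lib.Helper33.TIFour

/-!
# Project PT (helper22, S4705), piece EXACT (helper66)

`ζ (z ^ t) = - ev u t` for `t ≠ 0`.  The proof uses only the twisted column orthogonality
`TwCol`: writing `φ (z ^ t) = ∑_v a^φ_v w ^ (v t)` for every irreducible `φ` with central
character `cz ζ`, one gets `∑_φ (a^φ_x - a^φ_y)² = 2` for `x, y ≠ 0`, `x ≠ ± y`, and `= 0`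
for `y = -x`.  Hence the multiplicities `b = a^ζ` satisfy `b (-x) = b x`, `|b x - b y| ≤ 1`
off `0`; with `b 0 = 1` and `∑ b = p - 2` this forces `b = 1` except at two points `± u`.
-/

set_option autoImplicit false
set_option linter.unusedSectionVars false
set_option linter.unusedVariables false

namespace Cfsg.Agent.Lib.Helper66.PT

open Cfsg Cfsg.Agent.Lib.Helper22.BFD Cfsg.Agent.Lib.Helper22.PT
open scoped ComplexConjugate

universe u

variable {G : Type u} [Group G] [Fintype G]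

private theorem exact_two (p : ℕ) [Fact p.Prime] (hp2 : 2 < p) (k : ZMod p) (hk : k + k = 0) :
    k = 0 := by
  have h2 : (2 : ZMod p) ≠ 0 := by
    intro h
    have h3 : ((2 : ℕ) : ZMod p) = 0 := by exact_mod_cast h
    rw [ZMod.natCast_eq_zero_iff] at h3
    have := Nat.le_of_dvd (by norm_num) h3
    omega
  have h4 : (2 : ZMod p) * k = 0 := by rw [two_mul]; exact hk
  rcases mul_eq_zero.mp h4 with h5 | h5
  · exact absurd h5 h2
  · exact h5

private theorem exact_fc (p : ℕ) [Fact p.Prime] (w : ℂ) (hw : IsPrimitiveRoot w p)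
    (a : ZMod p → ℕ) (x : ZMod p) :
    ∑ t : ZMod p, w ^ (-(x * t)).val * ∑ v : ZMod p, (a v : ℂ) * w ^ (v * t).val =
      (p : ℂ) * a x := by
  have hw1 : w ^ p = 1 := hw.pow_eq_one
  have h1 : ∀ t : ZMod p, w ^ (-(x * t)).val * ∑ v : ZMod p, (a v : ℂ) * w ^ (v * t).val =
      ∑ v : ZMod p, (a v : ℂ) * w ^ ((v - x) * t).val := by
    intro t
    rw [Finset.mul_sum]
    refine Finset.sum_congr rfl fun v _ => ?_
    have h2 : (v - x) * t = -(x * t) + v * t := by ring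
    rw [h2, Cfsg.Agent.Lib.Helper33.TI.pow_val_add p w hw1]
    ring
  rw [Finset.sum_congr rfl (fun t _ => h1 t), Finset.sum_comm]
  have h3 : ∀ v : ZMod p, ∑ t : ZMod p, (a v : ℂ) * w ^ ((v - x) * t).val =
      (a v : ℂ) * ∑ t : ZMod p, w ^ ((v - x) * t).val := fun v => (Finset.mul_sum _ _ _).symm
  rw [Finset.sum_congr rfl (fun v _ => h3 v), Finset.sum_eq_single x]
  · rw [Cfsg.Agent.Lib.Helper33.TI.sum_pow_val p w hw, if_pos (sub_self x), mul_comm]
  · intro v _ hv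
    rw [Cfsg.Agent.Lib.Helper33.TI.sum_pow_val p w hw, if_neg (sub_ne_zero.mpr hv), mul_zero]
  · intro hx
    exact absurd (Finset.mem_univ x) hx

open Classical in
private theorem exact_tw [Fintype (IrrCharacter G)] (p : ℕ) [Fact p.Prime] (hp2 : 2 < p) (z : G)
    (η : G → ℂ) (htw : TwCol p z η) (c : ZMod p → ℂ) (hc0 : c 0 = 0) :
    ∑ φ : IrrCharacter G, (if ZC η φ.1 then
        (∑ t : ZMod p, c t * φ.1 (z ^ t.val)) * conj (∑ t : ZMod p, c t * φ.1 (z ^ t.val))
        else 0) = (p : ℂ) * ∑ t : ZMod p, conj (c t) * (c t + c (-t)) := by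
  have h1 : ∀ φ : IrrCharacter G,
      (if ZC η φ.1 then (∑ t : ZMod p, c t * φ.1 (z ^ t.val)) *
          conj (∑ t : ZMod p, c t * φ.1 (z ^ t.val)) else 0) =
      ∑ k : ZMod p, ∑ j : ZMod p, c j * conj (c k) *
        (if ZC η φ.1 then φ.1 (z ^ j.val) * conj (φ.1 (z ^ k.val)) else 0) := by
    intro φ
    by_cases hφ : ZC η φ.1
    · simp only [if_pos hφ]
      rw [map_sum, Finset.mul_sum]
      refine Finset.sum_congr rfl fun k _ => ?_
      rw [Finset.sum_mul]
      refine Finset.sum_congr rfl fun j _ => ?_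
      rw [map_mul]; ring
    · simp only [if_neg hφ, mul_zero, Finset.sum_const_zero]
  rw [Finset.sum_congr rfl (fun φ _ => h1 φ), Finset.sum_comm, Finset.mul_sum]
  refine Finset.sum_congr rfl fun k _ => ?_
  rw [Finset.sum_comm]
  by_cases hk : k = 0
  · subst hk
    simp [hc0]
  · have hkk : k ≠ -k := fun h0 => hk (exact_two p hp2 k (add_eq_zero_iff_eq_neg.mpr h0))
    have h2 : ∀ j : ZMod p, ∑ φ : IrrCharacter G, c j * conj (c k) *
        (if ZC η φ.1 then φ.1 (z ^ j.val) * conj (φ.1 (z ^ k.val)) else 0) =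
        (if j = k then c j * conj (c k) * (p : ℂ) else 0) +
          (if j = -k then c j * conj (c k) * (p : ℂ) else 0) := by
      intro j
      rw [← Finset.mul_sum, htw j k hk]
      rcases eq_or_ne j k with h3 | h3
      · rw [if_pos (Or.inl h3), if_pos h3, if_neg (fun h0 => hkk (h3.symm.trans h0)), add_zero]
      · rcases eq_or_ne j (-k) with h4 | h4
        · rw [if_pos (Or.inr h4), if_neg h3, if_pos h4, zero_add]
        · rw [if_neg (not_or.mpr ⟨h3, h4⟩), if_neg h3, if_neg h4, add_zero, mul_zero]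
    rw [Finset.sum_congr rfl (fun j _ => h2 j), Finset.sum_add_distrib, Finset.sum_ite_eq',
      Finset.sum_ite_eq', if_pos (Finset.mem_univ _), if_pos (Finset.mem_univ _)]
    ring

open Classical in
private theorem exact_key [Fintype (IrrCharacter G)] (p : ℕ) [Fact p.Prime] (hp2 : 2 < p)
    (w : ℂ) (hw : IsPrimitiveRoot w p) (z : G) (η : G → ℂ) (htw : TwCol p z η)
    (a : IrrCharacter G → ZMod p → ℕ)
    (ha : ∀ (φ : IrrCharacter G) (t : ZMod p),
      φ.1 (z ^ t.val) = ∑ v : ZMod p, (a φ v : ℂ) * w ^ (v * t).val) (x y : ZMod p) :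
    (∑ φ : IrrCharacter G, (if ZC η φ.1 then ((a φ x : ℂ) - (a φ y : ℂ)) ^ 2 else 0)) *
        (p : ℂ) ^ 2 =
      (p : ℂ) * (2 * (p : ℂ) - ∑ t : ZMod p, w ^ ((x - y) * t).val
        - ∑ t : ZMod p, w ^ ((y - x) * t).val + ∑ t : ZMod p, w ^ ((x + x) * t).val
        - 2 * ∑ t : ZMod p, w ^ ((x + y) * t).val + ∑ t : ZMod p, w ^ ((y + y) * t).val) := by
  have hw1 : w ^ p = 1 := hw.pow_eq_one
  have hm : ∀ a b : ZMod p, w ^ a.val * w ^ b.val = w ^ (a + b).val :=
    fun a b => (Cfsg.Agent.Lib.Helper33.TI.pow_val_add p w hw1 a b).symm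
  obtain ⟨c, hc⟩ : ∃ c : ZMod p → ℂ, ∀ t, c t = w ^ (-(x * t)).val - w ^ (-(y * t)).val :=
    ⟨fun t => w ^ (-(x * t)).val - w ^ (-(y * t)).val, fun _ => rfl⟩
  have hc0 : c 0 = 0 := by rw [hc]; simp
  have hsum : ∀ φ : IrrCharacter G, ∑ t : ZMod p, c t * φ.1 (z ^ t.val) =
      (p : ℂ) * ((a φ x : ℂ) - (a φ y : ℂ)) := by
    intro φ
    have h1 : ∀ t : ZMod p, c t * φ.1 (z ^ t.val) =
        w ^ (-(x * t)).val * (∑ v : ZMod p, (a φ v : ℂ) * w ^ (v * t).val) -
        w ^ (-(y * t)).val * (∑ v : ZMod p, (a φ v : ℂ) * w ^ (v * t).val) := by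
      intro t
      rw [ha φ t, hc t]; ring
    rw [Finset.sum_congr rfl (fun t _ => h1 t), Finset.sum_sub_distrib, exact_fc p w hw,
      exact_fc p w hw]
    ring
  have htw' := exact_tw p hp2 z η htw c hc0
  have h2 : ∀ φ : IrrCharacter G,
      (if ZC η φ.1 then (∑ t : ZMod p, c t * φ.1 (z ^ t.val)) *
          conj (∑ t : ZMod p, c t * φ.1 (z ^ t.val)) else 0) =
      (if ZC η φ.1 then ((a φ x : ℂ) - (a φ y : ℂ)) ^ 2 else 0) * (p : ℂ) ^ 2 := by
    intro φ
    rw [hsum φ]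
    by_cases hφ : ZC η φ.1
    · rw [if_pos hφ, if_pos hφ, map_mul, map_sub, Complex.conj_natCast, Complex.conj_natCast,
        Complex.conj_natCast]
      ring
    · rw [if_neg hφ, if_neg hφ, zero_mul]
  rw [Finset.sum_congr rfl (fun φ _ => h2 φ), ← Finset.sum_mul] at htw'
  rw [htw']
  congr 1
  have h3 : ∀ t : ZMod p, conj (c t) * (c t + c (-t)) =
      2 - w ^ ((x - y) * t).val - w ^ ((y - x) * t).val + w ^ ((x + x) * t).val
        - 2 * w ^ ((x + y) * t).val + w ^ ((y + y) * t).val := by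
    intro t
    have hcj : conj (c t) = w ^ (x * t).val - w ^ (y * t).val := by
      rw [hc t, map_sub, Cfsg.Agent.Lib.Helper33.TI.conj_pow_val p w hw1,
        Cfsg.Agent.Lib.Helper33.TI.conj_pow_val p w hw1, neg_neg, neg_neg]
    have hcn : c (-t) = w ^ (x * t).val - w ^ (y * t).val := by
      rw [hc (-t), mul_neg, mul_neg, neg_neg, neg_neg]
    have e1 : w ^ (x * t).val * w ^ (-(x * t)).val = 1 := by
      rw [hm, add_neg_cancel, ZMod.val_zero, pow_zero]
    have e2 : w ^ (x * t).val * w ^ (-(y * t)).val = w ^ ((x - y) * t).val := by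
      rw [hm]; congr 2; ring
    have e3 : w ^ (y * t).val * w ^ (-(x * t)).val = w ^ ((y - x) * t).val := by
      rw [hm]; congr 2; ring
    have e4 : w ^ (y * t).val * w ^ (-(y * t)).val = 1 := by
      rw [hm, add_neg_cancel, ZMod.val_zero, pow_zero]
    have e5 : w ^ (x * t).val * w ^ (x * t).val = w ^ ((x + x) * t).val := by
      rw [hm]; congr 2; ring
    have e6 : w ^ (x * t).val * w ^ (y * t).val = w ^ ((x + y) * t).val := by
      rw [hm]; congr 2; ring
    have e7 : w ^ (y * t).val * w ^ (y * t).val = w ^ ((y + y) * t).val := by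
      rw [hm]; congr 2; ring
    rw [hcj, hcn, hc t]
    linear_combination e1 - e2 - e3 + e4 + e5 - 2 * e6 + e7
  rw [Finset.sum_congr rfl (fun t _ => h3 t)]
  simp only [Finset.sum_add_distrib, Finset.sum_sub_distrib, ← Finset.mul_sum]
  rw [Finset.sum_const, Finset.card_univ, ZMod.card, nsmul_eq_mul]
  ring

/-- PIECE EXACT -/
theorem exact [Fintype (IrrCharacter G)] (p : ℕ) [Fact p.Prime] (w : ℂ)
    (hw : IsPrimitiveRoot w p) (z : G) (ζ : G → ℂ) (h : Hyp G p z ζ) (hl : Loc G p z ζ)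
    (htw : TwCol p z (cz ζ)) (hg : GExp G p) :
    ∃ u : ZMod p, u ≠ 0 ∧ ∀ t : ZMod p, t ≠ 0 → ζ (z ^ t.val) = -ev p w u t := by
  classical
  have hp : p.Prime := Fact.out
  have hp5 := h.p5
  have hp2 : 2 < p := by omega
  have hpC : (p : ℂ) ≠ 0 := by exact_mod_cast hp.ne_zero
  have hzp : z ^ p = 1 := by rw [← h.ord]; exact pow_orderOf_eq_one z
  -- Fourier coefficients of all irreducible characters on the powers of `z`
  have hdec : ∀ φ : IrrCharacter G, ∃ a : ZMod p → ℕ, ∀ t : ZMod p,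
      φ.1 (z ^ t.val) = ∑ v : ZMod p, (a v : ℂ) * w ^ (v * t).val := by
    intro φ
    obtain ⟨n, ρ, -, hρ⟩ := φ.2
    exact Cfsg.Agent.Lib.Helper68.BFT.pdec p w hw φ.1 ⟨n, ρ, hρ⟩ z hzp
  choose a ha using hdec
  obtain ⟨ζ', hζ'⟩ : ∃ ζ' : IrrCharacter G, ζ'.1 = ζ := ⟨⟨ζ, h.irr⟩, rfl⟩
  obtain ⟨b, hb⟩ : ∃ b : ZMod p → ℕ, b = a ζ' := ⟨_, rfl⟩
  have hbζ : ∀ t : ZMod p, ζ (z ^ t.val) = ∑ v : ZMod p, (b v : ℂ) * w ^ (v * t).val := by
    intro t
    rw [hb, ← hζ']
    exact ha ζ' t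
  -- `ζ` has central character `cz ζ`
  have hZC : ZC (cz ζ) ζ'.1 := by
    intro c hc g
    have h1 := Cfsg.Agent.Lib.Helper80.irr_mul_central ζ' hc g
    have h2 : c * g = g * c := (Subgroup.mem_center_iff.mp hc g).symm
    rw [h2, h1]
    unfold Cfsg.Agent.Lib.Helper80.cc cz
    rw [hζ']
  -- the sum of the multiplicities
  have hsumb : ∑ v : ZMod p, b v + 2 = p := by
    have h1 := hbζ 0
    simp only [ZMod.val_zero, pow_zero, mul_zero, mul_one] at h1
    rw [h.deg] at h1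
    have h2 : ((∑ v : ZMod p, b v + 2 : ℕ) : ℂ) = (p : ℂ) := by
      push_cast
      rw [← h1]; ring
    exact_mod_cast h2
  have hb0 : b 0 = 1 := by
    have h1 := hl.fix
    have h2 := exact_fc p w hw b 0
    simp only [zero_mul, neg_zero, ZMod.val_zero, pow_zero, one_mul] at h2
    have h3 : (p : ℂ) * (b 0 : ℂ) = (p : ℂ) * 1 := by
      rw [← h2, mul_one, ← h1]
      exact Finset.sum_congr rfl (fun t _ => (hbζ t).symm)
    have h4 : (b 0 : ℂ) = 1 := mul_left_cancel₀ hpC h3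
    exact_mod_cast h4
  -- the key consequences of twisted column orthogonality
  have hkey := exact_key p hp2 w hw z (cz ζ) htw a ha
  have hS0 : ∀ k : ZMod p, k = 0 → ∑ t : ZMod p, w ^ (k * t).val = (p : ℂ) := by
    intro k hk
    rw [Cfsg.Agent.Lib.Helper33.TI.sum_pow_val p w hw k, if_pos hk]
  have hS1 : ∀ k : ZMod p, k ≠ 0 → ∑ t : ZMod p, w ^ (k * t).val = 0 := by
    intro k hk
    rw [Cfsg.Agent.Lib.Helper33.TI.sum_pow_val p w hw k, if_neg hk]
  have hdbl : ∀ k : ZMod p, k ≠ 0 → k + k ≠ 0 := fun k hk h0 => hk (exact_two p hp2 k h0)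
  have hint : ∀ x y : ZMod p, ((∑ φ : IrrCharacter G,
      (if ZC (cz ζ) φ.1 then ((a φ x : ℤ) - (a φ y : ℤ)) ^ 2 else 0) : ℤ) : ℂ) =
      ∑ φ : IrrCharacter G, (if ZC (cz ζ) φ.1 then ((a φ x : ℂ) - (a φ y : ℂ)) ^ 2 else 0) := by
    intro x y
    rw [Int.cast_sum]
    refine Finset.sum_congr rfl fun φ _ => ?_
    split_ifs <;> simp
  have hle : ∀ x y : ZMod p, ((b x : ℤ) - (b y : ℤ)) ^ 2 ≤ ∑ φ : IrrCharacter G,
      (if ZC (cz ζ) φ.1 then ((a φ x : ℤ) - (a φ y : ℤ)) ^ 2 else 0) := by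
    intro x y
    have h1 : ((b x : ℤ) - (b y : ℤ)) ^ 2 =
        (if ZC (cz ζ) ζ'.1 then ((a ζ' x : ℤ) - (a ζ' y : ℤ)) ^ 2 else 0) := by
      rw [if_pos hZC, hb]
    rw [h1]
    exact Finset.single_le_sum (f := fun φ : IrrCharacter G =>
        if ZC (cz ζ) φ.1 then ((a φ x : ℤ) - (a φ y : ℤ)) ^ 2 else 0)
      (fun φ _ => by
        split_ifs
        · exact sq_nonneg _
        · exact le_refl _) (Finset.mem_univ ζ')
  -- symmetry of the multiplicities
  have hsym : ∀ x : ZMod p, b (-x) = b x := by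
    intro x
    by_cases hx : x = 0
    · rw [hx, neg_zero]
    · have h1 := hkey x (-x)
      have e1 : x - -x ≠ 0 := by rw [sub_neg_eq_add]; exact hdbl x hx
      have e2 : -x - x ≠ 0 := by
        intro h0
        apply hdbl x hx
        have h3 : x + x = -(-x - x) := by ring
        rw [h3, h0, neg_zero]
      have e3 : -x + -x ≠ 0 := hdbl (-x) (neg_ne_zero.mpr hx)
      rw [hS1 _ e1, hS1 _ e2, hS1 _ (hdbl x hx), hS0 _ (add_neg_cancel x), hS1 _ e3,
        ← hint x (-x)] at h1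
      have h2 : ((∑ φ : IrrCharacter G,
          (if ZC (cz ζ) φ.1 then ((a φ x : ℤ) - (a φ (-x) : ℤ)) ^ 2 else 0) : ℤ) : ℂ) = 0 := by
        have h3 : (2 * (p : ℂ) - 0 - 0 + 0 - 2 * (p : ℂ) + 0) = 0 := by ring
        rw [h3, mul_zero] at h1
        rcases mul_eq_zero.mp h1 with h4 | h4
        · exact h4
        · exact absurd h4 (pow_ne_zero 2 hpC)
      have h5 : (∑ φ : IrrCharacter G,
          (if ZC (cz ζ) φ.1 then ((a φ x : ℤ) - (a φ (-x) : ℤ)) ^ 2 else 0) : ℤ) = 0 := by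
        exact_mod_cast h2
      have h6 := hle x (-x)
      rw [h5] at h6
      have h7 : ((b x : ℤ) - (b (-x) : ℤ)) ^ 2 = 0 := le_antisymm h6 (sq_nonneg _)
      have h8 : (b x : ℤ) - (b (-x) : ℤ) = 0 := by
        rcases pow_eq_zero_iff (two_ne_zero) |>.mp h7 with h9
        exact h9
      omega
  have hgen : ∀ x y : ZMod p, x ≠ 0 → y ≠ 0 → x ≠ y → x ≠ -y →
      (b x : ℤ) - (b y : ℤ) ≤ 1 := by
    intro x y hx hy hxy hxy'
    have h1 := hkey x y
    have e1 : x - y ≠ 0 := sub_ne_zero.mpr hxy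
    have e2 : y - x ≠ 0 := sub_ne_zero.mpr (Ne.symm hxy)
    have e3 : x + y ≠ 0 := fun h0 => hxy' (eq_neg_of_add_eq_zero_left h0)
    rw [hS1 _ e1, hS1 _ e2, hS1 _ (hdbl x hx), hS1 _ e3, hS1 _ (hdbl y hy), ← hint x y] at h1
    have h2 : ((∑ φ : IrrCharacter G,
        (if ZC (cz ζ) φ.1 then ((a φ x : ℤ) - (a φ y : ℤ)) ^ 2 else 0) : ℤ) : ℂ) = 2 := by
      have h3 : (p : ℂ) * (2 * (p : ℂ) - 0 - 0 + 0 - 2 * 0 + 0) = 2 * (p : ℂ) ^ 2 := by ring
      rw [h3] at h1
      exact mul_right_cancel₀ (pow_ne_zero 2 hpC) h1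
    have h5 : (∑ φ : IrrCharacter G,
        (if ZC (cz ζ) φ.1 then ((a φ x : ℤ) - (a φ y : ℤ)) ^ 2 else 0) : ℤ) = 2 := by
      exact_mod_cast h2
    have h6 := hle x y
    rw [h5] at h6
    by_contra hcon
    push Not at hcon
    nlinarith [mul_self_nonneg ((b x : ℤ) - (b y : ℤ) - 2)]
  have hle1 : ∀ x y : ZMod p, x ≠ 0 → y ≠ 0 → b x ≤ b y + 1 := by
    intro x y hx hy
    by_cases hxy : x = y
    · rw [hxy]; omega
    · by_cases hxy' : x = -y
      · rw [hxy', hsym y]; omega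
      · have h1 := hgen x y hx hy hxy hxy'
        omega
  -- a vanishing multiplicity
  obtain ⟨u, hu0, hbu⟩ : ∃ u : ZMod p, u ≠ 0 ∧ b u = 0 := by
    by_contra hcon
    push Not at hcon
    have h1 : ∀ v : ZMod p, 1 ≤ b v := by
      intro v
      by_cases hv : v = 0
      · rw [hv, hb0]
      · exact Nat.one_le_iff_ne_zero.mpr (hcon v hv)
    have h2 : ∑ _v : ZMod p, 1 ≤ ∑ v : ZMod p, b v := Finset.sum_le_sum (fun v _ => h1 v)
    rw [Finset.sum_const, Finset.card_univ, ZMod.card, smul_eq_mul, mul_one] at h2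
    omega
  have hbnu : b (-u) = 0 := by rw [hsym u, hbu]
  have hune : u ≠ -u := fun h0 => hdbl u hu0 (add_eq_zero_iff_eq_neg.mpr h0)
  have hb1 : ∀ v : ZMod p, b v ≤ (if v = u ∨ v = -u then 0 else 1) := by
    intro v
    by_cases hv : v = u ∨ v = -u
    · rw [if_pos hv]
      rcases hv with hv1 | hv1
      · rw [hv1, hbu]
      · rw [hv1, hbnu]
    · rw [if_neg hv]
      by_cases hv0 : v = 0
      · rw [hv0, hb0]
      · have h1 := hle1 v u hv0 hu0
        omega
  have hsumc : ∑ v : ZMod p, (if v = u ∨ v = -u then 0 else 1) + 2 = p := by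
    have h1 : ∀ v : ZMod p, (if v = u ∨ v = -u then 0 else 1) +
        ((if v = u then 1 else 0) + (if v = -u then 1 else 0)) = 1 := by
      intro v
      by_cases hv1 : v = u
      · have hv2 : v ≠ -u := fun h0 => hune (hv1.symm.trans h0)
        rw [if_pos (Or.inl hv1), if_pos hv1, if_neg hv2]
      · by_cases hv2 : v = -u
        · rw [if_pos (Or.inr hv2), if_neg hv1, if_pos hv2]
        · rw [if_neg (not_or.mpr ⟨hv1, hv2⟩), if_neg hv1, if_neg hv2]
    have h2 : ∑ v : ZMod p, ((if v = u ∨ v = -u then 0 else 1) +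
        ((if v = u then 1 else 0) + (if v = -u then 1 else 0))) = ∑ _v : ZMod p, 1 :=
      Finset.sum_congr rfl (fun v _ => h1 v)
    rw [Finset.sum_add_distrib, Finset.sum_add_distrib, Finset.sum_ite_eq', Finset.sum_ite_eq',
      if_pos (Finset.mem_univ _), if_pos (Finset.mem_univ _), Finset.sum_const, Finset.card_univ,
      ZMod.card, smul_eq_mul, mul_one] at h2
    omega
  have hbc : ∀ v : ZMod p, b v = (if v = u ∨ v = -u then 0 else 1) := by
    have h1 : ∑ v : ZMod p, b v = ∑ v : ZMod p, (if v = u ∨ v = -u then 0 else 1) := by omega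
    intro v
    exact (Finset.sum_eq_sum_iff_of_le (fun v _ => hb1 v)).mp h1 v (Finset.mem_univ v)
  refine ⟨u, hu0, fun t ht => ?_⟩
  rw [hbζ t]
  have h1 : ∀ v : ZMod p, (b v : ℂ) * w ^ (v * t).val =
      w ^ (t * v).val - (if v = u then w ^ (u * t).val else 0) -
        (if v = -u then w ^ (-(u * t)).val else 0) := by
    intro v
    rw [hbc v, mul_comm t v]
    by_cases hv1 : v = u
    · have hv2 : v ≠ -u := fun h0 => hune (hv1.symm.trans h0)
      rw [if_pos (Or.inl hv1), if_pos hv1, if_neg hv2, hv1]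
      simp
    · by_cases hv2 : v = -u
      · rw [if_pos (Or.inr hv2), if_neg hv1, if_pos hv2, hv2, neg_mul]
        simp
      · rw [if_neg (not_or.mpr ⟨hv1, hv2⟩), if_neg hv1, if_neg hv2]
        simp
  rw [Finset.sum_congr rfl (fun v _ => h1 v), Finset.sum_sub_distrib, Finset.sum_sub_distrib,
    Finset.sum_ite_eq', Finset.sum_ite_eq', if_pos (Finset.mem_univ _),
    if_pos (Finset.mem_univ _), hS1 t ht]
  unfold ev
  ring

end Cfsg.Agent.Lib.Helper66.PT
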