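import Cfsg.Agent.Lib.Helper96.PiDefs
import Cfsg.Agent.Lib.Helper96.PiGlueB
import Cfsg.Agent.Lib.Helper96.PiOmega
import Cfsg.Agent.Lib.Helper9.HeUNIPPOW

/-!
Project PI (S5989, helper96), piece NECISO (helper66): for an invariant nondegenerate
subspace `W`, `finrank W % blk ≤ finrank ker (T - 1)`.
-/

set_option autoImplicit false
set_option linter.unusedSectionVars false
set_option linter.unusedVariables false

namespace Cfsg.Agent.Lib.Helper66.Pi

open Module Cfsg.Agent.Lib.Helper96.Sp Cfsg.Agent.Lib.Helper96.BG Cfsg.Agent.Lib.Helper96.Hy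
  Cfsg.Agent.Lib.Helper96.Pi Cfsg.Agent.Lib.Helper47

universe u

variable {F : Type u} [Field F] [Fintype F] {V : Type u} [AddCommGroup V] [Module F V]
  [FiniteDimensional F V] {B : LinearMap.BilinForm F V}

-- PIECE NECISO
theorem mod_le_ker_of_inv (hS : B.IsSymm) (h2 : (2 : F) ≠ 0) (hN : ND B ⊤) (r : ℕ)
    [Fact r.Prime] (hr2 : r ≠ 2) (hrq : ¬ r ∣ Fintype.card F) (hr0 : (r : F) ≠ 0)
    (T : Module.End F V) (hT : Isom B T) (hTr : T ^ r = 1)
    (W : Submodule F V) (hW : ND B W) (hWT : W.map T ≤ W) :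
    finrank F W % blk (Fintype.card F) r ≤ finrank F (LinearMap.ker (T - 1)) := by
  obtain ⟨-, hRnd, hRinv, hdim⟩ :=
    Cfsg.Agent.Lib.Helper98.O72.fix_setup hS h2 hN T hT r hrq hr0 hTr W hWT hW
  have hdvd : blk (Fintype.card F) r ∣ finrank F ↥(W ⊓ LinearMap.range (T - 1)) :=
    Cfsg.Agent.Lib.Helper96.Hy.blk_dvd' hS h2 hN T hT r hr2 hrq hr0 hTr
      (W ⊓ LinearMap.range (T - 1)) inf_le_right hRinv hRnd
  have hle : finrank F ↥(W ⊓ LinearMap.ker (T - 1)) ≤ finrank F (LinearMap.ker (T - 1)) :=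
    Submodule.finrank_mono inf_le_right
  obtain ⟨c, hc⟩ := hdvd
  rw [← hdim, hc, Nat.add_mul_mod_self_left]
  exact (Nat.mod_le _ _).trans hle

end Cfsg.Agent.Lib.Helper66.Pi
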