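import Mathlib
import Cfsg.Agent.Lib.Helper54.SL2Cent
import Cfsg.Agent.Lib.Helper95.QABORD
import Cfsg.Agent.Lib.Helper88.QABCENT

/-!
# Project QB (helper48, S2359): piece QB-SL2R (third copy)

In `SL₂(F)`, `F` finite of characteristic `3`, an element of prime order `r ∉ {2, 3}` dividing
`|F| + 1` has a commutative centralizer of order `|F| + 1`.
-/

set_option autoImplicit false

namespace Cfsg.Agent.Lib.Helper48.QB

/-- polynomials of degree one in a fixed matrix commute -/
private theorem sl2rc_comm {F : Type*} [Field F] (α β α' β' : F)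
    (G : Matrix (Fin 2) (Fin 2) F) :
    (α • (1 : Matrix (Fin 2) (Fin 2) F) + β • G) * (α' • (1 : Matrix (Fin 2) (Fin 2) F) + β' • G) =
      (α' • (1 : Matrix (Fin 2) (Fin 2) F) + β' • G) *
        (α • (1 : Matrix (Fin 2) (Fin 2) F) + β • G) := by
  have h : Commute (α • (1 : Matrix (Fin 2) (Fin 2) F) + β • G)
      (α' • (1 : Matrix (Fin 2) (Fin 2) F) + β' • G) := by
    apply Commute.add_left
    · exact (Commute.one_left _).smul_left α
    · apply Commute.add_right
      · exact ((Commute.one_right G).smul_right α').smul_left β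
      · exact ((Commute.refl G).smul_right β').smul_left β
  exact h.eq

-- QB-SL2R  (imports Helper54.SL2Cent `card_centralizer_singleton`, Helper95.QABORD
-- `trace_sq_ne_four`, Helper88.QABCENT `cent_form`)
theorem sl2_cent_prime {F : Type*} [Field F] [Fintype F] [CharP F 3] (r : ℕ) (hr : r.Prime)
    (hr2 : r ≠ 2) (hr3 : r ≠ 3) (hdvd : r ∣ Fintype.card F + 1)
    (g : Matrix.SpecialLinearGroup (Fin 2) F) (hg : orderOf g = r) :
    Nat.card (Subgroup.centralizer {g}) = Fintype.card F + 1 ∧
      ∀ a ∈ Subgroup.centralizer {g}, ∀ b ∈ Subgroup.centralizer {g}, a * b = b * a := by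
  have h3F : Fact (Nat.Prime 3) := ⟨Nat.prime_three⟩
  have hg1 : g ≠ 1 := by
    intro h
    rw [h, orderOf_one] at hg
    exact hr.one_lt.ne hg
  have hfin : IsOfFinOrder g := by
    rw [← orderOf_pos_iff, hg]
    exact hr.pos
  have hcop : Nat.Coprime (orderOf g) (2 * 3) := by
    rw [hg]
    apply Nat.Coprime.mul_right
    · exact (Nat.coprime_primes hr Nat.prime_two).mpr hr2
    · exact (Nat.coprime_primes hr Nat.prime_three).mpr hr3
  have ht : Matrix.trace (g : Matrix (Fin 2) (Fin 2) F) ^ 2 ≠ 4 :=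
    Cfsg.Agent.Lib.Helper48.QA.trace_sq_ne_four (p := 3) (by norm_num) g hg1 hfin hcop
  have h2 : (2 : F) ≠ 0 := by
    intro h
    have h' : ((2 : ℕ) : F) = 0 := by exact_mod_cast h
    rw [CharP.cast_eq_zero_iff F 3 2] at h'
    omega
  have hns : ¬ ∃ a : F, (g : Matrix (Fin 2) (Fin 2) F) = a • (1 : Matrix (Fin 2) (Fin 2) F) := by
    rintro ⟨c, hc⟩
    apply ht
    have hdet := g.det_coe
    rw [hc] at hdet ⊢
    simp only [Matrix.det_fin_two, Matrix.trace_fin_two, Matrix.smul_apply, Matrix.one_apply_eq,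
      smul_eq_mul, mul_one, ne_eq, zero_ne_one, not_false_eq_true, Matrix.one_apply_ne, mul_zero,
      sub_zero, one_ne_zero] at hdet ⊢
    linear_combination 4 * hdet
  constructor
  · -- the order
    have hgmem : g ∈ Subgroup.centralizer ({g} : Set (Matrix.SpecialLinearGroup (Fin 2) F)) := by
      rw [Subgroup.mem_centralizer_iff]
      intro h hh
      rw [Set.mem_singleton_iff] at hh
      rw [hh]
    have hrdvd : r ∣ Nat.card (Subgroup.centralizer
        ({g} : Set (Matrix.SpecialLinearGroup (Fin 2) F))) := by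
      have h := orderOf_dvd_natCard (⟨g, hgmem⟩ : Subgroup.centralizer
        ({g} : Set (Matrix.SpecialLinearGroup (Fin 2) F)))
      rw [Subgroup.orderOf_mk, hg] at h
      exact h
    rcases Cfsg.Agent.Lib.Helper54.card_centralizer_singleton h2 g ht with h | h
    · exfalso
      rw [h] at hrdvd
      have hq : 1 < Fintype.card F := Fintype.one_lt_card
      have h4 : r ∣ (Fintype.card F + 1) - (Fintype.card F - 1) := Nat.dvd_sub hdvd hrdvd
      have h5 : (Fintype.card F + 1) - (Fintype.card F - 1) = 2 := by omega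
      rw [h5] at h4
      exact hr2 ((Nat.prime_dvd_prime_iff_eq hr Nat.prime_two).mp h4)
    · exact h
  · -- commutativity
    intro a ha b hb
    rw [Subgroup.mem_centralizer_iff] at ha hb
    have ha' : a * g = g * a := (ha g (Set.mem_singleton g)).symm
    have hb' : b * g = g * b := (hb g (Set.mem_singleton g)).symm
    obtain ⟨α, β, hab⟩ := Cfsg.Agent.Lib.Helper48.QA.cent_form g a hns ha'
    obtain ⟨α', β', hab'⟩ := Cfsg.Agent.Lib.Helper48.QA.cent_form g b hns hb'
    apply Subtype.ext
    change (a : Matrix (Fin 2) (Fin 2) F) * (b : Matrix (Fin 2) (Fin 2) F) =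
      (b : Matrix (Fin 2) (Fin 2) F) * (a : Matrix (Fin 2) (Fin 2) F)
    rw [hab, hab']
    exact sl2rc_comm α β α' β' _

end Cfsg.Agent.Lib.Helper48.QB
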