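import Mathlib
import Cfsg.Agent.Lib.Helper72.S3Defs

/-!
# S4305 piece GENSTEP

A central `f,t`-invariant coprime subgroup `Z` of `H` which is not centralised by `f` forces `H` to
be commutative (given the pieces REG6C, BLOCK and LEMQ as hypotheses).
-/

set_option autoImplicit false

universe u

namespace Cfsg.Agent.Lib.Helper66.S3F

open Cfsg.Agent.Lib.Helper72.S3F

section Aux

variable {V : Type u} [CommGroup V]

theorem gs_mem_fix_closure {S : Set (MulAut V)} {v : V} (h : ∀ s ∈ S, s v = v) :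
    v ∈ fix (Subgroup.closure S) := by
  intro b hb
  induction hb using Subgroup.closure_induction with
  | mem x hx => exact h x hx
  | one => rfl
  | mul x y _ _ hx hy =>
    show x (y v) = v
    rw [hy, hx]
  | inv x _ hx =>
    have h1 : x⁻¹ (x v) = v := MulAut.inv_apply_self V x v
    rw [hx] at h1
    exact h1

theorem gs_cm_le {R : Subgroup (MulAut V)} {g : MulAut V} (hg : ∀ x ∈ R, g * x * g⁻¹ ∈ R) :
    cm R g ≤ R := by
  unfold cm
  rw [Subgroup.closure_le]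
  rintro x ⟨u, hu, rfl⟩
  exact R.mul_mem (R.inv_mem hu) (hg u hu)

theorem gs_gen_mem {R : Subgroup (MulAut V)} (g : MulAut V) {u : MulAut V} (hu : u ∈ R) :
    u⁻¹ * (g * u * g⁻¹) ∈ cm R g :=
  Subgroup.subset_closure ⟨u, hu, rfl⟩

/-- `fix (cm R a) ⊓ fix (cm R b) ≤ fix (cm R (a * b))` when `b` normalises `R`. -/
theorem gs_fix_cm_mul {R : Subgroup (MulAut V)} {a b : MulAut V}
    (hb : ∀ x ∈ R, b * x * b⁻¹ ∈ R) {v : V} (h1 : v ∈ fix (cm R a)) (h2 : v ∈ fix (cm R b)) :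
    v ∈ fix (cm R (a * b)) := by
  unfold cm
  apply gs_mem_fix_closure
  rintro x ⟨u, hu, rfl⟩
  have e : u⁻¹ * (a * b * u * (a * b)⁻¹) =
      (u⁻¹ * (b * u * b⁻¹)) * ((b * u * b⁻¹)⁻¹ * (a * (b * u * b⁻¹) * a⁻¹)) := by group
  rw [e]
  show (u⁻¹ * (b * u * b⁻¹)) (((b * u * b⁻¹)⁻¹ * (a * (b * u * b⁻¹) * a⁻¹)) v) = v
  rw [h1 _ (gs_gen_mem a (hb u hu)), h2 _ (gs_gen_mem b hu)]

/-- `a (fix (cm R g)) ≤ fix (cm R (a g a⁻¹))` when `a⁻¹` normalises `R`. -/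
theorem gs_fix_cm_conj {R : Subgroup (MulAut V)} {g a : MulAut V}
    (ha : ∀ x ∈ R, a⁻¹ * x * a ∈ R) {v : V} (h : v ∈ fix (cm R g)) :
    a v ∈ fix (cm R (a * g * a⁻¹)) := by
  unfold cm
  apply gs_mem_fix_closure
  rintro x ⟨u, hu, rfl⟩
  have e : u⁻¹ * (a * g * a⁻¹ * u * (a * g * a⁻¹)⁻¹) =
      a * ((a⁻¹ * u * a)⁻¹ * (g * (a⁻¹ * u * a) * g⁻¹)) * a⁻¹ := by group
  rw [e]
  show a (((a⁻¹ * u * a)⁻¹ * (g * (a⁻¹ * u * a) * g⁻¹)) (a⁻¹ (a v))) = a v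
  rw [MulAut.inv_apply_self, h _ (gs_gen_mem g (ha u hu))]

theorem gs_fix_inv_of_comm {B : Subgroup (MulAut V)} {x : MulAut V}
    (h : ∀ b ∈ B, b * x = x * b) {w : V} (hw : w ∈ fix B) : x w ∈ fix B := by
  intro b hb
  show (b * x) w = x w
  rw [h b hb]
  show x (b w) = x w
  rw [hw b hb]

theorem gs_fix_inv_of_norm {B : Subgroup (MulAut V)} {a : MulAut V}
    (h : ∀ b ∈ B, a⁻¹ * b * a ∈ B) {w : V} (hw : w ∈ fix B) : a w ∈ fix B := by
  intro b hb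
  have h1 : (a⁻¹ * b * a) w = w := hw _ (h b hb)
  have h2 : b (a w) = a ((a⁻¹ * b * a) w) := by
    show b (a w) = a (a⁻¹ (b (a w)))
    rw [MulAut.apply_inv_self]
  rw [h2, h1]

theorem gs_conj_closure {S : Set (MulAut V)} {K : Subgroup (MulAut V)} {a : MulAut V}
    (h : ∀ s ∈ S, a * s * a⁻¹ ∈ K) : ∀ b ∈ Subgroup.closure S, a * b * a⁻¹ ∈ K := by
  intro b hb
  induction hb using Subgroup.closure_induction with
  | mem x hx => exact h x hx
  | one =>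
    have e : a * 1 * a⁻¹ = 1 := by group
    rw [e]
    exact K.one_mem
  | mul x y _ _ hx hy =>
    have e : a * (x * y) * a⁻¹ = (a * x * a⁻¹) * (a * y * a⁻¹) := by group
    rw [e]
    exact K.mul_mem hx hy
  | inv x _ hx =>
    have e : a * x⁻¹ * a⁻¹ = (a * x * a⁻¹)⁻¹ := by group
    rw [e]
    exact K.inv_mem hx

/-- `a` normalises `cm R g` when `a` normalises `R` and centralises `g`. -/
theorem gs_cm_norm {R : Subgroup (MulAut V)} {g a : MulAut V} (haR : ∀ x ∈ R, a * x * a⁻¹ ∈ R)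
    (hag : a * g * a⁻¹ = g) : ∀ b ∈ cm R g, a * b * a⁻¹ ∈ cm R g := by
  unfold cm
  apply gs_conj_closure
  rintro x ⟨u, hu, rfl⟩
  have e : a * (u⁻¹ * (g * u * g⁻¹)) * a⁻¹ =
      (a * u * a⁻¹)⁻¹ * ((a * g * a⁻¹) * (a * u * a⁻¹) * (a * g * a⁻¹)⁻¹) := by group
  rw [e, hag]
  exact gs_gen_mem g (haR u hu)

/-- `a` normalises `cm R g` when `a` normalises `R` and inverts `g` (and `g⁻¹` normalises `R`). -/
theorem gs_cm_norm' {R : Subgroup (MulAut V)} {g a : MulAut V} (haR : ∀ x ∈ R, a * x * a⁻¹ ∈ R)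
    (hgR : ∀ x ∈ R, g⁻¹ * x * g ∈ R) (hag : a * g * a⁻¹ = g⁻¹) :
    ∀ b ∈ cm R g, a * b * a⁻¹ ∈ cm R g := by
  unfold cm
  apply gs_conj_closure
  rintro x ⟨u, hu, rfl⟩
  have e : a * (u⁻¹ * (g * u * g⁻¹)) * a⁻¹ =
      (a * u * a⁻¹)⁻¹ * ((a * g * a⁻¹) * (a * u * a⁻¹) * (a * g * a⁻¹)⁻¹) := by group
  have e2 : (a * u * a⁻¹)⁻¹ * (g⁻¹ * (a * u * a⁻¹) * g⁻¹⁻¹) =
      ((g⁻¹ * (a * u * a⁻¹) * g)⁻¹ * (g * (g⁻¹ * (a * u * a⁻¹) * g) * g⁻¹))⁻¹ := by group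
  rw [e, hag, e2]
  exact (Subgroup.closure _).inv_mem (gs_gen_mem g (hgR _ (haR u hu)))

theorem gs_conj_conj (a c x : MulAut V) :
    (a * c * a⁻¹) * x * (a * c * a⁻¹)⁻¹ = a * (c * (a⁻¹ * x * a) * c⁻¹) * a⁻¹ := by
  group

theorem gs_prod_mem_fix (B : Subgroup (MulAut V)) [Fintype B] (v : V) :
    (∏ b : B, (b : MulAut V) v) ∈ fix B := by
  intro c hc
  rw [map_prod]
  exact Fintype.prod_equiv (Equiv.mulLeft (⟨c, hc⟩ : B)) _ _ (fun b => rfl)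

theorem gs_prod_of_mem_fix (B : Subgroup (MulAut V)) [Fintype B] {v : V} (hv : v ∈ fix B) :
    (∏ b : B, (b : MulAut V) v) = v ^ Nat.card B := by
  rw [Finset.prod_congr rfl (fun b _ => hv b.1 b.2), Finset.prod_const, Finset.card_univ,
    Nat.card_eq_fintype_card]

theorem gs_prod_mem_fix_of_comm (B C : Subgroup (MulAut V)) [Fintype B]
    (hc : ∀ b ∈ B, ∀ c ∈ C, c * b = b * c) {v : V} (hv : v ∈ fix C) :
    (∏ b : B, (b : MulAut V) v) ∈ fix C := by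
  intro c hcC
  rw [map_prod]
  refine Finset.prod_congr rfl (fun b _ => ?_)
  show (c * b.1) v = b.1 v
  rw [hc b.1 b.2 c hcC]
  show b.1 (c v) = b.1 v
  rw [hv c hcC]

end Aux

theorem genStep (h6 : Reg6cStmt.{u}) (hb : BlockStmt.{u}) (hq : LemQStmt.{u}) :
    GenStepStmt.{u} := by
  intro V _ _ H Z f t hA hfpf hIrr hZH hcen hfZ htZ hcop hex
  obtain ⟨z₀, hz₀, hz₀f⟩ := hex
  classical
  have hS3 := hA.s3
  have hf3 := hS3.f3
  have ht2 := hS3.t2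
  have htf := hS3.tf
  have htinv : t⁻¹ = t := by
    rw [inv_eq_iff_mul_eq_one, ← pow_two]
    exact ht2
  have e1 : f * f = f⁻¹ := by
    symm
    rw [inv_eq_iff_mul_eq_one, ← pow_two, ← pow_succ']
    exact hf3
  have e2 : f⁻¹ * f⁻¹ = f := by
    rw [← _root_.mul_inv_rev, e1, inv_inv]
  have hZc : Comm Z := fun x hx y hy => hcen x hx y (hZH hy)
  have hfZ' : ∀ z ∈ Z, f⁻¹ * z * f ∈ Z := by
    intro z hz
    have h1 := hfZ _ (hfZ z hz)
    have e : f * (f * z * f⁻¹) * f⁻¹ = (f * f) * z * (f⁻¹ * f⁻¹) := by group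
    rw [e, e1, e2] at h1
    exact h1
  have hkey : ∀ b : MulAut V, t⁻¹ * b * t = t * b * t⁻¹ := by
    intro b
    rw [htinv]
  have htft : t * f * t = f⁻¹ := by
    have h := htf
    rw [htinv] at h
    exact h
  -- the two product identities
  have I1 : t * (f * t * f⁻¹) = f := by
    have e : t * (f * t * f⁻¹) = (t * f * t) * f⁻¹ := by group
    rw [e, htft, e2]
  have I2 : (f * (f * t * f⁻¹) * f⁻¹) * t = f := by
    have e : (f * (f * t * f⁻¹) * f⁻¹) * t = (f * f) * t * (f⁻¹ * f⁻¹) * t := by group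
    rw [e, e1, e2]
    have e' : f⁻¹ * t * f * t = f⁻¹ * (t * f * t) := by group
    rw [e', htft, e2]
  have hcmf_le : cm Z f ≤ Z := gs_cm_le hfZ
  have hcmt_le : cm Z t ≤ Z := gs_cm_le htZ
  -- Step 1: `fix (cm Z f) = ⊥`
  have h1 : fix (cm Z f) = ⊥ := by
    have hinvH : ∀ x ∈ H, ∀ w ∈ fix (cm Z f), x w ∈ fix (cm Z f) := fun x hx w hw =>
      gs_fix_inv_of_comm (fun b hb => hcen b (hcmf_le hb) x hx) hw
    have hinvf : ∀ w ∈ fix (cm Z f), f w ∈ fix (cm Z f) := fun w hw =>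
      gs_fix_inv_of_norm (a := f) (fun b hb => by
        have h := gs_cm_norm (a := f⁻¹) (g := f) (R := Z)
          (by intro x hx; rw [inv_inv]; exact hfZ' x hx) (by group) b hb
        rwa [inv_inv] at h) hw
    have hinvt : ∀ w ∈ fix (cm Z f), t w ∈ fix (cm Z f) := fun w hw =>
      gs_fix_inv_of_norm (a := t) (fun b hb => by
        rw [hkey]
        exact gs_cm_norm' htZ hfZ' htf b hb) hw
    rcases hIrr _ hinvH hinvf hinvt with h | h
    · exact h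
    · exfalso
      apply hz₀f
      have hg : z₀⁻¹ * (f * z₀ * f⁻¹) ∈ cm Z f := gs_gen_mem f hz₀
      have h1 : z₀⁻¹ * (f * z₀ * f⁻¹) = 1 := by
        apply MulEquiv.ext
        intro v
        have hv : v ∈ fix (cm Z f) := by
          rw [h]
          exact Subgroup.mem_top v
        exact hv _ hg
      exact (inv_mul_eq_one.mp h1).symm
  -- Step 2: `B₀ = fix (cm Z t)` is `H`- and `t`-invariant
  have hB_H : ∀ x ∈ H, ∀ w ∈ fix (cm Z t), x w ∈ fix (cm Z t) := fun x hx w hw =>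
    gs_fix_inv_of_comm (fun b hb => hcen b (hcmt_le hb) x hx) hw
  have hB_t : ∀ w ∈ fix (cm Z t), t w ∈ fix (cm Z t) := fun w hw =>
    gs_fix_inv_of_norm (a := t) (fun b hb => by
      rw [hkey]
      exact gs_cm_norm htZ (by group) b hb) hw
  -- Step 3: spanning
  have hspan : ∀ v : V, ∃ w₀ ∈ fix (cm Z t), ∃ w₁ ∈ fix (cm Z t), ∃ w₂ ∈ fix (cm Z t),
      v = w₀ * f w₁ * f (f w₂) := by
    intro v
    obtain ⟨a, ha, w₀, hw₀, w₁, hw₁, w₂, hw₂, hv⟩ := h6 V f t Z hS3 hfpf hZc hfZ htZ hcop v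
    rw [h1, Subgroup.mem_bot] at ha
    refine ⟨w₀, hw₀, w₁, hw₁, w₂, hw₂, ?_⟩
    rw [hv, ha, one_mul]
  -- Step 4: disjointness
  have hn1 : ∀ x ∈ Z, (f * t * f⁻¹) * x * (f * t * f⁻¹)⁻¹ ∈ Z := by
    intro x hx
    have h := hfZ _ (htZ _ (hfZ' x hx))
    have e : (f * t * f⁻¹) * x * (f * t * f⁻¹)⁻¹ = f * (t * (f⁻¹ * x * f) * t⁻¹) * f⁻¹ := by group
    rw [e]
    exact h
  have hn2 : ∀ x ∈ Z, (f * (f * t * f⁻¹) * f⁻¹) * x * (f * (f * t * f⁻¹) * f⁻¹)⁻¹ ∈ Z := by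
    intro x hx
    have h := hfZ _ (hn1 _ (hfZ' x hx))
    rw [gs_conj_conj]
    exact h
  have hT1_le : cm Z (f * t * f⁻¹) ≤ Z := gs_cm_le hn1
  have hT2_le : cm Z (f * (f * t * f⁻¹) * f⁻¹) ≤ Z := gs_cm_le hn2
  have hdisj : ∀ w ∈ fix (cm Z t), ∀ w₁ ∈ fix (cm Z t), ∀ w₂ ∈ fix (cm Z t),
      w = f w₁ * f (f w₂) → w = 1 := by
    intro w hw w₁ hw₁ w₂ hw₂ hww
    have : Fintype (cm Z t) := Fintype.ofFinite _
    have hσmul : ∀ x y : V, (∏ b : cm Z t, (b : MulAut V) (x * y)) =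
        (∏ b : cm Z t, (b : MulAut V) x) * ∏ b : cm Z t, (b : MulAut V) y := by
      intro x y
      simp only [map_mul, Finset.prod_mul_distrib]
    have hf1 : f w₁ ∈ fix (cm Z (f * t * f⁻¹)) := gs_fix_cm_conj hfZ' hw₁
    have hf2 : f (f w₂) ∈ fix (cm Z (f * (f * t * f⁻¹) * f⁻¹)) :=
      gs_fix_cm_conj hfZ' (gs_fix_cm_conj hfZ' hw₂)
    have hσ1 : (∏ b : cm Z t, (b : MulAut V) (f w₁)) = 1 := by
      have ha : (∏ b : cm Z t, (b : MulAut V) (f w₁)) ∈ fix (cm Z t) := gs_prod_mem_fix _ _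
      have hb' : (∏ b : cm Z t, (b : MulAut V) (f w₁)) ∈ fix (cm Z (f * t * f⁻¹)) :=
        gs_prod_mem_fix_of_comm _ _ (fun b hb c hc => hZc c (hT1_le hc) b (hcmt_le hb)) hf1
      have hc : (∏ b : cm Z t, (b : MulAut V) (f w₁)) ∈ fix (cm Z (t * (f * t * f⁻¹))) :=
        gs_fix_cm_mul hn1 ha hb'
      rw [I1, h1, Subgroup.mem_bot] at hc
      exact hc
    have hσ2 : (∏ b : cm Z t, (b : MulAut V) (f (f w₂))) = 1 := by
      have ha : (∏ b : cm Z t, (b : MulAut V) (f (f w₂))) ∈ fix (cm Z t) := gs_prod_mem_fix _ _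
      have hb' : (∏ b : cm Z t, (b : MulAut V) (f (f w₂))) ∈
          fix (cm Z (f * (f * t * f⁻¹) * f⁻¹)) :=
        gs_prod_mem_fix_of_comm _ _ (fun b hb c hc => hZc c (hT2_le hc) b (hcmt_le hb)) hf2
      have hc : (∏ b : cm Z t, (b : MulAut V) (f (f w₂))) ∈
          fix (cm Z ((f * (f * t * f⁻¹) * f⁻¹) * t)) :=
        gs_fix_cm_mul htZ hb' ha
      rw [I2, h1, Subgroup.mem_bot] at hc
      exact hc
    have hσw : (∏ b : cm Z t, (b : MulAut V) w) = w ^ Nat.card (cm Z t) :=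
      gs_prod_of_mem_fix _ hw
    have hpow : w ^ Nat.card (cm Z t) = 1 := by
      rw [← hσw, hww, hσmul, hσ1, hσ2, one_mul]
    have hd : Nat.card (cm Z t) ∣ Nat.card Z := Subgroup.card_dvd_of_le hcmt_le
    have hcop' : (Nat.card (cm Z t)).Coprime (Nat.card V) := Nat.Coprime.coprime_dvd_left hd hcop
    have h2 : orderOf w ∣ Nat.card (cm Z t) := orderOf_dvd_of_pow_eq_one hpow
    have h3 : orderOf w ∣ Nat.card V := orderOf_dvd_natCard w
    have h4 : orderOf w = 1 := Nat.eq_one_of_dvd_coprimes hcop' h2 h3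
    exact orderOf_eq_one_iff.mp h4
  -- Steps 5, 6
  have hQ : Q3 H f t = ⊥ := hb V H f t (fix (cm Z t)) hA hfpf hB_H hB_t hdisj hspan
  exact hq V H f t hA hQ

end Cfsg.Agent.Lib.Helper66.S3F
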