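import Mathlib
import Cfsg.Agent.Lib.Helper91.SpU

/-!
# Piece TN for S5171 (helper91): diagonal Levi elements normalize `U`
-/

set_option autoImplicit false

namespace Cfsg.Agent.Lib.Helper66.SpTN

open Matrix Cfsg.Agent.Lib.Helper91.SpU

theorem mul_diag_apply (m : ℕ) (K : Type*) [Field K] (A : Matrix (Fin m) (Fin m) K)
    (hA : ∀ i j : Fin m, i ≠ j → A i j = 0) (X : Matrix (Fin m) (Fin m) K) (i j : Fin m) :
    (X * A) i j = X i j * A j j := by
  rw [Matrix.mul_apply]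
  apply Finset.sum_eq_single j
  · intro k _ hk
    rw [hA k j hk, mul_zero]
  · intro h
    exact absurd (Finset.mem_univ j) h

theorem diag_mul_apply (m : ℕ) (K : Type*) [Field K] (A : Matrix (Fin m) (Fin m) K)
    (hA : ∀ i j : Fin m, i ≠ j → A i j = 0) (X : Matrix (Fin m) (Fin m) K) (i j : Fin m) :
    (A * X) i j = A i i * X i j := by
  rw [Matrix.mul_apply]
  apply Finset.sum_eq_single i
  · intro k _ hk
    rw [hA i k (Ne.symm hk), zero_mul]
  · intro h
    exact absurd (Finset.mem_univ i) h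

theorem inv_mul_val (m : ℕ) (K : Type*) [Field K] (A : GL (Fin m) K) :
    (A⁻¹).1 * A.1 = 1 := by
  rw [← Units.val_mul, inv_mul_cancel, Units.val_one]

theorem diag_ne_zero (m : ℕ) (K : Type*) [Field K] (A : GL (Fin m) K)
    (hA : ∀ i j : Fin m, i ≠ j → A.1 i j = 0) (j : Fin m) : A.1 j j ≠ 0 := by
  have h1 := congrFun (congrFun (inv_mul_val m K A) j) j
  rw [mul_diag_apply m K A.1 hA, Matrix.one_apply_eq] at h1
  exact right_ne_zero_of_mul_eq_one h1

theorem inv_diag (m : ℕ) (K : Type*) [Field K] (A : GL (Fin m) K)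
    (hA : ∀ i j : Fin m, i ≠ j → A.1 i j = 0) :
    ∀ i j : Fin m, i ≠ j → (A⁻¹).1 i j = 0 := by
  intro i j hij
  have h1 := congrFun (congrFun (inv_mul_val m K A) i) j
  rw [mul_diag_apply m K A.1 hA, Matrix.one_apply_ne hij] at h1
  rcases mul_eq_zero.mp h1 with h | h
  · exact h
  · exact absurd h (diag_ne_zero m K A hA j)

theorem isUT_conj_diag (m : ℕ) (K : Type*) [Field K] (A : GL (Fin m) K)
    (hA : ∀ i j : Fin m, i ≠ j → A.1 i j = 0) (a : Matrix (Fin m) (Fin m) K)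
    (ha : IsUT m K a) : IsUT m K (A.1 * a * (A⁻¹).1) := by
  have hX : ∀ i j, (A.1 * a * (A⁻¹).1) i j * A.1 j j = A.1 i i * a i j := by
    intro i j
    rw [← mul_diag_apply m K A.1 hA, Matrix.mul_assoc (A.1 * a), inv_mul_val, Matrix.mul_one,
      diag_mul_apply m K A.1 hA]
  refine ⟨?_, ?_⟩
  · intro i j hji
    have h1 := hX i j
    rw [ha.1 i j hji, mul_zero] at h1
    rcases mul_eq_zero.mp h1 with h | h
    · exact h
    · exact absurd h (diag_ne_zero m K A hA j)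
  · intro i
    have h1 := hX i i
    rw [ha.2 i, mul_one] at h1
    have h2 : (A.1 * a * (A⁻¹).1) i i * A.1 i i = 1 * A.1 i i := by rw [h1, one_mul]
    exact mul_right_cancel₀ (diag_ne_zero m K A hA i) h2

theorem conj_inU (m : ℕ) (K : Type*) [Field K] (A : GL (Fin m) K)
    (hA : ∀ i j : Fin m, i ≠ j → A.1 i j = 0)
    (u : Matrix.symplecticGroup (Fin m) K) (hu : InU m K u) :
    InU m K (sphi m K A * u * (sphi m K A)⁻¹) := by
  obtain ⟨hu21, hut⟩ := hu
  obtain ⟨a, b, d, hu1⟩ : ∃ a b d, u.1 = fromBlocks a b 0 d :=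
    ⟨_, _, _, by rw [← hu21]; exact (Matrix.fromBlocks_toBlocks u.1).symm⟩
  rw [hu1, Matrix.toBlocks_fromBlocks₁₁] at hut
  have hcoe : (sphi m K A * u * (sphi m K A)⁻¹).1 =
      fromBlocks (A.1 * a * (A⁻¹).1) (A.1 * b * ((A⁻¹)⁻¹).1ᵀ) 0
        ((A⁻¹).1ᵀ * d * ((A⁻¹)⁻¹).1ᵀ) := by
    rw [← map_inv]
    change (sphi m K A).1 * u.1 * (sphi m K A⁻¹).1 = _
    rw [sphi_coe, sphi_coe, hu1, Matrix.fromBlocks_multiply, Matrix.fromBlocks_multiply]
    simp only [Matrix.mul_zero, Matrix.zero_mul, add_zero, zero_add]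
  refine ⟨?_, ?_⟩
  · rw [hcoe, Matrix.toBlocks_fromBlocks₂₁]
  · rw [hcoe, Matrix.toBlocks_fromBlocks₁₁]
    exact isUT_conj_diag m K A hA a hut

theorem torus_normalizes (m : ℕ) (K : Type*) [Field K]
    (U : Subgroup (Matrix.symplecticGroup (Fin m) K)) (hU : ∀ g, g ∈ U ↔ InU m K g)
    (A : GL (Fin m) K) (hA : ∀ i j : Fin m, i ≠ j → A.1 i j = 0) :
    sphi m K A ∈ Subgroup.normalizer (U : Set (Matrix.symplecticGroup (Fin m) K)) := by
  rw [Subgroup.mem_normalizer_iff]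
  intro h
  constructor
  · intro hh
    have hh' : h ∈ U := hh
    show sphi m K A * h * (sphi m K A)⁻¹ ∈ U
    rw [hU] at hh' ⊢
    exact conj_inU m K A hA h hh'
  · intro hh
    have hh' : sphi m K A * h * (sphi m K A)⁻¹ ∈ U := hh
    show h ∈ U
    rw [hU] at hh' ⊢
    have h1 := conj_inU m K A⁻¹ (inv_diag m K A hA) _ hh'
    rw [map_inv, inv_inv] at h1
    have e : (sphi m K A)⁻¹ * (sphi m K A * h * (sphi m K A)⁻¹) * (sphi m K A) = h := by group
    rw [e] at h1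
    exact h1

end Cfsg.Agent.Lib.Helper66.SpTN
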