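import Cfsg.Agent.Lib.Helper98.T73Defs

/-!
# Project T73 (S5973, helper98), piece ARITHFWD (helper66)

Pure arithmetic: for `i` even, the model `Model ε i t d m` implies the condition `Cond ε i t d m`.
With `N = 2d / i`, `k = 2d % i`, the model is tested at `A = N`, `N - 1` (and `N - 2` when
`k = 0` and the parity of `N` is wrong).
-/

set_option autoImplicit false
set_option linter.unusedVariables false

namespace Cfsg.Agent.Lib.Helper98.T73

open Cfsg.Agent.Lib.Helper47 Module Polynomial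

private theorem arithfwd_sgn (ε : ℤ) (hε : ε = 1 ∨ ε = -1) (i A : ℕ) (heven : Even i) :
    (ε * sgn i A = 1 ↔ par ε A) ∧ (sgn i A = ε ↔ par ε A) := by
  unfold sgn par
  rw [if_pos heven]
  rcases Nat.even_or_odd A with hA | hA
  · have hno : ¬ Odd A := Nat.not_odd_iff_even.mpr hA
    rw [hA.neg_one_pow]
    rcases hε with rfl | rfl
    · simp [hA]
    · simp [hno]
  · have hne : ¬ Even A := Nat.not_even_iff_odd.mpr hA
    rw [hA.neg_one_pow]
    rcases hε with rfl | rfl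
    · simp [hne]
    · simp [hA]

private theorem arithfwd_test (ε : ℤ) (hε : ε = 1 ∨ ε = -1) (i t d m : ℕ) (heven : Even i)
    (hM : Model ε i t d m) (A : ℕ) (h1 : 1 ≤ A) (h2 : i * A ≤ 2 * d)
    (h3 : 2 * d = i * A → par ε A) :
    ∃ j w, (j = 0 ∨ t + 2 * j ≤ A + 1) ∧ m = i * j + w ∧ (2 * d = i * A → w = 0) ∧
      (2 * d ≠ i * A → par ε A → w ≤ (2 * d - i * A) / 2) ∧
      (2 * d ≠ i * A → ¬ par ε A → w ≤ (2 * d - i * A) / 2 - 1) := by
  obtain ⟨hs1, hs2⟩ := arithfwd_sgn ε hε i A heven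
  have hv : Valid ε i d A := by
    unfold Valid
    exact ⟨h1, h2, fun hodd => absurd heven (Nat.not_even_iff_odd.mpr hodd),
      fun h => hs2.mpr (h3 h)⟩
  obtain ⟨j, w, hJ, hw, hmw⟩ := hM A hv
  unfold JC at hJ
  rw [if_pos heven] at hJ
  unfold om at hw
  refine ⟨j, w, hJ, hmw, ?_, ?_, ?_⟩
  · intro h
    rw [if_pos h] at hw
    omega
  · intro h hp
    rw [if_neg h, if_pos (hs1.mpr hp)] at hw
    exact hw
  · intro h hp
    rw [if_neg h, if_neg (fun h' => hp (hs1.mp h'))] at hw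
    exact hw

/-- ARITHFWD -/
theorem arith_even_fwd (ε : ℤ) (hε : ε = 1 ∨ ε = -1) (i t d m : ℕ) (hi : 1 ≤ i)
    (heven : Even i) (ht : 1 ≤ t) (hd : 2 ≤ d) (hm : 1 ≤ m) (hmd : m + 1 ≤ d)
    (him : i ≤ m) (hM : Model ε i t d m) : Cond ε i t d m := by
  have hT := arithfwd_test ε hε i t d m heven hM
  obtain ⟨c, hc⟩ := id heven
  obtain ⟨N, hN⟩ : ∃ N, N = 2 * d / i := ⟨_, rfl⟩
  obtain ⟨k, hk⟩ : ∃ k, k = 2 * d % i := ⟨_, rfl⟩
  obtain ⟨j₀, hj₀⟩ : ∃ j₀, j₀ = m / i := ⟨_, rfl⟩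
  obtain ⟨ρ, hρ⟩ : ∃ ρ, ρ = m % i := ⟨_, rfl⟩
  have hdk : 2 * d = i * N + k := by rw [hN, hk]; exact (Nat.div_add_mod (2 * d) i).symm
  have hki : k < i := by rw [hk]; exact Nat.mod_lt _ (by omega)
  have hmj : m = i * j₀ + ρ := by rw [hj₀, hρ]; exact (Nat.div_add_mod m i).symm
  have hρi : ρ < i := by rw [hρ]; exact Nat.mod_lt _ (by omega)
  have hj1 : 1 ≤ j₀ := by rw [hj₀]; exact Nat.div_pos him (by omega)
  have hkev : Even k := by
    have h1 : Even (i * N + k) := by rw [← hdk]; exact even_two_mul d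
    exact (Nat.even_add.mp h1).mp (heven.mul_right N)
  obtain ⟨k', hk'⟩ := hkev
  have huniq : ∀ j w, m = i * j + w → w < i → j = j₀ ∧ w = ρ := by
    intro j w h1 h2
    constructor
    · rw [hj₀, h1, Nat.mul_add_div (by omega), Nat.div_eq_of_lt h2, add_zero]
    · rw [hρ, h1, Nat.mul_add_mod, Nat.mod_eq_of_lt h2]
  have hN2 : 2 ≤ N := by
    by_contra hcon
    have h1 : N ≤ 1 := by omega
    have h2 : i * N ≤ i * 1 := Nat.mul_le_mul_left i h1
    omega
  obtain ⟨N₂, rfl⟩ : ∃ N₂, N = N₂ + 2 := ⟨N - 2, by omega⟩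
  have e2 : i * (N₂ + 2) = i * N₂ + 2 * i := by ring
  have e1 : i * (N₂ + 1) = i * N₂ + i := by ring
  have hp2 : par ε (N₂ + 2) ↔ par ε N₂ := by
    unfold par; split_ifs <;> simp only [Nat.even_iff, Nat.odd_iff] <;> omega
  have hp1 : par ε (N₂ + 1) ↔ ¬ par ε N₂ := by
    unfold par; split_ifs <;> simp only [Nat.even_iff, Nat.odd_iff] <;> omega
  unfold Cond
  rw [if_pos heven, ← hN, ← hk, ← hj₀, ← hρ]
  refine ⟨him, ?_⟩
  by_cases hP : par ε (N₂ + 2)
  · obtain ⟨j, w, hJ, hmw, hw0, hw1, hw2⟩ := hT (N₂ + 2) (by omega) (by omega) (fun _ => hP)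
    obtain ⟨j', w', hJ', hmw', hw0', hw1', hw2'⟩ :=
      hT (N₂ + 1) (by omega) (by omega) (fun h => absurd h (by omega))
    have hwk : w ≤ k' := by
      by_cases hk0 : 2 * d = i * (N₂ + 2)
      · have h5 := hw0 hk0; omega
      · have h5 := hw1 hk0 hP; omega
    obtain ⟨hj, hwρ⟩ := huniq j w hmw (by omega)
    have hw'' : w' ≤ k' + c - 1 := by
      have h5 := hw2' (by omega) (fun h => (hp1.mp h) (hp2.mp hP)); omega
    obtain ⟨hj', hwρ'⟩ := huniq j' w' hmw' (by omega)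
    exact ⟨by omega, Or.inr (Or.inl ⟨by omega, hP⟩)⟩
  · by_cases hk0 : k = 0
    · have hN1 : 1 ≤ N₂ := by
        by_contra hcon
        have h0 : N₂ = 0 := by omega
        have h5 : i * N₂ = 0 := by rw [h0, Nat.mul_zero]
        omega
      obtain ⟨j', w', hJ', hmw', hw0', hw1', hw2'⟩ :=
        hT (N₂ + 1) (by omega) (by omega) (fun h => absurd h (by omega))
      obtain ⟨j'', w'', hJ'', hmw'', hw0'', hw1'', hw2''⟩ :=
        hT N₂ hN1 (by omega) (fun h => absurd h (by omega))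
      have h1 : w' ≤ c := by
        have h5 := hw1' (by omega) (hp1.mpr (fun h => hP (hp2.mpr h))); omega
      obtain ⟨hj', hwρ'⟩ := huniq j' w' hmw' (by omega)
      have h2 : w'' ≤ i - 1 := by
        have h5 := hw2'' (by omega) (fun h => hP (hp2.mpr h)); omega
      obtain ⟨hj'', hwρ''⟩ := huniq j'' w'' hmw'' (by omega)
      exact ⟨by omega, Or.inl ⟨by omega, hk0, hP, by omega⟩⟩
    · obtain ⟨j, w, hJ, hmw, hw0, hw1, hw2⟩ :=
        hT (N₂ + 2) (by omega) (by omega) (fun h => absurd h (by omega))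
      obtain ⟨j', w', hJ', hmw', hw0', hw1', hw2'⟩ :=
        hT (N₂ + 1) (by omega) (by omega) (fun h => absurd h (by omega))
      have h1 : w + 1 ≤ k' := by
        have h5 := hw2 (by omega) hP; omega
      obtain ⟨hj, hwρ⟩ := huniq j w hmw (by omega)
      have h2 : w' ≤ k' + c := by
        have h5 := hw1' (by omega) (hp1.mpr (fun h => hP (hp2.mpr h))); omega
      obtain ⟨hj', hwρ'⟩ := huniq j' w' hmw' (by omega)
      exact ⟨by omega, Or.inr (Or.inr ⟨by omega, hP⟩)⟩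

end Cfsg.Agent.Lib.Helper98.T73
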