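import Mathlib
import Cfsg.Prelude.Def_GeometricClasses
import Cfsg.Agent.Lib.Helper97.Transv
import Cfsg.Agent.Lib.Helper97.TransvM
import Cfsg.Agent.Lib.Helper71.TP0
import Cfsg.Agent.Lib.Helper71.TP1
import Cfsg.Agent.Lib.Helper87.TPFLAGW
import Cfsg.Agent.Lib.Helper87.TPFLAGU
import Cfsg.Agent.Lib.Helper29.TPRMS

/-!
# S5637 piece P2C: `RM_all`

Transport of a rank one element `RM M (vecMulVec u₀ φ₀) w₀ ψ₀` to all `(u, φ, w, ψ)` with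
`φ ⬝ᵥ u = 0`, `ψ ⬝ᵥ w = 0`, by conjugation with elements of `NN`.
-/

set_option autoImplicit false

namespace Cfsg.Agent.Lib.Helper66.TPP2C

open Matrix Cfsg.Agent.Lib.Helper71.TP Cfsg.Agent.Lib.Helper97
open Cfsg.Agent.Lib.Helper87.TPFLAGW Cfsg.Agent.Lib.Helper87.TPFLAGU Cfsg.Agent.Lib.Helper29.TPRMS
open scoped Kronecker

variable {a b : ℕ} {F : Type*} [Field F]

/-- `B⁻¹ (B x) = x` -/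
theorem inv_mulVec' {n : ℕ} (B : GL (Fin n) F) (x : Fin n → F) :
    (B⁻¹ : GL (Fin n) F).1 *ᵥ (B.1 *ᵥ x) = x := by
  rw [Matrix.mulVec_mulVec, ← Units.val_mul, inv_mul_cancel, Units.val_one, Matrix.one_mulVec]

/-- `(x B) B⁻¹ = x` -/
theorem vecMul_inv' {n : ℕ} (B : GL (Fin n) F) (x : Fin n → F) :
    (x ᵥ* B.1) ᵥ* (B⁻¹ : GL (Fin n) F).1 = x := by
  rw [Matrix.vecMul_vecMul, ← Units.val_mul, mul_inv_cancel, Units.val_one, Matrix.vecMul_one]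

theorem det_inv_eq_one {n : ℕ} (B : GL (Fin n) F) (h : B.1.det = 1) :
    (B⁻¹ : GL (Fin n) F).1.det = 1 := by
  have h1 : B.1.det * (B⁻¹ : GL (Fin n) F).1.det = 1 := by
    rw [← Matrix.det_mul, ← Units.val_mul, mul_inv_cancel, Units.val_one, Matrix.det_one]
  rw [h, one_mul] at h1
  exact h1

/-- transport on the `W`-side -/
theorem RM_transW (hb : 3 ≤ b) (M : Subgroup (GL (Fin a × Fin b) F)) (hNM : NN a b F ≤ M)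
    {α : Matrix (Fin a) (Fin a) F} {w₁ ψ₁ w₂ ψ₂ : Fin b → F} (hw₁ : w₁ ≠ 0) (hψ₁ : ψ₁ ≠ 0)
    (h₁ : ψ₁ ⬝ᵥ w₁ = 0) (hw₂ : w₂ ≠ 0) (hψ₂ : ψ₂ ≠ 0) (h₂ : ψ₂ ⬝ᵥ w₂ = 0)
    (hR : RM M α w₁ ψ₁) : RM M α w₂ ψ₂ := by
  obtain ⟨B₁, hd₁, hB₁w, hB₁ψ⟩ := exists_flagW hb w₁ ψ₁ hw₁ hψ₁ h₁
  obtain ⟨B₂, hd₂, hB₂w, hB₂ψ⟩ := exists_flagW hb w₂ ψ₂ hw₂ hψ₂ h₂
  have hdet : ((1 : GL (Fin a) F)).1.det ^ b * (B₂ * B₁⁻¹).1.det ^ a = 1 := by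
    rw [Units.val_one, Matrix.det_one, one_pow, one_mul, Units.val_mul, Matrix.det_mul, hd₂,
      det_inv_eq_one B₁ hd₁, one_mul, one_pow]
  have h3 := RM_conj M hNM (1 : GL (Fin a) F) (B₂ * B₁⁻¹) hdet hR
  have e1 : ((1 : GL (Fin a) F)).1 * α * ((1 : GL (Fin a) F)⁻¹).1 = α := by simp
  have e2 : (B₂ * B₁⁻¹).1 *ᵥ w₁ = w₂ := by
    calc (B₂ * B₁⁻¹).1 *ᵥ w₁ = B₂.1 *ᵥ ((B₁⁻¹ : GL (Fin b) F).1 *ᵥ w₁) := by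
          rw [Units.val_mul, Matrix.mulVec_mulVec]
      _ = B₂.1 *ᵥ ((B₁⁻¹ : GL (Fin b) F).1 *ᵥ (B₁.1 *ᵥ _)) := by rw [hB₁w]
      _ = w₂ := by rw [inv_mulVec', hB₂w]
  have e3 : ψ₁ ᵥ* ((B₂ * B₁⁻¹)⁻¹ : GL (Fin b) F).1 = ψ₂ := by
    rw [_root_.mul_inv_rev, inv_inv, Units.val_mul, ← Matrix.vecMul_vecMul, hB₁ψ, ← hB₂ψ, vecMul_inv']
  rw [e1, e2, e3] at h3
  exact h3

/-- transport on the `U`-side -/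
theorem RM_transU (ha : 2 ≤ a) (hb : 3 ≤ b) (M : Subgroup (GL (Fin a × Fin b) F))
    (hNM : NN a b F ≤ M) {w ψ : Fin b → F} (hw : w ≠ 0) (hψ : ψ ≠ 0) (h : ψ ⬝ᵥ w = 0)
    {u₁ φ₁ u₂ φ₂ : Fin a → F} (hu₁ : u₁ ≠ 0) (hφ₁ : φ₁ ≠ 0) (h₁ : φ₁ ⬝ᵥ u₁ = 0)
    (hu₂ : u₂ ≠ 0) (hφ₂ : φ₂ ≠ 0) (h₂ : φ₂ ⬝ᵥ u₂ = 0)
    (hR : RM M (vecMulVec u₁ φ₁) w ψ) : RM M (vecMulVec u₂ φ₂) w ψ := by
  obtain ⟨A₁, c₁, hc₁, hd₁, hA₁u, hA₁φ⟩ := exists_flagU ha u₁ φ₁ hu₁ hφ₁ h₁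
  obtain ⟨A₂, c₂, hc₂, hd₂, hA₂u, hA₂φ⟩ := exists_flagU ha u₂ φ₂ hu₂ hφ₂ h₂
  have hdet : (A₂ * A₁⁻¹).1.det ^ b * ((1 : GL (Fin b) F)).1.det ^ a = 1 := by
    rw [Units.val_one, Matrix.det_one, one_pow, mul_one, Units.val_mul, Matrix.det_mul, hd₂,
      det_inv_eq_one A₁ hd₁, one_mul, one_pow]
  have h3 := RM_conj M hNM (A₂ * A₁⁻¹) (1 : GL (Fin b) F) hdet hR
  have e2 : (A₂ * A₁⁻¹).1 *ᵥ u₁ = u₂ := by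
    calc (A₂ * A₁⁻¹).1 *ᵥ u₁ = A₂.1 *ᵥ ((A₁⁻¹ : GL (Fin a) F).1 *ᵥ u₁) := by
          rw [Units.val_mul, Matrix.mulVec_mulVec]
      _ = A₂.1 *ᵥ ((A₁⁻¹ : GL (Fin a) F).1 *ᵥ (A₁.1 *ᵥ _)) := by rw [hA₁u]
      _ = u₂ := by rw [inv_mulVec', hA₂u]
  have e4 := congrArg (fun x : Fin a → F => c₂⁻¹ • x) hA₂φ
  simp only [smul_smul, inv_mul_cancel₀ hc₂, one_smul] at e4
  have e3 : φ₁ ᵥ* ((A₂ * A₁⁻¹)⁻¹ : GL (Fin a) F).1 = (c₁ * c₂⁻¹) • φ₂ := by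
    rw [_root_.mul_inv_rev, inv_inv, Units.val_mul, ← Matrix.vecMul_vecMul, hA₁φ, ← e4,
      Matrix.smul_vecMul, Matrix.smul_vecMul, vecMul_inv', smul_smul]
  have e1 : (A₂ * A₁⁻¹).1 * vecMulVec u₁ φ₁ * ((A₂ * A₁⁻¹)⁻¹ : GL (Fin a) F).1 =
      (c₁ * c₂⁻¹) • vecMulVec u₂ φ₂ := by
    rw [Matrix.mul_vecMulVec, Matrix.vecMulVec_mul, e2, e3, Matrix.vecMulVec_smul]
  have e5 : (1 : GL (Fin b) F).1 *ᵥ w = w := by simp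
  have e6 : ψ ᵥ* ((1 : GL (Fin b) F)⁻¹).1 = ψ := by simp
  rw [e1, e5, e6] at h3
  have h4 := RM_smul hb M hNM hw hψ h (c₂ * c₁⁻¹) h3
  rw [smul_smul] at h4
  have e7 : c₂ * c₁⁻¹ * (c₁ * c₂⁻¹) = 1 := by
    field_simp
  rw [e7, one_smul] at h4
  exact h4

/-- P2C -/
theorem RM_all (ha : 2 ≤ a) (hb : 3 ≤ b) (M : Subgroup (GL (Fin a × Fin b) F))
    (hNM : NN a b F ≤ M) (u₀ φ₀ : Fin a → F) (w₀ ψ₀ : Fin b → F) (hu₀ : u₀ ≠ 0) (hφ₀ : φ₀ ≠ 0)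
    (hw₀ : w₀ ≠ 0) (hψ₀ : ψ₀ ≠ 0) (h₁ : φ₀ ⬝ᵥ u₀ = 0) (h₂ : ψ₀ ⬝ᵥ w₀ = 0)
    (hR : RM M (vecMulVec u₀ φ₀) w₀ ψ₀) :
    ∀ (u φ : Fin a → F) (w ψ : Fin b → F), φ ⬝ᵥ u = 0 → ψ ⬝ᵥ w = 0 →
      RM M (vecMulVec u φ) w ψ := by
  intro u φ w ψ h1 h2
  by_cases hu : u = 0
  · rw [hu, Matrix.zero_vecMulVec]
    exact RM_zero M w ψ
  by_cases hφ : φ = 0
  · rw [hφ, Matrix.vecMulVec_zero]
    exact RM_zero M w ψ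
  have htriv : vecMulVec w ψ = 0 → RM M (vecMulVec u φ) w ψ := by
    intro h0 t ht
    have h3 : t = 1 := by
      apply Units.ext
      rw [ht, kv_def, h0, Matrix.kronecker_zero, add_zero, Units.val_one]
    rw [h3]
    exact M.one_mem
  by_cases hw : w = 0
  · exact htriv (by rw [hw, Matrix.zero_vecMulVec])
  by_cases hψ : ψ = 0
  · exact htriv (by rw [hψ, Matrix.vecMulVec_zero])
  have h3 := RM_transU ha hb M hNM hw₀ hψ₀ h₂ hu₀ hφ₀ h₁ hu hφ h1 hR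
  exact RM_transW hb M hNM hw₀ hψ₀ h₂ hw hψ h2 h3

end Cfsg.Agent.Lib.Helper66.TPP2C
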