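import Mathlib
import Cfsg.Agent.S4456
import Cfsg.Agent.Lib.Helper84.CliffInd
import Cfsg.Agent.Lib.Helper83.Codeg
import Cfsg.Agent.Lib.Helper83.LinearCount
import Cfsg.Agent.Lib.Helper83.Ortho
import Cfsg.Agent.Lib.Helper20.LinChar
import Cfsg.Agent.Lib.Helper20.ExtPrime
import Cfsg.Agent.Lib.Helper20.CliffordRel
import Cfsg.Agent.Lib.Helper20.PermChar
import Cfsg.Agent.Lib.Helper35.Ind
import Cfsg.Agent.Lib.Helper35.Abel
import Cfsg.Agent.Lib.Helper4.CharDecomp
import Cfsg.Agent.Lib.Helper4.MonoNilp
import Cfsg.Agent.Lib.Helper66.TwoDegGrp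

set_option autoImplicit false

/-!
# Groups with two character degrees (Isaacs, Theorem 12.5 / Corollary 12.6)
-/

namespace Cfsg.Agent.Lib.Helper66

open Cfsg Cfsg.Agent.Lib
open scoped ComplexConjugate commutatorElement

theorem comm_mem_commutator {A : Type*} [Group A] (a b : A) :
    a * b * a⁻¹ * b⁻¹ ∈ commutator A := by
  rw [commutator_def, ← commutatorElement_def]
  exact Subgroup.commutator_mem_commutator (Subgroup.mem_top a) (Subgroup.mem_top b)

theorem commutator_le_of_forall {A : Type*} [Group A] (T : Subgroup A)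
    (h : ∀ a b : A, a * b * a⁻¹ * b⁻¹ ∈ T) : commutator A ≤ T := by
  rw [commutator_def, Subgroup.commutator_le]
  intro a _ b _
  exact h a b

theorem normal_of_commutator_le {A : Type*} [Group A] (T : Subgroup A)
    (h : commutator A ≤ T) : T.Normal := by
  refine ⟨fun t ht g => ?_⟩
  have h1 : g * t * g⁻¹ * t⁻¹ ∈ T := h (comm_mem_commutator g t)
  have h2 : g * t * g⁻¹ = (g * t * g⁻¹ * t⁻¹) * t := by group
  rw [h2]
  exact T.mul_mem h1 ht

/-- A finite group all of whose irreducible characters are linear is abelian. -/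
theorem comm_of_all_linear {A : Type*} [Group A] [Finite A]
    (h : ∀ χ : IrrCharacter A, charDegree (χ : A → ℂ) = 1) : ∀ a b : A, a * b = b * a := by
  classical
  let _ : Fintype (IrrCharacter A) := Fintype.ofFinite _
  have h1 := Helper83.sum_charDegree_sq (G := A)
  have h2 := Helper83.card_linear' (G := A)
  have h3 : Nat.card {χ : IrrCharacter A // charDegree (χ : A → ℂ) = 1} =
      Nat.card (IrrCharacter A) :=
    Nat.card_congr (Equiv.subtypeUnivEquiv h)
  have h4 : Nat.card (IrrCharacter A) = Nat.card A := by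
    rw [← h1, Nat.card_eq_fintype_card, ← Finset.card_univ, Finset.card_eq_sum_ones]
    apply Finset.sum_congr rfl
    intro χ _
    rw [h χ]; norm_num
  have h5 : (commutator A).index = Nat.card A := by rw [← h2, h3, h4]
  have h6 : Nat.card (commutator A) = 1 := by
    have := Subgroup.card_mul_index (commutator A)
    rw [h5] at this
    have hpos : 0 < Nat.card A := Nat.card_pos
    exact Nat.eq_of_mul_eq_mul_right hpos (by rw [this, one_mul])
  have h7 : commutator A = ⊥ := Subgroup.card_eq_one.mp h6
  intro a b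
  have hmem := comm_mem_commutator a b
  rw [h7, Subgroup.mem_bot] at hmem
  calc a * b = (a * b * a⁻¹ * b⁻¹) * (b * a) := by group
    _ = b * a := by rw [hmem, one_mul]

section CliffMult

variable {G : Type*} [Group G] [Fintype G] (N : Subgroup G) [hN : N.Normal] [Fintype N]
  (I : Subgroup G) [Fintype I] (hNI : N ≤ I)

/-- Clifford correspondence, homogeneous case: if `ψ ∈ Irr(I)` restricts to `e • φ` on `N`,
where `I` is the inertia group of `φ ∈ Irr(N)`, then `ψ` induces irreducibly to `G`. -/
theorem ind_mult_irr (φ : N → ℂ) (hφ : IsIrrCharacter N φ)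
    (hI : ∀ g : G, g ∈ I ↔ Helper20.conjFun N φ g = φ) (ψ : I → ℂ) (hψ : IsIrrCharacter I ψ)
    (e : ℕ) (he : e ≠ 0)
    (hext : ∀ n : N, ψ (Subgroup.inclusion hNI n) = (e : ℂ) * φ n) :
    IsIrrCharacter G (indFun I ψ) := by
  classical
  have hfinI := Helper4.irr_finite (G := I)
  letI : Fintype (IrrCharacter I) := Fintype.ofFinite _
  have hfinG := Helper4.irr_finite (G := G)
  letI : Fintype (IrrCharacter G) := Fintype.ofFinite _
  have hchar : IsCharacter G (indFun I ψ) :=
    Helper35.isCharacter_indFun I (Helper35.isChar_of_irr hψ)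
  have hcf : IsClassFunction G (indFun I ψ) := Helper35.isClassFunction_indFun I ψ
  apply Helper4.isIrrCharacter_of_norm_one _ hchar
  have hfrob : classInner (indFun I ψ) (indFun I ψ) =
      classInner ψ (Helper35.res I (indFun I ψ)) :=
    Helper35.frobenius_reciprocity I ψ _ hcf
  obtain ⟨a, ha⟩ := Helper4.exists_decomp_of_isCharacter (Helper35.res I (indFun I ψ))
    (Helper35.isCharacter_res I hchar)
  have haψ : classInner (Helper35.res I (indFun I ψ)) ψ = a ⟨ψ, hψ⟩ := by
    conv_lhs => rw [ha]
    exact Helper4.classInner_sum_irr _ ⟨ψ, hψ⟩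
  have h1 : classInner (indFun I ψ) (indFun I ψ) = a ⟨ψ, hψ⟩ := by
    rw [hfrob, Helper4.classInner_conj_symm, haψ, Complex.conj_natCast]
  have hres : (fun n : N => indFun I ψ n) = ∑ η : IrrCharacter I,
      (a η : ℂ) • (fun n : N => (η : I → ℂ) (Subgroup.inclusion hNI n)) := by
    funext n
    have := congrFun ha (Subgroup.inclusion hNI n)
    simp only [Helper35.res_apply, Finset.sum_apply, Pi.smul_apply, smul_eq_mul] at this ⊢
    exact this
  have hb : ∀ η : IrrCharacter I, ∃ k : ℕ,
      classInner (fun n : N => (η : I → ℂ) (Subgroup.inclusion hNI n)) φ = k := by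
    intro η
    exact Helper35.classInner_char_nat
      (Helper20.isCharacter_comp (Subgroup.inclusion hNI) (Helper35.isChar_of_irr η.2))
      (Helper35.isChar_of_irr hφ)
  choose b hb using hb
  have hext' : ∀ n : N, ψ (Subgroup.inclusion hNI n) = ((e : ℂ) • φ) n := by
    intro n
    rw [hext n]
    rfl
  have hbψ : b ⟨ψ, hψ⟩ = e := by
    have h := hb ⟨ψ, hψ⟩
    have h2 : (fun n : N => ψ (Subgroup.inclusion hNI n)) = (e : ℂ) • φ := funext hext'
    have h3 : classInner (fun n : N => ψ (Subgroup.inclusion hNI n)) φ =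
        (b ⟨ψ, hψ⟩ : ℂ) := h
    rw [h2, Helper35.classInner_smul_left, Helper35.classInner_irr' hφ hφ, if_pos rfl,
      mul_one] at h3
    exact_mod_cast h3.symm
  have hkey : classInner (fun n : N => indFun I ψ n) φ = e := by
    rw [Helper84.ind_ext_res N I hNI ((e : ℂ) • φ) ψ hext', Helper35.classInner_smul_left,
      Helper35.classInner_sum_left]
    have h2 : ∀ x : G, classInner (Helper20.conjFun N ((e : ℂ) • φ) x) φ =
        (e : ℂ) * if x ∈ I then 1 else 0 := by
      intro x
      have h3 : Helper20.conjFun N ((e : ℂ) • φ) x = (e : ℂ) • Helper20.conjFun N φ x := rfl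
      rw [h3, Helper35.classInner_smul_left,
        Helper35.classInner_irr' (Helper20.conjFun_irr N hφ x) hφ]
      by_cases hx : x ∈ I
      · rw [if_pos hx, if_pos ((hI x).mp hx)]
      · rw [if_neg hx, if_neg (fun h => hx ((hI x).mpr h))]
    simp only [h2]
    rw [← Finset.mul_sum, Finset.sum_boole]
    have h3 : (Finset.univ.filter (fun x : G => x ∈ I)).card = Nat.card I := by
      rw [Nat.card_eq_fintype_card, Fintype.card_subtype]
    rw [h3]
    have hne : (Nat.card I : ℂ) ≠ 0 := by exact_mod_cast (Nat.card_pos (α := I)).ne'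
    field_simp
  have hsum : (∑ η : IrrCharacter I, a η * b η : ℕ) = e := by
    have h := hkey
    rw [hres, Helper35.classInner_sum_left] at h
    simp only [Helper35.classInner_smul_left, hb] at h
    exact_mod_cast h
  have hle : a ⟨ψ, hψ⟩ ≤ 1 := by
    have := Finset.single_le_sum (f := fun η => a η * b η) (fun η _ => Nat.zero_le _)
      (Finset.mem_univ (⟨ψ, hψ⟩ : IrrCharacter I))
    simp only [hbψ] at this
    rw [hsum] at this
    by_contra hgt
    push Not at hgt
    have hepos : 0 < e := Nat.pos_of_ne_zero he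
    nlinarith
  have hne : a ⟨ψ, hψ⟩ ≠ 0 := by
    intro h0
    rw [h0, Nat.cast_zero] at h1
    have h2 := Helper84.eq_zero_of_classInner_self _ h1 1
    rw [Helper35.indFun_one_eq] at h2
    have h3 : (I.index : ℂ) ≠ 0 := by
      exact_mod_cast (Subgroup.index_ne_zero_of_finite (H := I))
    rcases mul_eq_zero.mp h2 with h | h
    · exact h3 h
    · exact Helper83.irr_one_ne_zero hψ h
  have h2 : a ⟨ψ, hψ⟩ = 1 := by omega
  rw [h1, h2, Nat.cast_one]

end CliffMult

/-- If every irreducible character of `G` has degree `1` or `m` and `T` is a subgroup of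
index `m > 1`, then `T` contains the commutator subgroup (the permutation character on the
cosets of `T` is a sum of linear characters). -/
theorem commutator_le_of_index_eq {G : Type*} [Group G] [Finite G] (m : ℕ)
    (hcd : ∀ χ : IrrCharacter G, charDegree (χ : G → ℂ) = 1 ∨ charDegree (χ : G → ℂ) = m)
    (T : Subgroup G) (hT : T.index = m) : commutator G ≤ T := by
  classical
  letI : Fintype G := Fintype.ofFinite G
  letI : Fintype T := Fintype.ofFinite T
  letI : Fintype (IrrCharacter G) := Fintype.ofFinite _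
  have hchar : IsCharacter G (indFun T (fun _ => 1)) :=
    Helper35.isCharacter_indFun T (Helper35.isCharacter_one (G := T))
  obtain ⟨a, ha⟩ := Helper4.exists_decomp_of_isCharacter _ hchar
  have htriv : IsClassFunction G (Helper83.trivIrr G : G → ℂ) :=
    Helper35.isClassFunction_of_isCharacter (Helper35.isChar_of_irr (Helper83.trivIrr G).2)
  have h1 : classInner (indFun T (fun _ => 1)) (Helper83.trivIrr G : G → ℂ) = 1 := by
    rw [Helper35.frobenius_reciprocity T _ _ htriv]
    unfold classInner
    have hne : (Nat.card T : ℂ) ≠ 0 := by exact_mod_cast (Nat.card_pos (α := T)).ne'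
    simp only [Helper35.res_apply, Helper83.trivIrr_apply, map_one, mul_one, Finset.sum_const,
      Finset.card_univ, nsmul_eq_mul]
    rw [← Nat.card_eq_fintype_card]
    field_simp
  have ha1 : a (Helper83.trivIrr G) = 1 := by
    have h2 := Helper4.classInner_sum_irr (fun χ => (a χ : ℂ)) (Helper83.trivIrr G)
    rw [← ha, h1] at h2
    exact_mod_cast h2.symm
  have hsum : ∑ χ : IrrCharacter G, a χ * charDegree (χ : G → ℂ) = m := by
    have h2 := congrFun ha 1
    rw [Helper35.indFun_one_eq, hT] at h2
    simp only [Finset.sum_apply, Pi.smul_apply, smul_eq_mul, mul_one] at h2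
    have h3 : ∑ χ : IrrCharacter G, (a χ : ℂ) * (χ : G → ℂ) 1 =
        ((∑ χ : IrrCharacter G, a χ * charDegree (χ : G → ℂ) : ℕ) : ℂ) := by
      push_cast
      apply Finset.sum_congr rfl
      intro χ _
      rw [(Helper83.irr_degree χ.2).2]
    rw [h3] at h2
    exact_mod_cast h2.symm
  have hdtriv : charDegree (Helper83.trivIrr G : G → ℂ) = 1 := by
    rw [Helper83.irr_charDegree_eq_one_iff (Helper83.trivIrr G).2, Helper83.trivIrr_apply]
  have hlin : ∀ χ : IrrCharacter G, a χ ≠ 0 → charDegree (χ : G → ℂ) = 1 := by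
    intro χ hχ
    rcases hcd χ with h | h
    · exact h
    · by_contra hne
      have hne' : χ ≠ Helper83.trivIrr G := by
        intro h'
        rw [h'] at hne
        exact hne hdtriv
      have h2 : a (Helper83.trivIrr G) * charDegree (Helper83.trivIrr G : G → ℂ) +
          a χ * charDegree (χ : G → ℂ) ≤
          ∑ χ : IrrCharacter G, a χ * charDegree (χ : G → ℂ) := by
        rw [← Finset.sum_pair (f := fun χ : IrrCharacter G => a χ * charDegree (χ : G → ℂ))
          (Ne.symm hne')]
        exact Finset.sum_le_sum_of_subset (Finset.subset_univ _)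
      rw [hsum, ha1, hdtriv, h] at h2
      have h3 : 1 ≤ a χ := Nat.pos_of_ne_zero hχ
      nlinarith
  intro g hg
  have hΦg : indFun T (fun _ => (1 : ℂ)) g = indFun T (fun _ => (1 : ℂ)) 1 := by
    rw [ha]
    simp only [Finset.sum_apply, Pi.smul_apply, smul_eq_mul]
    apply Finset.sum_congr rfl
    intro χ _
    by_cases h0 : a χ = 0
    · simp [h0]
    · have h2 := (Helper83.irr_charDegree_eq_one_iff χ.2).mp (hlin χ h0)
      rw [Helper83.irr_linear_commutator χ.2 h2 hg, h2]
  rw [Helper20.indFun_one_apply, Helper20.indFun_one_apply] at hΦg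
  have hne : (Nat.card T : ℂ) ≠ 0 := by exact_mod_cast (Nat.card_pos (α := T)).ne'
  have h4 : Nat.card {x : G // x⁻¹ * g * x ∈ T} = Nat.card {x : G // x⁻¹ * 1 * x ∈ T} := by
    have := mul_left_cancel₀ (inv_ne_zero hne) hΦg
    exact_mod_cast this
  have h5 : Nat.card {x : G // x⁻¹ * 1 * x ∈ T} = Nat.card G := by
    apply Nat.card_congr
    refine Equiv.subtypeUnivEquiv ?_
    intro x
    simp
  rw [h5, Nat.card_eq_fintype_card, Nat.card_eq_fintype_card] at h4
  by_contra hgT
  have h6 := Fintype.card_subtype_lt (p := fun x : G => x⁻¹ * g * x ∈ T) (x := 1) (by simpa using hgT)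
  omega

/-- An invariant homomorphism of a normal Hall subgroup into a commutative group extends to the
whole group (via the transfer). -/
theorem exists_hom_extension {T : Type*} [Group T] [Finite T] (N : Subgroup T) [hN : N.Normal]
    (hcop : (Nat.card N).Coprime N.index) {A : Type*} [CommGroup A] (f : N →* A)
    (hinv : ∀ (g : T) (n : N), f ⟨g * n * g⁻¹, hN.conj_mem (n : T) n.2 g⟩ = f n) :
    ∃ μ : T →* A, ∀ n : N, μ (n : T) = f n := by
  have htr := Helper20.transfer_normal N N (le_refl N) f f (fun n => rfl) hinv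
  have hc : ∀ n : N, f n ^ Nat.card N = 1 := by
    intro n
    rw [← map_pow, pow_card_eq_one', map_one]
  by_cases h1 : Nat.card N = 1
  · refine ⟨1, fun n => ?_⟩
    have := hc n
    rw [h1, pow_one] at this
    rw [this]; rfl
  · have hlt : 1 < Nat.card N := by have := Nat.card_pos (α := N); omega
    obtain ⟨a, -, ha⟩ := Nat.exists_mul_mod_eq_one_of_coprime hcop.symm hlt
    refine ⟨(MonoidHom.transfer f) ^ a, fun n => ?_⟩
    rw [MonoidHom.pow_apply, htr n, ← pow_mul, ← Nat.div_add_mod (N.index * a) (Nat.card N), ha,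
      pow_add, pow_mul, hc n, one_pow, one_mul, pow_one]

/-- Inertia groups of non-invariant linear characters of a normal Hall subgroup in a group with
character degrees `1` and `m`: index `m`, normal, abelian modulo the Hall subgroup. -/
theorem homStab_props {G : Type*} [Group G] [Finite G] (m : ℕ) (hm : 1 < m)
    (hcd : ∀ χ : IrrCharacter G, charDegree (χ : G → ℂ) = 1 ∨ charDegree (χ : G → ℂ) = m)
    (L : Subgroup G) [hL : L.Normal] (hcop : (Nat.card L).Coprime L.index)
    (f : L →* ℂˣ) (hT : homStab L f ≠ ⊤) :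
    (homStab L f).index = m ∧ (homStab L f).Normal ∧
      ∀ a ∈ homStab L f, ∀ b ∈ homStab L f, a * b * a⁻¹ * b⁻¹ ∈ L := by
  classical
  letI : Fintype G := Fintype.ofFinite G
  letI : Fintype L := Fintype.ofFinite L
  letI : Fintype (homStab L f) := Fintype.ofFinite _
  have hLT : L ≤ homStab L f := le_homStab L f
  have hθirr : IsIrrCharacter L (fun l => ((f l : ℂˣ) : ℂ)) := Helper83.isIrr_of_hom f
  have hI : ∀ g : G, g ∈ homStab L f ↔
      Helper20.conjFun L (fun l => ((f l : ℂˣ) : ℂ)) g = (fun l => ((f l : ℂˣ) : ℂ)) := by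
    intro g
    rw [mem_homStab]
    constructor
    · intro h
      funext l
      rw [Helper20.conjFun_apply]
      have h1 := DFunLike.congr_fun h l
      rw [conjHom_apply] at h1
      rw [h1]
    · intro h
      ext l
      have h1 := congrFun h l
      rw [Helper20.conjFun_apply] at h1
      rw [conjHom_apply]
      exact h1
  have hcard : Nat.card (L.subgroupOf (homStab L f)) = Nat.card L :=
    Nat.card_congr (Subgroup.subgroupOfEquivOfLe hLT).toEquiv
  have hidx : (L.subgroupOf (homStab L f)).index ∣ L.index :=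
    Subgroup.relIndex_dvd_index_of_le hLT
  have hcop' : (Nat.card (L.subgroupOf (homStab L f))).Coprime
      (L.subgroupOf (homStab L f)).index := by
    rw [hcard]
    exact Nat.Coprime.coprime_dvd_right hidx hcop
  have hinv' : ∀ (t : homStab L f) (n : L.subgroupOf (homStab L f)),
      (f.comp (Subgroup.subgroupOfEquivOfLe hLT).toMonoidHom)
        ⟨t * n * t⁻¹, (inferInstance : (L.subgroupOf (homStab L f)).Normal).conj_mem
          (n : homStab L f) n.2 t⟩ =
      (f.comp (Subgroup.subgroupOfEquivOfLe hLT).toMonoidHom) n := by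
    intro t n
    have h1 := DFunLike.congr_fun (show conjHom L f t = f from t.2)
      ⟨((n : homStab L f) : G), Subgroup.mem_subgroupOf.mp n.2⟩
    rw [conjHom_apply] at h1
    exact h1
  obtain ⟨μ, hμ⟩ := exists_hom_extension (L.subgroupOf (homStab L f)) hcop'
    (f.comp (Subgroup.subgroupOfEquivOfLe hLT).toMonoidHom) hinv'
  have hμL : ∀ l : L, μ (Subgroup.inclusion hLT l) = f l := by
    intro l
    have h1 := hμ ⟨Subgroup.inclusion hLT l, by rw [Subgroup.mem_subgroupOf]; exact l.2⟩
    exact h1
  have hmain : ∀ β : IrrCharacter (homStab L f ⧸ L.subgroupOf (homStab L f)),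
      (homStab L f).index * charDegree β.1 = 1 ∨
      (homStab L f).index * charDegree β.1 = m := by
    intro β
    have hψirr : IsIrrCharacter (homStab L f)
        ((Helper83.inflate (L.subgroupOf (homStab L f)) β : homStab L f → ℂ) *
          (fun t => ((μ t : ℂˣ) : ℂ))) :=
      Helper84.irr_mul_linear (Helper83.inflate _ β).2 (Helper83.isIrr_of_hom μ) (by simp)
    have hd := Helper83.irr_degree β.2
    have hext : ∀ n : L, ((Helper83.inflate (L.subgroupOf (homStab L f)) β : homStab L f → ℂ) *
          (fun t => ((μ t : ℂˣ) : ℂ))) (Subgroup.inclusion hLT n) =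
        ((charDegree β.1 : ℕ) : ℂ) * ((f n : ℂˣ) : ℂ) := by
      intro n
      simp only [Pi.mul_apply]
      rw [Helper83.inflate_ker _ β _ (by rw [Subgroup.mem_subgroupOf]; exact n.2),
        Helper83.inflate_one, hd.2, hμL]
    have hirr := ind_mult_irr L (homStab L f) hLT _ hθirr hI _ hψirr _ hd.1.ne' hext
    have hdeg : charDegree (indFun (homStab L f)
        ((Helper83.inflate (L.subgroupOf (homStab L f)) β : homStab L f → ℂ) *
          (fun t => ((μ t : ℂˣ) : ℂ)))) = (homStab L f).index * charDegree β.1 := by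
      have h1 := (Helper83.irr_degree hirr).2
      rw [Helper35.indFun_one_eq] at h1
      simp only [Pi.mul_apply, map_one, Units.val_one, mul_one] at h1
      rw [Helper83.inflate_one, hd.2] at h1
      exact_mod_cast h1.symm
    have h2 := hcd ⟨_, hirr⟩
    rw [hdeg] at h2
    exact h2
  have hidxT : (homStab L f).index = m := by
    have h := hmain (Helper83.trivIrr _)
    have hd1 : charDegree (Helper83.trivIrr (homStab L f ⧸ L.subgroupOf (homStab L f))).1 = 1 := by
      rw [Helper83.irr_charDegree_eq_one_iff (Helper83.trivIrr _).2, Helper83.trivIrr_apply]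
    rw [hd1, mul_one] at h
    rcases h with h | h
    · exact absurd (Subgroup.index_eq_one.mp h) hT
    · exact h
  have hquot : ∀ a b : homStab L f ⧸ L.subgroupOf (homStab L f), a * b = b * a := by
    apply comm_of_all_linear
    intro β
    have h := hmain β
    rw [hidxT] at h
    rcases h with h | h
    · exfalso
      have h1 : m ∣ 1 := Dvd.intro _ h
      have h2 := Nat.dvd_one.mp h1
      omega
    · exact Nat.eq_of_mul_eq_mul_left (by omega) (h.trans (mul_one m).symm)
  have hcomm : ∀ a ∈ homStab L f, ∀ b ∈ homStab L f, a * b * a⁻¹ * b⁻¹ ∈ L := by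
    intro a ha b hb
    have h := hquot (QuotientGroup.mk ⟨a, ha⟩) (QuotientGroup.mk ⟨b, hb⟩)
    have h2 : (((⟨a, ha⟩ * ⟨b, hb⟩ * ⟨a, ha⟩⁻¹ * ⟨b, hb⟩⁻¹ : homStab L f)) :
        homStab L f ⧸ L.subgroupOf (homStab L f)) = 1 := by
      rw [QuotientGroup.mk_mul, QuotientGroup.mk_mul, QuotientGroup.mk_mul, QuotientGroup.mk_inv,
        QuotientGroup.mk_inv, h]
      group
    have h3 := (QuotientGroup.eq_one_iff _).mp h2
    rw [Subgroup.mem_subgroupOf] at h3
    exact h3
  have hcomT : commutator G ≤ homStab L f := commutator_le_of_index_eq m hcd _ hidxT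
  exact ⟨hidxT, normal_of_commutator_le _ hcomT, hcomm⟩

/-- A normal subgroup of order prime to `m` in a group with character degrees `1`, `m` is
abelian. -/
theorem hall_abelian {G : Type*} [Group G] [Finite G] (m : ℕ)
    (hcd : ∀ χ : IrrCharacter G, charDegree (χ : G → ℂ) = 1 ∨ charDegree (χ : G → ℂ) = m)
    (L : Subgroup G) [hL : L.Normal] (hcop : (Nat.card L).Coprime m) :
    ∀ a ∈ L, ∀ b ∈ L, a * b = b * a := by
  classical
  letI : Fintype G := Fintype.ofFinite G
  letI : Fintype L := Fintype.ofFinite L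
  have hall : ∀ θ : IrrCharacter L, charDegree (θ : L → ℂ) = 1 := by
    intro θ
    obtain ⟨χ, hχ, hne⟩ := Helper20.exists_irr_over L θ.2
    have hdeg := Helper20.clifford_degree L θ.2 hχ hne (Helper20.inertia L θ.1)
      (Helper20.mem_inertia L θ.1)
    obtain ⟨k, hk⟩ := Helper35.classInner_char_nat
      (Helper20.isCharacter_comp L.subtype (Helper35.isChar_of_irr hχ))
      (Helper35.isChar_of_irr θ.2)
    have hk' : classInner (fun h : L => χ h) θ.1 = (k : ℂ) := hk
    rw [hk', (Helper83.irr_degree hχ).2, (Helper83.irr_degree θ.2).2] at hdeg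
    have hdvd : charDegree (θ : L → ℂ) ∣ charDegree χ := by
      have h1 : charDegree χ = k * (Helper20.inertia L θ.1).index * charDegree (θ : L → ℂ) := by
        exact_mod_cast hdeg
      exact Dvd.intro_left _ h1.symm
    have hdvd2 : charDegree (θ : L → ℂ) ∣ Nat.card L := Helper83.irr_degree_dvd_card θ
    rcases hcd ⟨χ, hχ⟩ with h | h
    · have h' : charDegree χ = 1 := h
      rw [h'] at hdvd
      exact Nat.dvd_one.mp hdvd
    · have h' : charDegree χ = m := h
      rw [h'] at hdvd
      exact Nat.eq_one_of_dvd_coprimes hcop hdvd2 hdvd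
  have hab := comm_of_all_linear hall
  intro a ha b hb
  exact congrArg Subtype.val (hab ⟨a, ha⟩ ⟨b, hb⟩)

/-- Linear characters of a finite abelian group separate points. -/
theorem exists_hom_ne_one {A : Type*} [Group A] [Finite A] (hab : ∀ a b : A, a * b = b * a)
    (a : A) (ha : a ≠ 1) : ∃ f : A →* ℂˣ, f a ≠ 1 := by
  letI : CommGroup A := { (inferInstance : Group A) with mul_comm := hab }
  exact CommGroup.exists_apply_ne_one_of_hasEnoughRootsOfUnity A ℂ ha

/-- Isaacs, Theorem 12.5 (with a little more information): a finite group whose irreducible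
character degrees are `1` and `m ≠ 1` has an abelian normal subgroup of index `m`, or `m` is a
power of a prime `p` and the group is the direct product of a `p`-group and a central subgroup
of `p`-power index. -/
theorem two_degree_structure {G : Type*} [Group G] [Finite G] (m : ℕ)
    (hcd : ∀ χ : IrrCharacter G, charDegree (χ : G → ℂ) = 1 ∨ charDegree (χ : G → ℂ) = m)
    (hm : ∃ χ : IrrCharacter G, charDegree (χ : G → ℂ) = m) (hm1 : m ≠ 1) :
    (∃ A : Subgroup G, A.Normal ∧ A.index = m ∧ ∀ a ∈ A, ∀ b ∈ A, a * b = b * a) ∨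
    (∃ (p e : ℕ) (L P : Subgroup G), p.Prime ∧ m = p ^ e ∧ L.Normal ∧
      (∀ l ∈ L, ∀ x : G, l * x = x * l) ∧ (∃ k : ℕ, L.index = p ^ k) ∧ P.Normal ∧
      IsPGroup p P ∧ P ⊓ L = ⊥ ∧ P ⊔ L = ⊤) := by
  classical
  have hm0 : 0 < m := by
    obtain ⟨χ, hχ⟩ := hm
    rw [← hχ]
    exact (Helper83.irr_degree χ.2).1
  have hm2 : 1 < m := by omega
  have hex : ∀ p : ℕ, ∃ N : Subgroup G, p ∈ m.primeFactors →
      (N.Normal ∧ (Nat.card N).Coprime p ∧ ∃ k : ℕ, N.index = p ^ k) := by
    intro p
    by_cases hp : p ∈ m.primeFactors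
    · have hpp : p.Prime := Nat.prime_of_mem_primeFactors hp
      have hpm : p ∣ m := Nat.dvd_of_mem_primeFactors hp
      have hdeg : ∀ χ : IrrCharacter G, charDegree (χ : G → ℂ) ≠ 1 →
          p ∣ charDegree (χ : G → ℂ) := by
        intro χ hχ
        rcases hcd χ with h | h
        · exact absurd h hχ
        · rw [h]; exact hpm
      obtain ⟨N, hN⟩ := Cfsg.Agent.S4456.result p hpp hdeg
      exact ⟨N, fun _ => hN⟩
    · exact ⟨⊤, fun h => absurd h hp⟩
  choose M hM using hex
  obtain ⟨hLn, hcopm, hidxp, hcop⟩ := normal_hall_inf m hm0.ne' M hM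
  haveI := hLn
  have hLab := hall_abelian m hcd (m.primeFactors.inf M) hcopm
  have hsep : ∀ l : (m.primeFactors.inf M : Subgroup G), l ≠ 1 →
      ∃ f : (m.primeFactors.inf M : Subgroup G) →* ℂˣ, f l ≠ 1 := by
    intro l hl
    exact exists_hom_ne_one (fun a b => Subtype.ext (hLab a a.2 b b.2)) l hl
  have H := fun (f : (m.primeFactors.inf M : Subgroup G) →* ℂˣ) hf =>
    homStab_props m hm2 hcd (m.primeFactors.inf M) hcop f hf
  rcases abelian_or_central (m.primeFactors.inf M) m hcop hsep H with ⟨T, hn, hi, hab⟩ | hcentral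
  · left
    exact ⟨T, hn, hi, hab⟩
  · right
    by_cases hpp : ∃ p e : ℕ, p.Prime ∧ m = p ^ e
    · obtain ⟨p, e, hp, hme⟩ := hpp
      have hidx : (m.primeFactors.inf M).index =
          p ^ (m.primeFactors.inf M).index.primeFactorsList.length := by
        apply Nat.eq_prime_pow_of_unique_prime_dvd Subgroup.index_ne_zero_of_finite
        intro d hd hdvd
        have h1 := hidxp d hd hdvd
        rw [hme] at h1
        exact (Nat.prime_dvd_prime_iff_eq hd hp).mp (hd.dvd_of_dvd_pow h1)
      have hcopp : (Nat.card (m.primeFactors.inf M : Subgroup G)).Coprime p := by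
        have he : e ≠ 0 := by
          intro he
          rw [he, pow_zero] at hme
          exact hm1 hme
        have hpm : p ∣ m := by rw [hme]; exact dvd_pow_self p he
        exact Nat.Coprime.coprime_dvd_right hpm hcopm
      obtain ⟨P, hPn, hPp, hinf, hsup⟩ := exists_sylow_direct hp _ hcentral hcopp hidx
      exact ⟨p, e, _, P, hp, hme, hLn, hcentral, ⟨_, hidx⟩, hPn, hPp, hinf, hsup⟩
    · exfalso
      have hle : ∀ p ∈ m.primeFactors, commutator G ≤ M p := by
        intro p hp
        obtain ⟨hMn, hMc, k, hMk⟩ := hM p hp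
        haveI := hMn
        have hpp' : p.Prime := Nat.prime_of_mem_primeFactors hp
        have hq : ∀ a b : G ⧸ M p, a * b = b * a := by
          apply comm_of_all_linear
          intro ψ
          have hd := Helper83.charDegree_inflate (M p) ψ
          have hdvd : charDegree (ψ : G ⧸ M p → ℂ) ∣ Nat.card (G ⧸ M p) :=
            Helper83.irr_degree_dvd_card ψ
          rw [← Subgroup.index_eq_card, hMk] at hdvd
          rcases hcd (Helper83.inflate (M p) ψ) with h | h
          · rw [← hd]; exact h
          · exfalso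
            rw [hd] at h
            rw [h] at hdvd
            obtain ⟨j, -, hj⟩ := (Nat.dvd_prime_pow hpp').mp hdvd
            exact hpp ⟨p, j, hpp', hj⟩
        apply commutator_le_of_forall
        intro a b
        have h := hq (QuotientGroup.mk a) (QuotientGroup.mk b)
        have h2 : ((a * b * a⁻¹ * b⁻¹ : G) : G ⧸ M p) = 1 := by
          rw [QuotientGroup.mk_mul, QuotientGroup.mk_mul, QuotientGroup.mk_mul,
            QuotientGroup.mk_inv, QuotientGroup.mk_inv, h]
          group
        exact (QuotientGroup.eq_one_iff _).mp h2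
      have hleL : commutator G ≤ m.primeFactors.inf M := Finset.le_inf hle
      have hGab : ∀ a b : G, a * b = b * a :=
        comm_of_central_coprime (m.primeFactors.inf M) hcentral
          (fun a b => hleL (comm_mem_commutator a b)) hcop
      obtain ⟨χ, hχ⟩ := hm
      have h1 := Helper35.irr_one_of_comm hGab χ
      rw [← Helper83.irr_charDegree_eq_one_iff χ.2, hχ] at h1
      exact hm1 h1

universe u

/-- Taketa-type argument: a finite nilpotent group with character degrees `1` and `m` has abelian
commutator subgroup (the characters of degree `m` are induced from linear characters of subgroups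
of index `m`, which contain the commutator subgroup). -/
theorem commutator_abelian_of_nilpotent {G : Type u} [Group G] [Finite G] [Group.IsNilpotent G]
    (m : ℕ)
    (hcd : ∀ χ : IrrCharacter G, charDegree (χ : G → ℂ) = 1 ∨ charDegree (χ : G → ℂ) = m) :
    ∀ a ∈ commutator G, ∀ b ∈ commutator G, a * b = b * a := by
  classical
  letI : Fintype G := Fintype.ofFinite G
  letI : Fintype (IrrCharacter G) := Fintype.ofFinite _
  intro a ha b hb
  have hχ : ∀ χ : IrrCharacter G, (χ : G → ℂ) (a * b * a⁻¹ * b⁻¹) = (χ : G → ℂ) 1 := by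
    intro χ
    by_cases h : charDegree (χ : G → ℂ) = 1
    · have h1 := (Helper83.irr_charDegree_eq_one_iff χ.2).mp h
      rw [Helper83.irr_linear_commutator χ.2 h1 (comm_mem_commutator a b), h1]
    · have hm : charDegree (χ : G → ℂ) = m := (hcd χ).resolve_left h
      obtain ⟨K, l, hKl⟩ := Helper4.irr_monomial_nilpotent χ
      have hidx : K.index = m := by
        have h1 := (Helper83.irr_degree χ.2).2
        rw [hm] at h1
        rw [hKl, Helper35.indFun_one_eq] at h1
        simp only [map_one, Units.val_one, mul_one] at h1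
        exact_mod_cast h1
      have hKle : commutator G ≤ K := commutator_le_of_index_eq m hcd K hidx
      rw [hKl]
      unfold indFun
      congr 1
      apply Finset.sum_congr rfl
      intro x _
      have hnorm : (commutator G).Normal := inferInstance
      have ha' : x⁻¹ * a * x ∈ K := hKle (by
        have := hnorm.conj_mem a ha x⁻¹
        simpa using this)
      have hb' : x⁻¹ * b * x ∈ K := hKle (by
        have := hnorm.conj_mem b hb x⁻¹
        simpa using this)
      have hg : x⁻¹ * (a * b * a⁻¹ * b⁻¹) * x =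
          (x⁻¹ * a * x) * (x⁻¹ * b * x) * (x⁻¹ * a * x)⁻¹ * (x⁻¹ * b * x)⁻¹ := by group
      have hmem : x⁻¹ * (a * b * a⁻¹ * b⁻¹) * x ∈ K := by
        rw [hg]
        exact K.mul_mem (K.mul_mem (K.mul_mem ha' hb') (K.inv_mem ha')) (K.inv_mem hb')
      have hmem1 : x⁻¹ * 1 * x ∈ K := by simp
      rw [Helper35.ext_mem K _ _ hmem, Helper35.ext_mem K _ _ hmem1]
      have e1 : (⟨x⁻¹ * (a * b * a⁻¹ * b⁻¹) * x, hmem⟩ : K) =
          ⟨_, ha'⟩ * ⟨_, hb'⟩ * ⟨_, ha'⟩⁻¹ * ⟨_, hb'⟩⁻¹ := Subtype.ext hg
      have e2 : (⟨x⁻¹ * 1 * x, hmem1⟩ : K) = 1 := Subtype.ext (by simp)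
      rw [e1, e2, map_mul, map_mul, map_mul, map_inv, map_inv, map_one,
        mul_comm (l ⟨_, ha'⟩) (l ⟨_, hb'⟩), mul_inv_cancel_right, mul_inv_cancel]
  by_contra hne
  have hnc : ¬ IsConj (1 : G) (a * b * a⁻¹ * b⁻¹) := by
    intro hc
    rw [isConj_one_right] at hc
    apply hne
    calc a * b = (a * b * a⁻¹ * b⁻¹) * (b * a) := by group
      _ = b * a := by rw [hc, one_mul]
  have hcol := Helper83.column_orthogonality (a * b * a⁻¹ * b⁻¹) (1 : G)
  rw [if_neg hnc] at hcol
  have hsum : ∑ χ : IrrCharacter G, (χ : G → ℂ) (a * b * a⁻¹ * b⁻¹) * conj ((χ : G → ℂ) 1) =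
      (Nat.card G : ℂ) := by
    rw [← Helper83.sum_degree_sq]
    apply Finset.sum_congr rfl
    intro χ _
    rw [hχ χ, (Helper83.irr_degree χ.2).2, Complex.conj_natCast, sq]
  rw [hsum] at hcol
  exact (by exact_mod_cast (Nat.card_pos (α := G)).ne' : (Nat.card G : ℂ) ≠ 0) hcol

end Cfsg.Agent.Lib.Helper66
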