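import Mathlib

set_option autoImplicit false

/-!
# Group-theoretic lemmas for groups with two character degrees
(Isaacs, Theorem 12.5 / Corollary 12.6): no character theory in this file.
-/

namespace Cfsg.Agent.Lib.Helper66

section TwoDegGrp

variable {G : Type*} [Group G]

/-- If `a * b = c * b * a` with `c` central then `a ^ n * b = c ^ n * b * a ^ n`. -/
theorem pow_mul_of_central_twist {a b c : G} (h : a * b = c * b * a)
    (hc : ∀ x : G, c * x = x * c) (n : ℕ) : a ^ n * b = c ^ n * b * a ^ n := by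
  induction n with
  | zero => simp
  | succ k ih =>
    calc a ^ (k + 1) * b = a ^ k * (a * b) := by rw [pow_succ, mul_assoc]
      _ = a ^ k * (c * b * a) := by rw [h]
      _ = c * (a ^ k * b) * a := by
            have := hc (a ^ k)
            calc a ^ k * (c * b * a) = (a ^ k * c) * b * a := by simp only [mul_assoc]
              _ = (c * a ^ k) * b * a := by rw [← this]
              _ = c * (a ^ k * b) * a := by simp only [mul_assoc]
      _ = c * (c ^ k * b * a ^ k) * a := by rw [ih]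
      _ = c ^ (k + 1) * b * a ^ (k + 1) := by
            rw [pow_succ' c, pow_succ a]; simp only [mul_assoc]

/-- A group whose commutators all lie in a central subgroup `L` of order prime to its index is
abelian. -/
theorem comm_of_central_coprime [Finite G] (L : Subgroup G)
    (hL : ∀ l ∈ L, ∀ x : G, l * x = x * l)
    (hcomm : ∀ a b : G, a * b * a⁻¹ * b⁻¹ ∈ L) (hcop : Nat.Coprime (Nat.card L) L.index)
    (a b : G) : a * b = b * a := by
  have hLn : L.Normal := ⟨fun l hl g => by
    rw [← hL l hl g, mul_inv_cancel_right]; exact hl⟩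
  obtain ⟨c, hcdef⟩ : ∃ c, c = a * b * a⁻¹ * b⁻¹ := ⟨_, rfl⟩
  have hcL : c ∈ L := hcdef ▸ hcomm a b
  have h : a * b = c * b * a := by rw [hcdef]; group
  have hpow := pow_mul_of_central_twist h (hL c hcL) L.index
  have haL : a ^ L.index ∈ L := Subgroup.pow_index_mem L a
  have h1 : a ^ L.index * b = b * a ^ L.index := hL _ haL b
  have hc1 : c ^ L.index = 1 := by
    rw [h1] at hpow
    have : c ^ L.index * (b * a ^ L.index) = 1 * (b * a ^ L.index) := by
      rw [one_mul, ← mul_assoc]; exact hpow.symm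
    exact mul_right_cancel this
  have hc2 : c ^ Nat.card L = 1 := by
    have h3 : (⟨c, hcL⟩ : L) ^ Nat.card L = 1 := pow_card_eq_one'
    have h4 : c ^ Nat.card L = (((⟨c, hcL⟩ : L) ^ Nat.card L : L) : G) := rfl
    rw [h4, h3]; rfl
  have hd : orderOf c ∣ Nat.gcd (Nat.card L) L.index :=
    Nat.dvd_gcd (orderOf_dvd_of_pow_eq_one hc2) (orderOf_dvd_of_pow_eq_one hc1)
  rw [hcop.gcd_eq_one] at hd
  have hc : c = 1 := orderOf_eq_one_iff.mp (Nat.dvd_one.mp hd)
  rw [h, hc, one_mul]

/-- A finite infimum of normal subgroups is normal. -/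
theorem finset_inf_normal {ι : Type*} (s : Finset ι) (M : ι → Subgroup G)
    (h : ∀ i ∈ s, (M i).Normal) : (s.inf M).Normal := by
  classical
  induction s using Finset.induction_on with
  | empty => rw [Finset.inf_empty]; infer_instance
  | insert a s ha ih =>
    rw [Finset.inf_insert]
    have h1 : (M a).Normal := h a (Finset.mem_insert_self a s)
    have h2 : (s.inf M).Normal := ih (fun i hi => h i (Finset.mem_insert_of_mem hi))
    infer_instance

/-- An element whose order is prime to the index of a normal subgroup lies in it. -/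
theorem mem_of_orderOf_coprime_index [Finite G] (M : Subgroup G) [M.Normal] (x : G)
    (h : Nat.Coprime (orderOf x) M.index) : x ∈ M := by
  have h1 : orderOf (QuotientGroup.mk' M x) ∣ orderOf x := orderOf_map_dvd _ x
  have h2 : orderOf (QuotientGroup.mk' M x) ∣ Nat.card (G ⧸ M) := orderOf_dvd_natCard _
  rw [← Subgroup.index_eq_card] at h2
  have h3 : orderOf (QuotientGroup.mk' M x) ∣ 1 := by
    have := Nat.dvd_gcd h1 h2
    rwa [h.gcd_eq_one] at this
  have h4 : QuotientGroup.mk' M x = 1 := orderOf_eq_one_iff.mp (Nat.dvd_one.mp h3)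
  exact (QuotientGroup.eq_one_iff x).mp h4

/-- The intersection of normal `p`-complements, `p` running over the prime divisors of `m`,
is a normal Hall subgroup: its order is prime to `m` and every prime dividing its index
divides `m`. -/
theorem normal_hall_inf [Finite G] (m : ℕ) (hm0 : m ≠ 0) (M : ℕ → Subgroup G)
    (hM : ∀ p ∈ m.primeFactors, (M p).Normal ∧ (Nat.card (M p)).Coprime p ∧
      ∃ k : ℕ, (M p).index = p ^ k) :
    (m.primeFactors.inf M).Normal ∧ (Nat.card ↥(m.primeFactors.inf M)).Coprime m ∧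
      (∀ q : ℕ, q.Prime → q ∣ (m.primeFactors.inf M).index → q ∣ m) ∧
      (Nat.card ↥(m.primeFactors.inf M)).Coprime (m.primeFactors.inf M).index := by
  have hN : (m.primeFactors.inf M).Normal := finset_inf_normal _ M (fun p hp => (hM p hp).1)
  have hcop : (Nat.card ↥(m.primeFactors.inf M)).Coprime m := by
    apply Nat.coprime_of_dvd
    intro k hk hk1 hk2
    have hkm : k ∈ m.primeFactors := by
      rw [Nat.mem_primeFactors]
      exact ⟨hk, hk2, hm0⟩
    have hle : m.primeFactors.inf M ≤ M k := Finset.inf_le hkm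
    have hd : k ∣ Nat.card (M k) := hk1.trans (Subgroup.card_dvd_of_le hle)
    have := (hM k hkm).2.1
    exact (Nat.Prime.coprime_iff_not_dvd hk).mp this.symm hd
  have hidx : ∀ q : ℕ, q.Prime → q ∣ (m.primeFactors.inf M).index → q ∣ m := by
    intro q hq hqd
    by_contra hqm
    have : Fact q.Prime := ⟨hq⟩
    obtain ⟨Q⟩ : Nonempty (Sylow q G) := inferInstance
    have hQle : (Q : Subgroup G) ≤ m.primeFactors.inf M := by
      apply Finset.le_inf
      intro p hp x hx
      obtain ⟨hpn, hpc, k, hk⟩ := hM p hp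
      have := hpn
      apply mem_of_orderOf_coprime_index
      obtain ⟨j, hj⟩ := (IsPGroup.iff_orderOf.mp Q.2) ⟨x, hx⟩
      rw [Subgroup.orderOf_mk] at hj
      rw [hj, hk]
      have hpp : p.Prime := Nat.prime_of_mem_primeFactors hp
      have hne : q ≠ p := by
        rintro rfl
        exact hqm (Nat.dvd_of_mem_primeFactors hp)
      exact Nat.Coprime.pow _ _ ((Nat.coprime_primes hq hpp).mpr hne)
    have : q ∣ (Q : Subgroup G).index := hqd.trans (Subgroup.index_dvd_of_le hQle)
    exact Q.not_dvd_index this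
  refine ⟨hN, hcop, hidx, ?_⟩
  apply Nat.coprime_of_dvd
  intro k hk hk1 hk2
  have hkm := hidx k hk hk2
  have := Nat.dvd_gcd hk1 hkm
  rw [hcop.gcd_eq_one] at this
  exact hk.one_lt.ne' (Nat.dvd_one.mp this)

/-- A central subgroup `L` of order prime to `p` and `p`-power index is a direct factor with a
normal Sylow `p`-subgroup as complement. -/
theorem exists_sylow_direct [Finite G] {p k : ℕ} (hp : p.Prime) (L : Subgroup G)
    (hLc : ∀ l ∈ L, ∀ x : G, l * x = x * l) (hcop : (Nat.card L).Coprime p)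
    (hidx : L.index = p ^ k) :
    ∃ P : Subgroup G, P.Normal ∧ IsPGroup p P ∧ P ⊓ L = ⊥ ∧ P ⊔ L = ⊤ := by
  have : Fact p.Prime := ⟨hp⟩
  have hLn : L.Normal := ⟨fun l hl g => by
    rw [← hLc l hl g, mul_inv_cancel_right]; exact hl⟩
  obtain ⟨P⟩ : Nonempty (Sylow p G) := inferInstance
  have hsup : (P : Subgroup G) ⊔ L = ⊤ := by
    rw [← Subgroup.index_eq_one]
    have h1 : ((P : Subgroup G) ⊔ L).index ∣ (P : Subgroup G).index :=
      Subgroup.index_dvd_of_le le_sup_left
    have h2 : ((P : Subgroup G) ⊔ L).index ∣ L.index := Subgroup.index_dvd_of_le le_sup_right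
    rw [hidx] at h2
    obtain ⟨j, -, hj2⟩ := (Nat.dvd_prime_pow hp).mp h2
    rcases Nat.eq_zero_or_pos j with h0 | hpos
    · rw [hj2, h0, pow_zero]
    · exfalso
      apply P.not_dvd_index
      exact (dvd_pow_self p hpos.ne').trans (hj2 ▸ h1)
  have hinf : (P : Subgroup G) ⊓ L = ⊥ := by
    apply (Subgroup.disjoint_of_coprime_natCard ?_).eq_bot
    obtain ⟨n, hn⟩ := IsPGroup.iff_card.mp P.2
    rw [hn]
    exact Nat.Coprime.pow_left n hcop.symm
  have hnorm : (P : Subgroup G).Normal := by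
    refine ⟨fun n hn g => ?_⟩
    have hg : g ∈ (((P : Subgroup G) ⊔ L : Subgroup G) : Set G) := by rw [hsup]; trivial
    rw [Subgroup.mul_normal] at hg
    obtain ⟨x, hx, l, hl, rfl⟩ := Set.mem_mul.mp hg
    have hl' : l ∈ L := hl
    have e : x * l * n * (x * l)⁻¹ = x * n * x⁻¹ := by
      have := hLc l hl' n
      calc x * l * n * (x * l)⁻¹ = x * (l * n) * l⁻¹ * x⁻¹ := by group
        _ = x * (n * l) * l⁻¹ * x⁻¹ := by rw [this]
        _ = x * n * x⁻¹ := by group
    rw [e]
    exact (P : Subgroup G).mul_mem ((P : Subgroup G).mul_mem hx hn) ((P : Subgroup G).inv_mem hx)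
  exact ⟨P, hnorm, P.2, hinf, hsup⟩

end TwoDegGrp

section ConjHom

variable {G : Type*} [Group G] (L : Subgroup G) [hL : L.Normal] {A : Type*} [CommGroup A]

/-- Conjugate of a homomorphism on a normal subgroup: `l ↦ f (g l g⁻¹)`. -/
def conjHom (f : L →* A) (g : G) : L →* A :=
  f.comp ((MulAut.conjNormal g : L ≃* L) : L →* L)

theorem conjHom_apply (f : L →* A) (g : G) (l : L) :
    conjHom L f g l = f ⟨g * l * g⁻¹, hL.conj_mem (l : G) l.2 g⟩ := by
  unfold conjHom
  rw [MonoidHom.comp_apply]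
  congr 1

theorem conjHom_one (f : L →* A) : conjHom L f 1 = f := by
  ext l
  rw [conjHom_apply]
  congr 1
  apply Subtype.ext
  simp

theorem conjHom_conjHom (f : L →* A) (x y : G) :
    conjHom L (conjHom L f x) y = conjHom L f (x * y) := by
  ext l
  rw [conjHom_apply, conjHom_apply, conjHom_apply]
  congr 1
  apply Subtype.ext
  simp [mul_assoc]

theorem conjHom_mul (f₁ f₂ : L →* A) (g : G) :
    conjHom L (f₁ * f₂) g = conjHom L f₁ g * conjHom L f₂ g := by
  ext l
  rfl

theorem conjHom_inv (f : L →* A) (g : G) : conjHom L f⁻¹ g = (conjHom L f g)⁻¹ := by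
  ext l
  rfl

theorem conjHom_pow (f : L →* A) (k : ℕ) (g : G) :
    conjHom L (f ^ k) g = conjHom L f g ^ k := by
  ext l
  rfl

theorem conjHom_of_mem (f : L →* A) {g : G} (hg : g ∈ L) : conjHom L f g = f := by
  ext l
  rw [conjHom_apply]
  have h1 : (⟨g * l * g⁻¹, hL.conj_mem (l : G) l.2 g⟩ : L) = ⟨g, hg⟩ * l * ⟨g, hg⟩⁻¹ := rfl
  rw [h1, map_mul, map_mul, map_inv, mul_comm (f ⟨g, hg⟩), mul_inv_cancel_right]

/-- The stabilizer (inertia group) of a homomorphism on a normal subgroup. -/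
def homStab (f : L →* A) : Subgroup G where
  carrier := {g | conjHom L f g = f}
  mul_mem' := by
    intro a b ha hb
    show conjHom L f (a * b) = f
    have ha' : conjHom L f a = f := ha
    have hb' : conjHom L f b = f := hb
    rw [← conjHom_conjHom, ha', hb']
  one_mem' := conjHom_one L f
  inv_mem' := by
    intro a ha
    show conjHom L f a⁻¹ = f
    have ha' : conjHom L f a = f := ha
    have h : conjHom L (conjHom L f a) a⁻¹ = f := by
      rw [conjHom_conjHom, mul_inv_cancel, conjHom_one]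
    rwa [ha'] at h

theorem mem_homStab (f : L →* A) (g : G) : g ∈ homStab L f ↔ conjHom L f g = f := Iff.rfl

theorem le_homStab (f : L →* A) : L ≤ homStab L f := fun _ hg => conjHom_of_mem L f hg

theorem homStab_inv_ge (f : L →* A) : homStab L f ≤ homStab L f⁻¹ := by
  intro g hg
  rw [mem_homStab] at hg ⊢
  rw [conjHom_inv, hg]

theorem homStab_mul_ge (f₁ f₂ : L →* A) : homStab L f₁ ⊓ homStab L f₂ ≤ homStab L (f₁ * f₂) := by
  intro g hg
  have h1 : conjHom L f₁ g = f₁ := hg.1
  have h2 : conjHom L f₂ g = f₂ := hg.2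
  rw [mem_homStab, conjHom_mul, h1, h2]

theorem homStab_conj_ge (f : L →* A) (hN : (homStab L f).Normal) (h : G) :
    homStab L f ≤ homStab L (conjHom L f h) := by
  intro t ht
  rw [mem_homStab, conjHom_conjHom]
  have h1 : h * t = (h * t * h⁻¹) * h := by group
  have h2 : conjHom L f (h * t * h⁻¹) = f := hN.conj_mem t ht h
  rw [h1, ← conjHom_conjHom, h2]

theorem eq_of_le_of_index_eq [Finite G] {H K : Subgroup G} (hle : H ≤ K)
    (hidx : H.index = K.index) : H = K := by
  apply le_antisymm hle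
  have h1 := Subgroup.relIndex_mul_index hle
  have h2 : K.index ≠ 0 := Subgroup.index_ne_zero_of_finite
  rw [hidx] at h1
  have h3 : H.relIndex K = 1 := by
    have : H.relIndex K * K.index = 1 * K.index := by rw [h1, one_mul]
    exact Nat.eq_of_mul_eq_mul_right (Nat.pos_of_ne_zero h2) this
  exact Subgroup.relIndex_eq_one.mp h3

theorem homStab_mul_le [Finite G] (m : ℕ) (hcop : (Nat.card L).Coprime L.index)
    (H : ∀ f : L →* A, homStab L f ≠ ⊤ → (homStab L f).index = m ∧ (homStab L f).Normal)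
    (f₁ f₂ : L →* A) (h₁ : homStab L f₁ ≠ ⊤) (h₂ : homStab L f₂ ≠ ⊤)
    (hne : homStab L f₁ ≠ homStab L f₂) :
    homStab L (f₁ * f₂) ≤ homStab L f₁ := by
  intro h hh
  rw [mem_homStab, conjHom_mul] at hh
  obtain ⟨hi1, hn1⟩ := H f₁ h₁
  obtain ⟨hi2, hn2⟩ := H f₂ h₂
  have hξ2 : conjHom L f₁ h * f₁⁻¹ = f₂ * (conjHom L f₂ h)⁻¹ := by
    have h1 : conjHom L f₁ h = f₁ * f₂ * (conjHom L f₂ h)⁻¹ := eq_mul_inv_of_mul_eq hh
    rw [h1, mul_assoc f₁, mul_comm f₁, mul_inv_cancel_right]
  have hle1 : homStab L f₁ ≤ homStab L (conjHom L f₁ h * f₁⁻¹) :=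
    le_trans (le_inf (homStab_conj_ge L f₁ hn1 h) (homStab_inv_ge L f₁)) (homStab_mul_ge L _ _)
  have hle2 : homStab L f₂ ≤ homStab L (conjHom L f₁ h * f₁⁻¹) := by
    rw [hξ2]
    exact le_trans (le_inf le_rfl (le_trans (homStab_conj_ge L f₂ hn2 h) (homStab_inv_ge L _)))
      (homStab_mul_ge L _ _)
  by_cases hξ : homStab L (conjHom L f₁ h * f₁⁻¹) = ⊤
  · have hfix : conjHom L (conjHom L f₁ h * f₁⁻¹) h = conjHom L f₁ h * f₁⁻¹ := by
      have : h ∈ homStab L (conjHom L f₁ h * f₁⁻¹) := by rw [hξ]; exact Subgroup.mem_top h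
      exact this
    have hstep : conjHom L f₁ h = f₁ * (conjHom L f₁ h * f₁⁻¹) := by
      simp [mul_comm]
    have key : ∀ k : ℕ, conjHom L f₁ (h ^ k) = f₁ * (conjHom L f₁ h * f₁⁻¹) ^ k := by
      intro k
      induction k with
      | zero => rw [pow_zero, pow_zero, mul_one, conjHom_one]
      | succ k ih =>
        rw [pow_succ, ← conjHom_conjHom, ih, conjHom_mul, conjHom_pow, hfix, pow_succ]
        nth_rewrite 1 [hstep]
        simp [mul_comm, mul_left_comm, mul_assoc]
    have hk : h ^ L.index ∈ L := Subgroup.pow_index_mem L h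
    have h3 : (conjHom L f₁ h * f₁⁻¹) ^ L.index = 1 := by
      have h4 := key L.index
      rw [conjHom_of_mem L f₁ hk] at h4
      exact (mul_eq_left.mp h4.symm)
    have h5 : (conjHom L f₁ h * f₁⁻¹) ^ Nat.card L = 1 := by
      ext l
      rw [MonoidHom.pow_apply, ← map_pow, pow_card_eq_one', map_one]
      rfl
    have h6 : orderOf (conjHom L f₁ h * f₁⁻¹) ∣ 1 := by
      have h7 := Nat.dvd_gcd (orderOf_dvd_of_pow_eq_one h5) (orderOf_dvd_of_pow_eq_one h3)
      rwa [hcop] at h7
    have h8 : conjHom L f₁ h * f₁⁻¹ = 1 := orderOf_eq_one_iff.mp (Nat.dvd_one.mp h6)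
    rw [mem_homStab]
    exact mul_inv_eq_one.mp h8
  · exfalso
    obtain ⟨hi3, -⟩ := H _ hξ
    have e1 := eq_of_le_of_index_eq hle1 (hi1.trans hi3.symm)
    have e2 := eq_of_le_of_index_eq hle2 (hi2.trans hi3.symm)
    exact hne (e1.trans e2.symm)

theorem homStab_eq_of_ne_top [Finite G] (m : ℕ) (hcop : (Nat.card L).Coprime L.index)
    (H : ∀ f : L →* A, homStab L f ≠ ⊤ → (homStab L f).index = m ∧ (homStab L f).Normal)
    (f₁ f₂ : L →* A) (h₁ : homStab L f₁ ≠ ⊤) (h₂ : homStab L f₂ ≠ ⊤) :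
    homStab L f₁ = homStab L f₂ := by
  by_contra hne
  have hA := homStab_mul_le L m hcop H f₁ f₂ h₁ h₂ hne
  have hB := homStab_mul_le L m hcop H f₂ f₁ h₂ h₁ (Ne.symm hne)
  rw [mul_comm f₂ f₁] at hB
  have h3 : homStab L (f₁ * f₂) ≠ ⊤ := by
    intro h
    rw [h] at hA
    exact h₁ (top_le_iff.mp hA)
  have i3 := (H _ h3).1
  have i1 := (H _ h₁).1
  have i2 := (H _ h₂).1
  have e1 := eq_of_le_of_index_eq hA (i3.trans i1.symm)
  have e2 := eq_of_le_of_index_eq hB (i3.trans i2.symm)
  exact hne (e1.symm.trans e2)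

theorem conj_eq_of_forall_homStab (hsep : ∀ l : L, l ≠ 1 → ∃ f : L →* A, f l ≠ 1) (t : G)
    (ht : ∀ f : L →* A, t ∈ homStab L f) (l : G) (hl : l ∈ L) : t * l * t⁻¹ = l := by
  by_contra hne
  have hmem : t * l * t⁻¹ ∈ L := hL.conj_mem l hl t
  have hx : ((⟨t * l * t⁻¹, hmem⟩ : L) * (⟨l, hl⟩ : L)⁻¹ : L) ≠ 1 := by
    intro h
    apply hne
    exact congrArg Subtype.val (mul_inv_eq_one.mp h)
  obtain ⟨f, hf⟩ := hsep _ hx
  apply hf
  have h1 : conjHom L f t = f := ht f
  have h2 := DFunLike.congr_fun h1 ⟨l, hl⟩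
  rw [conjHom_apply] at h2
  rw [map_mul, map_inv]
  exact mul_inv_eq_one.mpr h2

/-- Group-theoretic core of the two-degree theorem: if the homomorphisms of the normal abelian
Hall subgroup `L` separate points and every non-invariant one has a normal inertia group of index
`m` which is abelian modulo `L`, then either some such inertia group is abelian, or `L` is
central. -/
theorem abelian_or_central [Finite G] (m : ℕ) (hcop : (Nat.card L).Coprime L.index)
    (hsep : ∀ l : L, l ≠ 1 → ∃ f : L →* A, f l ≠ 1)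
    (H : ∀ f : L →* A, homStab L f ≠ ⊤ → (homStab L f).index = m ∧ (homStab L f).Normal ∧
      ∀ a ∈ homStab L f, ∀ b ∈ homStab L f, a * b * a⁻¹ * b⁻¹ ∈ L) :
    (∃ T : Subgroup G, T.Normal ∧ T.index = m ∧ ∀ a ∈ T, ∀ b ∈ T, a * b = b * a) ∨
      (∀ l ∈ L, ∀ x : G, l * x = x * l) := by
  by_cases hex : ∃ f₀ : L →* A, homStab L f₀ ≠ ⊤
  · obtain ⟨f₀, h₀⟩ := hex
    left
    obtain ⟨hi, hn, hc⟩ := H f₀ h₀
    refine ⟨homStab L f₀, hn, hi, ?_⟩
    have H' : ∀ f : L →* A, homStab L f ≠ ⊤ →
        (homStab L f).index = m ∧ (homStab L f).Normal :=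
      fun f hf => ⟨(H f hf).1, (H f hf).2.1⟩
    have hall : ∀ f : L →* A, homStab L f₀ ≤ homStab L f := by
      intro f
      by_cases hf : homStab L f = ⊤
      · rw [hf]; exact le_top
      · rw [homStab_eq_of_ne_top L m hcop H' f₀ f h₀ hf]
    have hcent : ∀ t ∈ homStab L f₀, ∀ l ∈ L, t * l * t⁻¹ = l := fun t ht l hl =>
      conj_eq_of_forall_homStab L hsep t (fun f => hall f ht) l hl
    have hLT : L ≤ homStab L f₀ := le_homStab L f₀
    have hcard : Nat.card (L.subgroupOf (homStab L f₀)) = Nat.card L :=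
      Nat.card_congr (Subgroup.subgroupOfEquivOfLe hLT).toEquiv
    have hidx : (L.subgroupOf (homStab L f₀)).index ∣ L.index :=
      Subgroup.relIndex_dvd_index_of_le hLT
    have hab := comm_of_central_coprime (L.subgroupOf (homStab L f₀)) ?_ ?_ ?_
    · intro a ha b hb
      exact congrArg Subtype.val (hab ⟨a, ha⟩ ⟨b, hb⟩)
    · intro l hl x
      rw [Subgroup.mem_subgroupOf] at hl
      have h1 := hcent x x.2 l hl
      apply Subtype.ext
      exact (mul_inv_eq_iff_eq_mul.mp h1).symm
    · intro a b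
      rw [Subgroup.mem_subgroupOf]
      exact hc a a.2 b b.2
    · rw [hcard]
      exact Nat.Coprime.coprime_dvd_right hidx hcop
  · right
    push Not at hex
    intro l hl x
    have h1 := conj_eq_of_forall_homStab L hsep x
      (fun f => by rw [hex f]; exact Subgroup.mem_top x) l hl
    exact (mul_inv_eq_iff_eq_mul.mp h1).symm

end ConjHom

end Cfsg.Agent.Lib.Helper66
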