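import Mathlib
import Cfsg.Agent.Lib.Helper44.UDDefs

/-!
# S5655 piece BLKMONOEX: a block-permuting signed permutation matrix of `SU_n` with prescribed
images of two basis vectors
-/

set_option autoImplicit false

namespace Cfsg.Agent.Lib.Helper44.UD

open Matrix Cfsg.Agent.Lib.Helper93 Cfsg.Agent.Lib.Helper18 Cfsg.Agent.Lib.Helper7

/-- `(-1)^(q+1) = 1` in a field of order `q^2` -/
theorem udblkmonoex_neg_one_pow {F : Type*} [Field F] [Fintype F] (q : ℕ)
    (hF : Fintype.card F = q ^ 2) : (-1 : F) ^ (q + 1) = 1 := by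
  rcases Nat.even_or_odd q with hq | hq
  · obtain ⟨p, hp⟩ := CharP.exists F
    obtain ⟨e, hpp, hcard⟩ := FiniteField.card F p
    have h2q : 2 ∣ p ^ (e : ℕ) := by
      rw [← hcard, hF]
      exact dvd_pow hq.two_dvd (by norm_num)
    have h2p : 2 ∣ p := Nat.Prime.dvd_of_dvd_pow Nat.prime_two h2q
    have hp2 : p = 2 := ((Nat.prime_dvd_prime_iff_eq Nat.prime_two hpp).mp h2p).symm
    subst hp2
    have h2 : (2 : F) = 0 := by
      have := CharP.cast_eq_zero F 2
      exact_mod_cast this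
    have h1 : (-1 : F) = 1 := by linear_combination (-1 : F) * h2
    rw [h1, one_pow]
  · exact Even.neg_one_pow hq.add_one

/-- for every permutation `σ` of the coordinates there is a signed permutation matrix in `SU_n`
following `σ`, with sign `+1` at two prescribed columns -/
theorem udblkmonoex_perm {F : Type*} [Field F] [Fintype F] (q : ℕ) (hF : Fintype.card F = q ^ 2)
    (n : ℕ) (hn : 3 ≤ n) (σ : Equiv.Perm (Fin n)) (a b : Fin n) :
    ∃ g : GL (Fin n) F, g ∈ Cfsg.GU n F q ∧ (g : Matrix (Fin n) (Fin n) F).det = 1 ∧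
      (∀ i j, (g : Matrix (Fin n) (Fin n) F) i j ≠ 0 → i = σ j) ∧
      (g : Matrix (Fin n) (Fin n) F) *ᵥ Pi.single a 1 = Pi.single (σ a) 1 ∧
      (g : Matrix (Fin n) (Fin n) F) *ᵥ Pi.single b 1 = Pi.single (σ b) 1 := by
  classical
  have hinv1 : ∀ x, σ⁻¹ (σ x) = x := fun x => σ.symm_apply_apply x
  have hinv2 : ∀ x, σ (σ⁻¹ x) = x := fun x => σ.apply_symm_apply x
  -- a third index
  obtain ⟨z, hza, hzb⟩ : ∃ z : Fin n, z ≠ a ∧ z ≠ b := by
    by_contra hcon
    push Not at hcon
    have hsub : (Finset.univ : Finset (Fin n)) ⊆ {a, b} := by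
      intro z _
      by_cases hz : z = a
      · simp [hz]
      · simp [hcon z hz]
    have h1 := Finset.card_le_card hsub
    rw [Finset.card_univ, Fintype.card_fin] at h1
    have h2 : ({a, b} : Finset (Fin n)).card ≤ 2 := Finset.card_le_two
    omega
  -- the sign
  obtain ⟨ε, hεdef⟩ : ∃ ε : F, ε = ((σ⁻¹).permMatrix F).det := ⟨_, rfl⟩
  have hε : ε = 1 ∨ ε = -1 := by
    rw [hεdef, Matrix.det_permutation]
    rcases Int.units_eq_one_or (Equiv.Perm.sign σ⁻¹) with h | h <;> rw [h] <;> simp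
  have hεq : ε ^ (q + 1) = 1 := by
    rcases hε with h | h
    · rw [h, one_pow]
    · rw [h]
      exact udblkmonoex_neg_one_pow q hF
  have hεε : ε * ε = 1 := by
    rcases hε with h | h <;> rw [h] <;> ring
  -- the diagonal
  obtain ⟨δ, hδdef⟩ : ∃ δ : Fin n → F, δ = fun j => if j = z then ε else 1 := ⟨_, rfl⟩
  have hδa : δ a = 1 := by
    rw [hδdef]
    simp [hza.symm]
  have hδb : δ b = 1 := by
    rw [hδdef]
    simp [hzb.symm]
  have hδq : ∀ j, δ j ^ (q + 1) = 1 := by
    intro j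
    rw [hδdef]
    simp only
    split_ifs
    · exact hεq
    · exact one_pow _
  have hδprod : ∏ j, δ j = ε := by
    rw [hδdef]
    simp only
    rw [Finset.prod_ite_eq']
    simp
  -- the matrix
  obtain ⟨M, hMdef⟩ : ∃ M : Matrix (Fin n) (Fin n) F,
      M = (σ⁻¹).permMatrix F * Matrix.diagonal δ := ⟨_, rfl⟩
  have hMv : ∀ u : Fin n → F, M *ᵥ u = fun i => δ (σ⁻¹ i) * u (σ⁻¹ i) := by
    intro u
    rw [hMdef, ← Matrix.mulVec_mulVec, Matrix.permMatrix_mulVec]
    funext i
    simp [Matrix.mulVec_diagonal]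
  have hdet : M.det = 1 := by
    rw [hMdef, Matrix.det_mul, Matrix.det_diagonal, hδprod, ← hεdef, hεε]
  have hunit : IsUnit M.det := by
    rw [hdet]
    exact isUnit_one
  refine ⟨Matrix.nonsingInvUnit M hunit, ?_, hdet, ?_, ?_, ?_⟩
  · intro u v
    show Cfsg.hermForm n F q (M *ᵥ u) (M *ᵥ v) = Cfsg.hermForm n F q u v
    rw [hMv, hMv]
    unfold Cfsg.hermForm
    rw [← Equiv.sum_comp σ]
    apply Finset.sum_congr rfl
    intro j _
    simp only [hinv1]
    have h1 := hδq j
    rw [mul_pow]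
    linear_combination (u j * v j ^ q) * h1
  · intro i j h
    by_contra hne
    apply h
    show M i j = 0
    rw [hMdef, Matrix.mul_diagonal]
    have h0 : (σ⁻¹).permMatrix F i j = 0 := by
      rw [Equiv.Perm.permMatrix, PEquiv.toMatrix_apply, if_neg]
      rw [Equiv.toPEquiv_apply, Option.mem_some_iff]
      intro h'
      apply hne
      rw [← h', hinv2]
    rw [h0, zero_mul]
  · show M *ᵥ Pi.single a 1 = Pi.single (σ a) 1
    rw [hMv]
    funext i
    by_cases hi : σ⁻¹ i = a
    · have hic : i = σ a := by rw [← hi, hinv2]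
      rw [hi, hic, Pi.single_eq_same, Pi.single_eq_same, hδa, one_mul]
    · have hic : i ≠ σ a := by
        intro h
        apply hi
        rw [h, hinv1]
      rw [Pi.single_eq_of_ne hi, Pi.single_eq_of_ne hic, mul_zero]
  · show M *ᵥ Pi.single b 1 = Pi.single (σ b) 1
    rw [hMv]
    funext i
    by_cases hi : σ⁻¹ i = b
    · have hic : i = σ b := by rw [← hi, hinv2]
      rw [hi, hic, Pi.single_eq_same, Pi.single_eq_same, hδb, one_mul]
    · have hic : i ≠ σ b := by
        intro h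
        apply hi
        rw [h, hinv1]
      rw [Pi.single_eq_of_ne hi, Pi.single_eq_of_ne hic, mul_zero]

-- piece BLKMONOEX
theorem ud_blkmonoex {F : Type*} [Field F] [Fintype F] (q : ℕ) : BlkMonoExStmt F q := by
  classical
  intro hF n t k e hn a b c d hab hcd
  -- the permutation of the blocks
  obtain ⟨σ₀, hσa, hσb⟩ : ∃ σ₀ : Equiv.Perm (Fin t),
      σ₀ (blkOf e a) = blkOf e c ∧ σ₀ (blkOf e b) = blkOf e d := by
    refine ⟨Equiv.swap (Equiv.swap (blkOf e a) (blkOf e c) (blkOf e b)) (blkOf e d) *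
      Equiv.swap (blkOf e a) (blkOf e c), ?_, ?_⟩
    · rw [Equiv.Perm.mul_apply, Equiv.swap_apply_left]
      apply Equiv.swap_apply_of_ne_of_ne
      · intro h
        have h' : Equiv.swap (blkOf e a) (blkOf e c) (blkOf e c) =
            Equiv.swap (blkOf e a) (blkOf e c) (Equiv.swap (blkOf e a) (blkOf e c) (blkOf e b)) :=
          congrArg _ h
        rw [Equiv.swap_apply_self, Equiv.swap_apply_right] at h'
        exact hab h'
      · exact hcd
    · rw [Equiv.Perm.mul_apply, Equiv.swap_apply_left]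
  -- the permutations inside the blocks
  obtain ⟨τ, hτa, hτb⟩ : ∃ τ : Fin t → Equiv.Perm (Fin k),
      τ (blkOf e a) (e a).2 = (e c).2 ∧ τ (blkOf e b) (e b).2 = (e d).2 := by
    refine ⟨fun s => if s = blkOf e a then Equiv.swap (e a).2 (e c).2
      else if s = blkOf e b then Equiv.swap (e b).2 (e d).2 else 1, ?_, ?_⟩
    · simp only [if_true]
      exact Equiv.swap_apply_left _ _
    · simp only [if_neg (Ne.symm hab), if_true]
      exact Equiv.swap_apply_left _ _
  -- the permutation of the coordinates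
  obtain ⟨π, hπ⟩ : ∃ π : Equiv.Perm (Fin n),
      ∀ i, π i = e.symm (σ₀ (e i).1, τ (e i).1 (e i).2) :=
    ⟨e.trans ((Equiv.prodShear σ₀ τ).trans e.symm), fun i => rfl⟩
  have hπa : π a = c := by
    rw [hπ, Equiv.symm_apply_eq]
    exact Prod.ext hσa hτa
  have hπb : π b = d := by
    rw [hπ, Equiv.symm_apply_eq]
    exact Prod.ext hσb hτb
  have hblk : ∀ i, blkOf e (π i) = σ₀ (blkOf e i) := by
    intro i
    unfold blkOf
    rw [hπ, Equiv.apply_symm_apply]
  obtain ⟨g, hgU, hdet, hsupp, hga, hgb⟩ := udblkmonoex_perm q hF n hn π a b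
  refine ⟨g, hgU, hdet, ⟨σ₀, fun i j h => ?_⟩, 1, 1, one_ne_zero, one_ne_zero, ?_, ?_⟩
  · rw [hsupp i j h, hblk]
  · rw [hga, hπa, one_smul]
  · rw [hgb, hπb, one_smul]

end Cfsg.Agent.Lib.Helper44.UD
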