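import Mathlib
import Cfsg.Agent.Lib.Helper44.UDDefs

/-!
# S5655 piece RKU

If `x dg(j,l,t) x⁻¹` and `x dg(j,l',t) x⁻¹` are monomial (`t² ≠ 1`, `t³ ≠ 1`, `j, l, l'` distinct)
then column `j` of `x` has at most one nonzero entry.  (The proof works for every invertible `x`.)
-/

set_option autoImplicit false

namespace Cfsg.Agent.Lib.Helper44.UD

open Matrix

section
variable {F : Type*} [Field F] {n : ℕ}

theorem udrku_dg_mul (a b : Fin n) (s t : Fˣ) :
    Cfsg.Agent.Lib.Helper65.Mono.dg a b s * Cfsg.Agent.Lib.Helper65.Mono.dg a b t =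
      (Cfsg.Agent.Lib.Helper65.Mono.dg a b (s * t) : GL (Fin n) F) := by
  apply Units.ext
  rw [Units.val_mul]
  unfold Cfsg.Agent.Lib.Helper65.Mono.dg
  rw [Cfsg.Agent.Lib.Helper65.Mono.diagU_val, Cfsg.Agent.Lib.Helper65.Mono.diagU_val,
    Cfsg.Agent.Lib.Helper65.Mono.diagU_val, Matrix.diagonal_mul_diagonal]
  congr 1
  funext i
  unfold Cfsg.Agent.Lib.Helper65.Mono.dgv
  split_ifs <;> simp [mul_comm]

theorem udrku_entry (x : GL (Fin n) F) {j l : Fin n} (hjl : j ≠ l) (τ : Fˣ) {r c : Fin n}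
    (hrc : r ≠ c) :
    ((x * Cfsg.Agent.Lib.Helper65.Mono.dg j l τ * x⁻¹ : GL (Fin n) F) :
        Matrix (Fin n) (Fin n) F) r c =
      ((τ : F) - 1) * ((x : Matrix (Fin n) (Fin n) F) r j *
        ((x⁻¹ : GL (Fin n) F) : Matrix (Fin n) (Fin n) F) j c) +
      (((τ⁻¹ : Fˣ) : F) - 1) * ((x : Matrix (Fin n) (Fin n) F) r l *
        ((x⁻¹ : GL (Fin n) F) : Matrix (Fin n) (Fin n) F) l c) := by
  rw [Cfsg.Agent.Lib.Helper65.Mono.conj_dg_apply x hjl τ r c, if_neg hrc]
  ring

theorem udrku_solve (τ : Fˣ) (hτ : (τ : F) ≠ 1) (P Q : F)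
    (h : ((τ : F) - 1) * P + (((τ⁻¹ : Fˣ) : F) - 1) * Q = 0) : Q = (τ : F) * P := by
  have h1 : (τ : F) * ((τ⁻¹ : Fˣ) : F) = 1 := Units.mul_inv τ
  have h2 : ((τ : F) - 1) * ((τ : F) * P - Q) = 0 := by
    linear_combination (τ : F) * h - Q * h1
  rcases mul_eq_zero.mp h2 with h3 | h3
  · exact absurd (sub_eq_zero.mp h3) hτ
  · exact (sub_eq_zero.mp h3).symm

theorem udrku_mono_mul (A B : Matrix (Fin n) (Fin n) F) (f g : Fin n → Fin n)
    (hA : ∀ r c, A r c ≠ 0 → r = f c) (hB : ∀ r c, B r c ≠ 0 → r = g c) :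
    ∀ r c, (A * B) r c ≠ 0 → r = f (g c) := by
  intro r c h
  by_contra hne
  apply h
  rw [Matrix.mul_apply]
  apply Finset.sum_eq_zero
  intro k _
  by_cases hk : k = g c
  · have h0 : A r k = 0 := by
      by_contra h'
      exact hne (by rw [← hk]; exact hA _ _ h')
    rw [h0, zero_mul]
  · have h0 : B k c = 0 := by
      by_contra h'
      exact hk (hB _ _ h')
    rw [h0, mul_zero]

/-- the abstract core: `Z` monomial invertible with `Z, Z², Z³` of the form
`1 + (τ - 1) u φ + (τ⁻¹ - 1) v ψ` for `τ = t, t², t³`. -/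
theorem udrku_core_abs (Z Z' X Y : Matrix (Fin n) (Fin n) F) (t : Fˣ) (j l c : Fin n)
    (ht2 : (t : F) ^ 2 ≠ 1) (ht3 : (t : F) ^ 3 ≠ 1)
    (hinv : Z' * Z = 1) (hm : IsMono Z)
    (e1 : ∀ r, r ≠ c → Z r c = ((t : F) - 1) * (X r j * Y j c) +
      (((t⁻¹ : Fˣ) : F) - 1) * (X r l * Y l c))
    (e2 : ∀ r, r ≠ c → (Z * Z) r c = (((t * t : Fˣ) : F) - 1) * (X r j * Y j c) +
      ((((t * t)⁻¹ : Fˣ) : F) - 1) * (X r l * Y l c))
    (e3 : ∀ r, r ≠ c → (Z * Z * Z) r c = (((t * t * t : Fˣ) : F) - 1) * (X r j * Y j c) +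
      ((((t * t * t)⁻¹ : Fˣ) : F) - 1) * (X r l * Y l c))
    (hc : Y j c ≠ 0) :
    (∀ r, r ≠ c → X r j = 0) ∨
    ∃ c2, c2 ≠ c ∧ ∀ r, r ≠ c → r ≠ c2 → X r j = 0 ∧ X r l = 0 := by
  classical
  have ht1 : (t : F) ≠ 1 := by
    intro h
    apply ht2
    rw [h, one_pow]
  have ht0 : (t : F) ≠ 0 := t.ne_zero
  have htt : ((t * t : Fˣ) : F) ≠ 1 := by
    rw [Units.val_mul, ← pow_two]
    exact ht2
  have httt : ((t * t * t : Fˣ) : F) ≠ 1 := by
    rw [Units.val_mul, Units.val_mul]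
    intro h
    apply ht3
    rw [← h]
    ring
  choose π hπ0 using hm
  have hπ : ∀ r c, Z r c ≠ 0 → r = π c := fun r c h => hπ0 c r h
  have hcol : ∀ a b : Fin n, ∑ r, Z' a r * Z r b = Z' a (π b) * Z (π b) b := by
    intro a b
    apply Finset.sum_eq_single (π b)
    · intro r _ hr
      have h0 : Z r b = 0 := by
        by_contra h
        exact hr (hπ r b h)
      rw [h0, mul_zero]
    · intro h
      exact absurd (Finset.mem_univ _) h
  have hnz : ∀ c, Z (π c) c ≠ 0 := by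
    intro c h0
    have h2 := congrFun (congrFun hinv c) c
    rw [Matrix.mul_apply, Matrix.one_apply_eq, hcol, h0, mul_zero] at h2
    exact zero_ne_one h2
  have hinj : Function.Injective π := by
    intro a b hab
    by_contra hne
    have h1 := congrFun (congrFun hinv a) b
    rw [Matrix.mul_apply, Matrix.one_apply_ne hne, hcol] at h1
    have h2 := congrFun (congrFun hinv a) a
    rw [Matrix.mul_apply, Matrix.one_apply_eq, hcol] at h2
    rw [← hab] at h1
    rcases mul_eq_zero.mp h1 with h3 | h3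
    · rw [h3, zero_mul] at h2
      exact zero_ne_one h2
    · rw [hab] at h3
      exact hnz b h3
  have hπ2 : ∀ r c, (Z * Z) r c ≠ 0 → r = π (π c) := udrku_mono_mul Z Z π π hπ hπ
  have hπ3 : ∀ r c, (Z * Z * Z) r c ≠ 0 → r = π (π (π c)) :=
    udrku_mono_mul (Z * Z) Z (fun c => π (π c)) π hπ2 hπ
  -- consequences of vanishing entries
  have k1 : ∀ r, r ≠ c → Z r c = 0 → X r l * Y l c = (t : F) * (X r j * Y j c) := by
    intro r hr h0
    exact udrku_solve t ht1 _ _ (by rw [← e1 r hr]; exact h0)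
  have k2 : ∀ r, r ≠ c → (Z * Z) r c = 0 →
      X r l * Y l c = ((t * t : Fˣ) : F) * (X r j * Y j c) := by
    intro r hr h0
    exact udrku_solve (t * t) htt _ _ (by rw [← e2 r hr]; exact h0)
  have k3 : ∀ r, r ≠ c → (Z * Z * Z) r c = 0 →
      X r l * Y l c = ((t * t * t : Fˣ) : F) * (X r j * Y j c) := by
    intro r hr h0
    exact udrku_solve (t * t * t) httt _ _ (by rw [← e3 r hr]; exact h0)
  have k12 : ∀ r, r ≠ c → Z r c = 0 → (Z * Z) r c = 0 →
      X r j * Y j c = 0 ∧ X r l * Y l c = 0 := by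
    intro r hr h0 h0'
    have h1 := k1 r hr h0
    have h2 := k2 r hr h0'
    rw [Units.val_mul] at h2
    have h3 : (t : F) * ((t : F) - 1) * (X r j * Y j c) = 0 := by
      linear_combination h1 - h2
    have h4 : X r j * Y j c = 0 := by
      rcases mul_eq_zero.mp h3 with h5 | h5
      · rcases mul_eq_zero.mp h5 with h6 | h6
        · exact absurd h6 ht0
        · exact absurd (sub_eq_zero.mp h6) ht1
      · exact h5
    refine ⟨h4, ?_⟩
    rw [h1, h4, mul_zero]
  have k23 : ∀ r, r ≠ c → (Z * Z) r c = 0 → (Z * Z * Z) r c = 0 →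
      X r j * Y j c = 0 ∧ X r l * Y l c = 0 := by
    intro r hr h0 h0'
    have h1 := k2 r hr h0
    have h2 := k3 r hr h0'
    rw [Units.val_mul] at h1
    rw [Units.val_mul, Units.val_mul] at h2
    have h3 : (t : F) * (t : F) * ((t : F) - 1) * (X r j * Y j c) = 0 := by
      linear_combination h1 - h2
    have h4 : X r j * Y j c = 0 := by
      rcases mul_eq_zero.mp h3 with h5 | h5
      · rcases mul_eq_zero.mp h5 with h6 | h6
        · rcases mul_eq_zero.mp h6 with h7 | h7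
          · exact absurd h7 ht0
          · exact absurd h7 ht0
        · exact absurd (sub_eq_zero.mp h6) ht1
      · exact h5
    refine ⟨h4, ?_⟩
    rw [h1, h4, mul_zero]
  by_cases hfix : π c = c
  · left
    intro r hr
    have z1 : Z r c = 0 := by
      by_contra h
      exact hr ((hπ r c h).trans hfix)
    have z2 : (Z * Z) r c = 0 := by
      by_contra h
      have := hπ2 r c h
      rw [hfix, hfix] at this
      exact hr this
    have h := (k12 r hr z1 z2).1
    rcases mul_eq_zero.mp h with h' | h'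
    · exact h'
    · exact absurd h' hc
  · have hpp : π (π c) = c := by
      by_contra hpp
      have z2 : (Z * Z) (π c) c = 0 := by
        by_contra h
        have := hπ2 (π c) c h
        exact hfix (hinj this).symm
      have z3 : (Z * Z * Z) (π c) c = 0 := by
        by_contra h
        have := hπ3 (π c) c h
        exact hpp (hinj this).symm
      have h := k23 (π c) hfix z2 z3
      have hz : Z (π c) c = 0 := by
        rw [e1 (π c) hfix, h.1, h.2, mul_zero, mul_zero, add_zero]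
      exact hnz c hz
    have z2 : ∀ r, r ≠ c → (Z * Z) r c = 0 := by
      intro r hr
      by_contra h
      have := hπ2 r c h
      rw [hpp] at this
      exact hr this
    by_cases hlc : Y l c = 0
    · left
      intro r hr
      have h := e2 r hr
      rw [z2 r hr, hlc, mul_zero, mul_zero, add_zero] at h
      rcases mul_eq_zero.mp h.symm with h' | h'
      · exact absurd (sub_eq_zero.mp h') htt
      · rcases mul_eq_zero.mp h' with h'' | h''
        · exact h''
        · exact absurd h'' hc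
    · right
      refine ⟨π c, hfix, ?_⟩
      intro r hr hr2
      have z1 : Z r c = 0 := by
        by_contra h
        exact hr2 (hπ r c h)
      have h := k12 r hr z1 (z2 r hr)
      constructor
      · rcases mul_eq_zero.mp h.1 with h' | h'
        · exact h'
        · exact absurd h' hc
      · rcases mul_eq_zero.mp h.2 with h' | h'
        · exact h'
        · exact absurd h' hlc

theorem udrku_core (x : GL (Fin n) F) {j l : Fin n} (hjl : j ≠ l) (t : Fˣ)
    (ht2 : (t : F) ^ 2 ≠ 1) (ht3 : (t : F) ^ 3 ≠ 1)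
    (hm : IsMono ((x * Cfsg.Agent.Lib.Helper65.Mono.dg j l t * x⁻¹ : GL (Fin n) F) :
      Matrix (Fin n) (Fin n) F))
    (c : Fin n) (hc : ((x⁻¹ : GL (Fin n) F) : Matrix (Fin n) (Fin n) F) j c ≠ 0) :
    (∀ r, r ≠ c → (x : Matrix (Fin n) (Fin n) F) r j = 0) ∨
    ∃ c2, c2 ≠ c ∧ ∀ r, r ≠ c → r ≠ c2 →
      (x : Matrix (Fin n) (Fin n) F) r j = 0 ∧ (x : Matrix (Fin n) (Fin n) F) r l = 0 := by
  have hg2 : (x * Cfsg.Agent.Lib.Helper65.Mono.dg j l t * x⁻¹) *
      (x * Cfsg.Agent.Lib.Helper65.Mono.dg j l t * x⁻¹) =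
      x * Cfsg.Agent.Lib.Helper65.Mono.dg j l (t * t) * x⁻¹ := by
    rw [← udrku_dg_mul]
    group
  have hg3 : (x * Cfsg.Agent.Lib.Helper65.Mono.dg j l t * x⁻¹) *
      (x * Cfsg.Agent.Lib.Helper65.Mono.dg j l t * x⁻¹) *
      (x * Cfsg.Agent.Lib.Helper65.Mono.dg j l t * x⁻¹) =
      x * Cfsg.Agent.Lib.Helper65.Mono.dg j l (t * t * t) * x⁻¹ := by
    rw [← udrku_dg_mul, ← udrku_dg_mul]
    group
  refine udrku_core_abs
    ((x * Cfsg.Agent.Lib.Helper65.Mono.dg j l t * x⁻¹ : GL (Fin n) F) : Matrix (Fin n) (Fin n) F)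
    (((x * Cfsg.Agent.Lib.Helper65.Mono.dg j l t * x⁻¹)⁻¹ : GL (Fin n) F) :
      Matrix (Fin n) (Fin n) F)
    (x : Matrix (Fin n) (Fin n) F) ((x⁻¹ : GL (Fin n) F) : Matrix (Fin n) (Fin n) F) t j l c
    ht2 ht3 ?_ hm ?_ ?_ ?_ hc
  · rw [← Units.val_mul, inv_mul_cancel, Units.val_one]
  · intro r hr
    exact udrku_entry x hjl t hr
  · intro r hr
    rw [← Units.val_mul, hg2]
    exact udrku_entry x hjl (t * t) hr
  · intro r hr
    rw [← Units.val_mul, ← Units.val_mul, hg3]
    exact udrku_entry x hjl (t * t * t) hr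

end

-- piece RKU
theorem ud_rku {F : Type*} [Field F] [Fintype F] (q : ℕ) : RKUStmt F q := by
  classical
  intro _ n x _ j l l' hjl hjl' hll' t _ ht2 ht3 hm hm'
  have hYX : ((x⁻¹ : GL (Fin n) F) : Matrix (Fin n) (Fin n) F) * (x : Matrix (Fin n) (Fin n) F)
      = 1 := by
    rw [← Units.val_mul, inv_mul_cancel, Units.val_one]
  have hyx : ∀ a b : Fin n, ∑ r, ((x⁻¹ : GL (Fin n) F) : Matrix (Fin n) (Fin n) F) a r *
      (x : Matrix (Fin n) (Fin n) F) r b = if a = b then 1 else 0 := by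
    intro a b
    have h := congrFun (congrFun hYX a) b
    rw [Matrix.mul_apply, Matrix.one_apply] at h
    exact h
  -- a column `c` with `(x⁻¹) j c ≠ 0`
  obtain ⟨c, hc⟩ : ∃ c, ((x⁻¹ : GL (Fin n) F) : Matrix (Fin n) (Fin n) F) j c ≠ 0 := by
    by_contra hno
    push Not at hno
    have h := hyx j j
    rw [if_pos rfl, Finset.sum_eq_zero (fun r _ => by rw [hno r, zero_mul])] at h
    exact zero_ne_one h
  rcases udrku_core x hjl t ht2 ht3 hm c hc with h1 | ⟨c2, hc2, h1⟩
  · exact ⟨c, fun r hr => by_contra (fun hne => hr (h1 r hne))⟩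
  rcases udrku_core x hjl' t ht2 ht3 hm' c hc with h2 | ⟨c3, hc3, h2⟩
  · exact ⟨c, fun r hr => by_contra (fun hne => hr (h2 r hne))⟩
  by_cases h23 : c2 = c3
  · exfalso
    subst h23
    -- columns `j, l, l'` of `x` are supported on the rows `c, c2`
    have hsum : ∀ (a b : Fin n), (∀ r, r ≠ c → r ≠ c2 → (x : Matrix (Fin n) (Fin n) F) r b = 0) →
        ((x⁻¹ : GL (Fin n) F) : Matrix (Fin n) (Fin n) F) a c * (x : Matrix (Fin n) (Fin n) F) c b +
        ((x⁻¹ : GL (Fin n) F) : Matrix (Fin n) (Fin n) F) a c2 *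
          (x : Matrix (Fin n) (Fin n) F) c2 b = if a = b then 1 else 0 := by
      intro a b hb
      rw [← hyx a b]
      symm
      apply Fintype.sum_eq_add c c2 hc2.symm
      intro r hr
      rw [hb r hr.1 hr.2, mul_zero]
    have ea := hsum j l (fun r hr hr2 => (h1 r hr hr2).2)
    have eb := hsum j l' (fun r hr hr2 => (h2 r hr hr2).2)
    have ec := hsum l l (fun r hr hr2 => (h1 r hr hr2).2)
    have ed := hsum l l' (fun r hr hr2 => (h2 r hr hr2).2)
    have ee := hsum l' l' (fun r hr hr2 => (h2 r hr hr2).2)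
    rw [if_neg hjl] at ea
    rw [if_neg hjl'] at eb
    rw [if_pos rfl] at ec
    rw [if_neg hll'] at ed
    rw [if_pos rfl] at ee
    have hΔ0 : ((x⁻¹ : GL (Fin n) F) : Matrix (Fin n) (Fin n) F) j c *
        ((x : Matrix (Fin n) (Fin n) F) c l * (x : Matrix (Fin n) (Fin n) F) c2 l' -
          (x : Matrix (Fin n) (Fin n) F) c2 l * (x : Matrix (Fin n) (Fin n) F) c l') = 0 := by
      linear_combination (x : Matrix (Fin n) (Fin n) F) c2 l' * ea -
        (x : Matrix (Fin n) (Fin n) F) c2 l * eb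
    have hΔ : (x : Matrix (Fin n) (Fin n) F) c l * (x : Matrix (Fin n) (Fin n) F) c2 l' -
          (x : Matrix (Fin n) (Fin n) F) c2 l * (x : Matrix (Fin n) (Fin n) F) c l' = 0 := by
      rcases mul_eq_zero.mp hΔ0 with h | h
      · exact absurd h hc
      · exact h
    have hw2 : (x : Matrix (Fin n) (Fin n) F) c2 l' = 0 := by
      linear_combination (-(x : Matrix (Fin n) (Fin n) F) c2 l') * ec +
        (x : Matrix (Fin n) (Fin n) F) c2 l * ed +
        ((x⁻¹ : GL (Fin n) F) : Matrix (Fin n) (Fin n) F) l c * hΔ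
    have hw1 : (x : Matrix (Fin n) (Fin n) F) c l' = 0 := by
      linear_combination (-(x : Matrix (Fin n) (Fin n) F) c l') * ec +
        (x : Matrix (Fin n) (Fin n) F) c l * ed -
        ((x⁻¹ : GL (Fin n) F) : Matrix (Fin n) (Fin n) F) l c2 * hΔ
    rw [hw1, hw2, mul_zero, mul_zero, add_zero] at ee
    exact zero_ne_one ee
  · refine ⟨c, fun r hr => ?_⟩
    by_contra hne
    by_cases hr2 : r = c2
    · have hr3 : r ≠ c3 := by
        rw [hr2]
        exact h23
      exact hr (h2 r hne hr3).1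
    · exact hr (h1 r hne hr2).1

end Cfsg.Agent.Lib.Helper44.UD
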