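import Cfsg.Agent.Lib.Helper22.W2Defs

/-!
# Project W2 (helper22, S4707), piece FCADD (helper66): additivity of the Fourier coefficient `fc`.
-/

set_option autoImplicit false
set_option linter.unusedSectionVars false

namespace Cfsg.Agent.Lib.Helper66.W2

open Cfsg Cfsg.Agent.Lib.Helper22.W2
open scoped ComplexConjugate

universe u

variable {G : Type u} [Group G] [Fintype G]

/-- PIECE FCADD -/
theorem fc_add (p : ℕ) [Fact p.Prime] (w : ℂ) (z : G) (χ ψ : G → ℂ) (u : ZMod p) :
    fc p w z (fun g => χ g + ψ g) u = fc p w z χ u + fc p w z ψ u := by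
  unfold fc
  rw [← mul_add, ← Finset.sum_add_distrib]
  congr 1
  refine Finset.sum_congr rfl fun t _ => ?_
  rw [mul_add]

end Cfsg.Agent.Lib.Helper66.W2
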